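import Cfsg.Agent.MonsterCent.Coords
import Cfsg.Agent.Monster.Singular
import Cfsg.Agent.M24.Scan

/-!
An upper bound for the centraliser in `Co0` of a permutation of the code.
-/

set_option autoImplicit false

namespace Cfsg.Agent.MonsterCent

open Cfsg Cfsg.Agent.Leech Cfsg.Agent.Monster Cfsg.Agent.Golay

/-- The centraliser of an automorphism. -/
abbrev cen (g : Co0) : Subgroup Co0 := Subgroup.centralizer {g}

theorem mem_cen {g h : Co0} : h ∈ cen g ↔ h * g = g * h := Subgroup.mem_centralizer_singleton_iff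

theorem permLift_smul (σ : M24) (x : leechLattice) :
    (permLift σ • x).1 = x.1 ∘ ⇑((σ : Equiv.Perm GolayPt)⁻¹) := by
  show (monomial (inv_mem σ.2) empty_support • x).1 = _
  rw [monomial_smul]
  funext p
  simp [flipOn]

theorem permLift_crossStab (σ : M24) : permLift σ ∈ crossStab := permLift_mem σ

/-- A code word, by its number, is fixed by a coded permutation. -/
def fixWord (t k : ℕ) : Bool :=
  (List.range 24).all fun i => (Golay.enc k).testBit i == (Golay.enc k).testBit (M24.papp t i)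

/-- The monomial automorphisms commuting with a permutation. -/
theorem card_cen_crossStab {σ : M24} {t : ℕ} (ht : M24.Rep t (σ : Equiv.Perm GolayPt)) {m f : ℕ}
    (hm : Nat.card {τ : Equiv.Perm GolayPt // τ ∈ M24 ∧ τ * σ = (σ : Equiv.Perm GolayPt) * τ} = m)
    (hf : ((Finset.range 4096).filter fun k => fixWord t k = true).card = f) :
    Nat.card ↥(cen (permLift σ) ⊓ crossStab) ≤ m * f := by
  have hnb : ∀ (y : GolayPt → ℤ) (a b : Finset GolayPt), (∀ p, y p ≠ 0) → flipOn a y = flipOn b y → a = b := by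
    intro y a b hy h
    ext p
    have := congrFun h p
    have := hy p
    simp only [flipOn] at *
    by_cases h1 : p ∈ a <;> by_cases h2 : p ∈ b
    · simp [h1, h2]
    · rw [if_pos h1, if_neg h2] at *; omega
    · rw [if_neg h1, if_pos h2] at *; omega
    · simp [h1, h2]
  have key : ∀ h : ↥(cen (permLift σ) ⊓ crossStab),
      ∃ k < 4096, fixWord t k = true ∧
        ∀ x : leechLattice, ((h : Co0) • x).1 =
          flipOn (bitSet (Golay.enc k)) (x.1 ∘ ⇑((permHom ⟨h.1, h.2.2⟩)⁻¹)) := by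
    intro h
    set π := permHom ⟨h.1, h.2.2⟩ with hπ
    obtain ⟨-, c, hc, hx⟩ := crossStab_monomial ⟨h.1, h.2.2⟩
    have hcomm : π * σ = (σ : Equiv.Perm GolayPt) * π := by
      have e : (⟨h.1, h.2.2⟩ : crossStab) * ⟨permLift σ, permLift_mem σ⟩ =
          ⟨permLift σ, permLift_mem σ⟩ * ⟨h.1, h.2.2⟩ := Subtype.ext (mem_cen.1 h.2.1)
      have := congrArg permHom e
      rwa [map_mul, map_mul, permHom_permLift] at this
    obtain ⟨w, hw, rfl⟩ := hc
    obtain ⟨k, hk, rfl⟩ := (mem_golayCode_iff w).mp hw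
    rw [← bitSet_eq] at hx
    refine ⟨k, hk, ?_, hx⟩
    have hv := congrArg (fun v : leechLattice => v.1)
      (show h.1 • permLift σ • Spor.leechV = permLift σ • h.1 • Spor.leechV by
        rw [← mul_smul, ← mul_smul, mem_cen.1 h.2.1])
    have hy : ∀ p, (Spor.leechV.1 ∘ ⇑(π⁻¹ * (σ : Equiv.Perm GolayPt)⁻¹)) p ≠ 0 := by
      have : ∀ p, Spor.vecV p ≠ 0 := by decide +kernel
      exact fun p => this _
    have hset : bitSet (Golay.enc k) =
        (bitSet (Golay.enc k)).map ((σ : Equiv.Perm GolayPt)).toEmbedding := by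
      refine hnb _ _ _ hy ?_
      simp only [hx, permLift_smul] at hv
      have hcomm' : π⁻¹ * (σ : Equiv.Perm GolayPt)⁻¹ = (σ : Equiv.Perm GolayPt)⁻¹ * π⁻¹ := by
        rw [← mul_inv_rev, ← mul_inv_rev, hcomm]
      funext p
      have := congrFun hv p
      simp only [flipOn, Function.comp_apply, Finset.mem_map_equiv] at this ⊢
      rw [show ((σ : Equiv.Perm GolayPt)⁻¹) (π⁻¹ p) = (π⁻¹ * (σ : Equiv.Perm GolayPt)⁻¹) p by
        rw [hcomm']; rfl] at this
      exact this
    simp only [fixWord, List.all_eq_true, List.mem_range, beq_iff_eq]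
    intro i hi
    have h2 := Finset.ext_iff.1 hset ((σ : Equiv.Perm GolayPt) (ptOf i))
    rw [Finset.mem_map_equiv, Equiv.symm_apply_apply] at h2
    simp only [bitSet, Finset.mem_filter, Finset.mem_univ, true_and, ht (ptOf i), M24.ptIdx_ptOf i hi] at h2
    exact (Bool.eq_iff_iff.2 h2).symm
  choose k hk hfix hval using key
  have hperm : ∀ h : ↥(cen (permLift σ) ⊓ crossStab), permHom ⟨h.1, h.2.2⟩ ∈ M24 ∧
      permHom ⟨h.1, h.2.2⟩ * σ = (σ : Equiv.Perm GolayPt) * permHom ⟨h.1, h.2.2⟩ := by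
    intro h
    refine ⟨(crossStab_monomial _).1, ?_⟩
    have e : (⟨h.1, h.2.2⟩ : crossStab) * ⟨permLift σ, permLift_mem σ⟩ =
        ⟨permLift σ, permLift_mem σ⟩ * ⟨h.1, h.2.2⟩ := Subtype.ext (mem_cen.1 h.2.1)
    have := congrArg permHom e
    rwa [map_mul, map_mul, permHom_permLift] at this
  let F : ↥(cen (permLift σ) ⊓ crossStab) →
      {τ : Equiv.Perm GolayPt // τ ∈ M24 ∧ τ * σ = (σ : Equiv.Perm GolayPt) * τ} ×
        ↥((Finset.range 4096).filter fun k => fixWord t k = true) :=
    fun h => (⟨_, hperm h⟩, ⟨k h, Finset.mem_filter.2 ⟨Finset.mem_range.2 (hk h), hfix h⟩⟩)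
  have hF : Function.Injective F := by
    intro a b e
    obtain ⟨e1, e2⟩ := Prod.ext_iff.1 e
    refine Subtype.ext (Monster.co0_ext fun x => ?_)
    rw [hval a, hval b, show permHom ⟨a.1, a.2.2⟩ = permHom ⟨b.1, b.2.2⟩ from congrArg Subtype.val e1,
      show k a = k b from congrArg Subtype.val e2]
  refine (Nat.card_le_card_of_injective F hF).trans_eq ?_
  rw [Nat.card_prod, hm, Nat.card_eq_fintype_card, Fintype.card_coe, hf]

variable {g : Co0} {k : ℕ} (X : Coords g k)

/-- The coordinates of the class of the standard cross. -/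
def Coords.std : Co k := X.kap (crossL none)

/-- Classes in the orbit of the standard cross. -/
theorem card_cen_le (h0 : classMap (g • crossL none) = classMap (crossL none)) {s : Set (Co k)}
    (hs : ∀ h ∈ cen g, X.act h X.std ∈ s) {m : ℕ} (hm : Nat.card ↥(cen g ⊓ crossStab) ≤ m) :
    Nat.card (cen g) ≤ s.ncard * m := by
  classical
  haveI := finite_Co0
  have key : ∀ a b : cen g, X.act a X.std = X.act b X.std → (b.1⁻¹ * a.1) ∈ crossStab := by
    intro a b e
    refine mem_classStab.2 (classMap_eq_iff.1 ?_)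
    have hd : classMap (crossL none) = classMap (X.vec X.std) := X.expand h0
    have h1 : ∀ c : cen g, classMap (g • c.1 • X.vec X.std) = classMap (c.1 • X.vec X.std) :=
      fun c => Coords.fixed_smul (mem_cen.1 c.2) (X.vec_fixed_class _)
    have e' := classMap_smul b.1⁻¹ (X.eq_of_kap (h1 a) (h1 b) e)
    rw [inv_smul_smul, ← mul_smul] at e'
    exact hd.trans ((e'.symm).trans (classMap_smul _ hd).symm)
  let C := ↥(cen g)
  let H : Subgroup C := (crossStab).subgroupOf (cen g)
  let F : C ⧸ H → s := fun q => ⟨X.act q.out.1 X.std, hs _ q.out.2⟩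
  have hF : Function.Injective F := by
    intro a b e
    have := key a.out b.out (congrArg Subtype.val e)
    rw [← QuotientGroup.out_eq' a, ← QuotientGroup.out_eq' b, eq_comm, QuotientGroup.eq]
    exact this
  haveI : Fintype (Co k) := inferInstance
  have hle := Nat.card_le_card_of_injective F hF
  rw [Nat.card_coe_set_eq] at hle
  rw [Subgroup.card_eq_card_quotient_mul_card_subgroup H]
  refine Nat.mul_le_mul hle (le_trans (le_of_eq ?_) hm)
  show Nat.card ↥(crossStab.subgroupOf (cen g)) = _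
  rw [← Subgroup.inf_subgroupOf_left, Nat.card_congr (Subgroup.subgroupOfEquivOfLe inf_le_left).toEquiv]

theorem negCo0_comm (h : Co0) : negCo0 * h = h * negCo0 :=
  (Subgroup.mem_center_iff.1 ((center_eq _).2 (Or.inr rfl)) h).symm

theorem negCo0_sq : negCo0 * negCo0 = 1 :=
  Monster.co0_ext fun x => by rw [mul_smul, negCo0_smul, negCo0_smul, neg_neg, one_smul]

theorem orderOf_neg_mul {p : ℕ} (hp : Odd p) (hg : orderOf g = p) : orderOf (g * negCo0) = 2 * p := by
  have hn : orderOf negCo0 = 2 := orderOf_eq_prime (by rw [pow_two, negCo0_sq]) negCo0_ne_one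
  rw [Commute.orderOf_mul_eq_mul_orderOf_of_coprime (negCo0_comm g).symm, hn, hg, mul_comm]
  rw [hg, hn]
  exact Nat.coprime_two_right.2 hp

/-- The identification of the centraliser modulo its obvious part with a target group. -/
structure LeechCent {g : Co0} {k : ℕ} (X : Coords g k) (K : Type*) [Group K] where
  ρ : cen g →* K
  surj : Function.Surjective ρ
  ker_eq : ∀ h : cen g, ρ h = 1 ↔ (h : Co0) ∈ Subgroup.zpowers (g * negCo0)
  triv : ∀ h : cen g, (∀ c, X.act h c = c) → ρ h = 1

/-- A subgroup of the centraliser with a large image is all of it. -/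
theorem exists_leechCent {K : Type*} [Group K] [Finite K] {p : ℕ} (hp : Odd p) (hg : orderOf g = p)
    {H : Subgroup Co0} (hH : H ≤ cen g) (hgH : g * negCo0 ∈ H) (ρ : H →* K)
    (hsurj : Function.Surjective ρ) (hρg : ρ ⟨_, hgH⟩ = 1)
    (htriv : ∀ h : H, (∀ c, X.act h c = c) → ρ h = 1)
    (hcard : Nat.card (cen g) ≤ 2 * p * Nat.card K) : Nonempty (LeechCent X K) := by
  haveI := finite_Co0
  have hz : Subgroup.zpowers (⟨_, hgH⟩ : H) ≤ ρ.ker := Subgroup.zpowers_le.2 hρg
  have hzc : Nat.card (Subgroup.zpowers (⟨_, hgH⟩ : H)) = 2 * p := by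
    rw [Nat.card_zpowers, Subgroup.orderOf_mk, orderOf_neg_mul hp hg]
  have h1 := Subgroup.card_mul_index ρ.ker
  rw [Subgroup.index_ker, MonoidHom.range_eq_top.2 hsurj, Nat.card_congr Subgroup.topEquiv.toEquiv] at h1
  have h2 := Subgroup.card_le_of_le hz
  have h3 := Subgroup.card_le_of_le hH
  rw [hzc] at h2
  have hKpos : 0 < Nat.card K := Nat.card_pos
  have h4 : Nat.card ρ.ker * Nat.card K ≤ 2 * p * Nat.card K := by rw [h1]; exact h3.trans hcard
  have hker : Subgroup.zpowers (⟨_, hgH⟩ : H) = ρ.ker :=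
    Subgroup.eq_of_le_of_card_ge hz (by rw [hzc]; exact Nat.le_of_mul_le_mul_right h4 hKpos)
  obtain rfl : H = cen g := Subgroup.eq_of_le_of_card_ge hH (by
    rw [← h1, ← hker, hzc]; exact hcard)
  refine ⟨⟨ρ, hsurj, fun h => ?_, htriv⟩⟩
  rw [← MonoidHom.mem_ker, ← hker, Subgroup.mem_zpowers_iff, Subgroup.mem_zpowers_iff]
  exact exists_congr fun i => by rw [Subtype.ext_iff, SubgroupClass.coe_zpow]

end Cfsg.Agent.MonsterCent
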