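import Cfsg.Agent.M24.ThreeSubgroups

/-!
Centralisers and classes of elements of odd prime order of M24, read off coded permutations.
-/

set_option autoImplicit false

namespace Cfsg.Agent.MonsterCent

open Cfsg Cfsg.Agent.Golay Cfsg.Agent.M24

/-- The test for `x g = g ^ j x` on the base. -/
def twistFull (t j : ℕ) (f : ℕ → ℕ) : Bool :=
  allBase fun i => Nat.beq (f (papp t i)) (powBase (papp t) j (f i))

/-- The images of base points in one cycle follow the cycle. -/
def twistOK (t j n : ℕ) (im : List ℕ) : Bool :=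
  (List.range im.length).all fun a => (List.range im.length).all fun b => (List.range n).all fun i =>
    !Nat.beq (powBase (papp t) i (basePos a)) (basePos b) ||
      Nat.beq (powBase (papp t) (j * i) (im.getD a 0)) (im.getD b 0)

theorem powBase_papp {t : ℕ} {r : Equiv.Perm GolayPt} (hr : Rep t r) (k : ℕ) (p : GolayPt) :
    powBase (papp t) k (ptIdx p) = ptIdx ((r ^ k) p) := by
  induction k with
  | zero => simp [powBase]
  | succ k ih => rw [powBase, ih, pow_succ', Equiv.Perm.mul_apply, hr]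

theorem twistFull_iff {t j : ℕ} {r g : Equiv.Perm GolayPt} (hr : Rep t r) (hrm : r ∈ M24) (hg : g ∈ M24) :
    twistFull t j (posFun g) = true ↔ g * r = r ^ j * g := by
  rw [twistFull, allBase_iff]
  constructor
  · intro h
    refine eq_of_base (mul_mem hg hrm) (mul_mem (pow_mem hrm j) hg) fun i hi => ptIdx_injective ?_
    have := Nat.eq_of_beq_eq_true (h i hi)
    rwa [← ptIdx_basePt i hi, ← hr, posFun_ptIdx, posFun_ptIdx, powBase_papp hr] at this
  · intro h i hi
    rw [← ptIdx_basePt i hi, ← hr, posFun_ptIdx, posFun_ptIdx, powBase_papp hr, ← Equiv.Perm.mul_apply, h]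
    exact Nat.beq_refl _

theorem tests_twist {t j n : ℕ} {r : Equiv.Perm GolayPt} (hr : Rep t r) (hrm : r ∈ M24) :
    ScanTests (fun g => g * r = r ^ j * g) (twistOK t j n) (twistFull t j) := by
  refine ⟨fun f f' h _ => allBase_congr fun i hi => ?_, fun g hg => (twistFull_iff hr hrm hg).symm,
    fun g _ hp k hk => ?_⟩
  · rw [h _ (hr.papp_lt (basePos_lt i hi)), h _ (basePos_lt i hi)]
  · have hcomm : ∀ i : ℕ, g * r ^ i = (r ^ j) ^ i * g := fun i => (SemiconjBy.pow_right hp i).eq
    simp only [twistOK, baseImages_length, List.all_eq_true, List.mem_range, Bool.or_eq_true, Bool.not_eq_true']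
    intro a ha b hb i _
    by_cases he : Nat.beq (powBase (papp t) i (basePos a)) (basePos b) = true
    · refine Or.inr ?_
      rw [Nat.beq_eq] at he ⊢
      rw [← ptIdx_basePt a (by omega), ← ptIdx_basePt b (by omega), powBase_papp hr] at he
      rw [baseImages_getD g ha, baseImages_getD g hb, powBase_papp hr, pow_mul, ← ptIdx_injective he,
        ← Equiv.Perm.mul_apply, ← Equiv.Perm.mul_apply, hcomm]
    · exact Or.inl (Bool.eq_false_iff.2 he)

theorem card_twist {t j n m : ℕ} {r : Equiv.Perm GolayPt} (hr : Rep t r) (hrm : r ∈ M24)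
    (h : (scan (twistOK t j n) (twistFull t j)).length = m) :
    Nat.card {g : Equiv.Perm GolayPt // g ∈ M24 ∧ g * r = r ^ j * g} = m :=
  h ▸ scan_card (tests_twist hr hrm)

theorem card_commuting {t n m : ℕ} {r : Equiv.Perm GolayPt} (hr : Rep t r) (hrm : r ∈ M24)
    (h : (scan (twistOK t 1 n) (twistFull t 1)).length = m) :
    Nat.card {g : Equiv.Perm GolayPt // g ∈ M24 ∧ g * r = r * g} = m := by
  have := card_twist hr hrm h
  simpa only [pow_one] using this

/-- A certificate that the powers of `t` are conjugate to it or to its inverse. -/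
def powCert (t p : ℕ) (hs : List ℕ) : Bool :=
  (List.range (p - 1)).all fun i => GoodTab (hs.getD i 0) &&
    ((allBase fun x => Nat.beq (papp (hs.getD i 0) (powBase (papp t) (i + 1) x))
        (papp t (papp (hs.getD i 0) x))) ||
      allBase fun x => Nat.beq (papp (hs.getD i 0) (powBase (papp t) (i + 1) x))
        (powBase (papp t) (p - 1) (papp (hs.getD i 0) x)))

theorem pow_classes {t p : ℕ} (hp : 1 < p) {hs : List ℕ} {r : M24} (hr : Rep t (r : Equiv.Perm GolayPt))
    (hord : orderOf r = p) (h : powCert t p hs = true) {i : ℕ} (hi : i < p) (hi0 : i ≠ 0) :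
    ∃ τ : M24, τ * r ^ i * τ⁻¹ = r ∨ τ * r ^ i * τ⁻¹ = r⁻¹ := by
  simp only [powCert, List.all_eq_true, List.mem_range, Bool.and_eq_true, Bool.or_eq_true] at h
  obtain ⟨hgood, hcase⟩ := h (i - 1) (by omega)
  rw [show i - 1 + 1 = i by omega] at hcase
  obtain ⟨a, ha, hrep⟩ := rep_of_good hgood
  have key : ∀ j : ℕ, allBase (fun x => Nat.beq (papp (hs.getD (i - 1) 0) (powBase (papp t) i x))
      (powBase (papp t) j (papp (hs.getD (i - 1) 0) x))) = true →
      (⟨a, ha⟩ : M24) * r ^ i * (⟨a, ha⟩ : M24)⁻¹ = r ^ j := by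
    intro j hj
    rw [mul_inv_eq_iff_eq_mul]
    refine Subtype.ext ?_
    simp only [Subgroup.coe_mul, SubgroupClass.coe_pow]
    refine eq_of_base (mul_mem ha (pow_mem r.2 i)) (mul_mem (pow_mem r.2 j) ha) fun x hx => ptIdx_injective ?_
    have := Nat.eq_of_beq_eq_true (allBase_iff.1 hj x hx)
    rwa [← ptIdx_basePt x hx, powBase_papp hr, ← hrep, ← hrep, powBase_papp hr] at this
  refine ⟨⟨a, ha⟩, hcase.imp (fun hc => ?_) fun hc => ?_⟩
  · rw [key 1 hc, pow_one]
  · rw [key (p - 1) hc]
    refine eq_inv_of_mul_eq_one_left ?_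
    rw [← pow_succ, Nat.sub_add_cancel (by omega), ← hord, pow_orderOf_eq_one]

/-- Elements of order `p`, when `p` divides the order of M24 once. -/
theorem classes_of_sylow {t p : ℕ} [Fact p.Prime] {hs : List ℕ} {r : M24} (hr : Rep t (r : Equiv.Perm GolayPt))
    (hord : orderOf r = p) (h : powCert t p hs = true) (hf : (Nat.card ↥M24).factorization p = 1)
    {x : M24} (hx : orderOf x = p) : ∃ τ : M24, τ * x * τ⁻¹ = r ∨ τ * x * τ⁻¹ = r⁻¹ := by
  have hp : p.Prime := Fact.out
  obtain ⟨k, hk⟩ := MulAction.exists_smul_eq ↥M24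
    (Sylow.ofCard (Subgroup.zpowers x) (by rw [Nat.card_zpowers, hx, hf, pow_one]))
    (Sylow.ofCard (Subgroup.zpowers r) (by rw [Nat.card_zpowers, hord, hf, pow_one]))
  have hk' := congrArg (fun P : Sylow p ↥M24 => (P : Subgroup ↥M24)) hk
  have hmem : k * x * k⁻¹ ∈ Subgroup.zpowers r := by
    exact (SetLike.ext_iff.1 hk' (k * x * k⁻¹)).1 ⟨x, Subgroup.mem_zpowers x, rfl⟩
  obtain ⟨i, hi⟩ := mem_powers_iff_mem_zpowers.2 hmem
  change r ^ i = k * x * k⁻¹ at hi
  rw [← pow_mod_orderOf, hord] at hi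
  have hi0 : i % p ≠ 0 := fun h0 => by
    rw [h0, pow_zero, eq_comm, conj_eq_one_iff] at hi
    rw [hi, orderOf_one] at hx
    exact hp.one_lt.ne hx
  obtain ⟨τ, hτ⟩ := pow_classes hp.one_lt hr hord h (Nat.mod_lt _ hp.pos) hi0
  refine ⟨τ * k, ?_⟩
  rwa [show τ * k * x * (τ * k)⁻¹ = τ * r ^ (i % p) * τ⁻¹ by rw [hi]; group]

end Cfsg.Agent.MonsterCent
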