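import Cfsg.Agent.MonsterCent.Bound
import Cfsg.Agent.MonsterCent.Mathieu
import Cfsg.Agent.Leech.AutOps

/-!
Coordinates and automorphisms given by lists of numbers, with checks for kernel evaluation.
-/

set_option autoImplicit false

namespace Cfsg.Agent.MonsterCent

open Cfsg Cfsg.Agent.Leech Cfsg.Agent.Monster Cfsg.Agent.Golay

/-- A vector given by its 24 coordinates. -/
def ofI (l : List ℤ) : GolayPt → ℤ := fun p => l.getD (ptIdx p) 0

/-- The lattice vector of a list. -/
def mkV (l : List ℤ) : leechLattice :=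
  if h : inLeechB (ofI l) = true then ⟨ofI l, mem_of_inLeechB h⟩ else 0

theorem mkV_val {l : List ℤ} (h : inLeechB (ofI l) = true) : (mkV l).1 = ofI l := by
  rw [mkV, dif_pos h]

/-- The coordinate vector of a number. -/
def cf (k m : ℕ) : Co k := fun j => bif m.testBit j then 1 else 0

/-- The number of a coordinate vector. -/
def toN {k : ℕ} (c : Co k) : ℕ := ∑ j : Fin k, (c j).val * 2 ^ (j : ℕ)

theorem cf_zero (k : ℕ) : cf k 0 = 0 := funext fun j => by simp [cf]

theorem cf_xor (k a b : ℕ) : cf k (a ^^^ b) = cf k a + cf k b := by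
  funext j
  simp only [cf, Nat.testBit_xor, Pi.add_apply]
  cases a.testBit j <;> cases b.testBit j <;> simp <;> rfl

theorem cf_bijective (k : ℕ) : Function.Bijective fun m : Fin (2 ^ k) => cf k m := by
  rw [Fintype.bijective_iff_injective_and_card]
  refine ⟨fun a b h => Fin.ext (Nat.eq_of_testBit_eq fun i => ?_), by simp⟩
  by_cases hi : i < k
  · have := congrFun h ⟨i, hi⟩
    simp only [cf] at this
    cases ha : (a : ℕ).testBit i <;> cases hb : (b : ℕ).testBit i <;> simp [ha, hb] at this ⊢
  · have h2 : 2 ^ k ≤ 2 ^ i := Nat.pow_le_pow_right (by norm_num) (by omega)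
    rw [Nat.testBit_lt_two_pow (a.2.trans_le h2), Nat.testBit_lt_two_pow (b.2.trans_le h2)]

theorem exists_cf {k : ℕ} (c : Co k) : ∃ m < 2 ^ k, c = cf k m := by
  obtain ⟨m, hm⟩ := (cf_bijective k).2 c
  exact ⟨m, m.2, hm.symm⟩

/-- The combination of columns given by the bits of a number. -/
def mapM (cols : List ℕ) : ℕ → ℕ → ℕ
  | 0, _ => 0
  | n + 1, m => mapM cols n m ^^^ bif m.testBit n then cols.getD n 0 else 0

theorem cf_mapM (cols : List ℕ) {k : ℕ} (m : ℕ) : ∀ n, cf k (mapM cols n m) =
    ∑ j ∈ Finset.range n, (if m.testBit j then cf k (cols.getD j 0) else 0)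
  | 0 => by simp [mapM, cf_zero]
  | n + 1 => by
    rw [mapM, cf_xor, cf_mapM cols m n, Finset.sum_range_succ]
    cases m.testBit n <;> simp [cf_zero]

/-- A list of steps. -/
def opsOf (w : List ℕ) : List LOp := w.map LOp.step

theorem opsOf_ok (w : List ℕ) : (opsOf w).all opOK = true := by
  simp [opsOf, List.all_eq_true, opOK]

/-- The automorphism of a list of steps. -/
noncomputable def rawEl (w : List ℕ) : Co0 := opsEl (opsOf w)

theorem rawEl_smul (w : List ℕ) (x : leechLattice) : (rawEl w • x).1 = runV (opsOf w) x.1 := by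
  rw [runV_eq]; exact opsEl_smul (opsOf_ok w) x

/-- The data of the fixed sublattice of a coded permutation. -/
structure Data where
  tab : ℕ
  tinv : ℕ
  n : ℕ
  k : ℕ
  e : List (List ℤ)
  u : List (List ℤ)
  cofs : List (List ℤ)
  den : ℤ
  reps : List (List ℤ × ℤ)

namespace Data

variable (d : Data)

/-- A basis vector. -/
def eI (j : ℕ) : GolayPt → ℤ := ofI (d.e.getD j [])

/-- A dual vector. -/
def uI (j : ℕ) : GolayPt → ℤ := ofI (d.u.getD j [])

/-- The combination isolating a coordinate. -/
def comb (i : ℕ) : GolayPt → ℤ := fun p =>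
  ((List.range d.k).map fun j => (d.cofs.getD i []).getD j 0 * d.uI j p).sum

/-- The check of the permutation. -/
def checkPerm : Bool :=
  M24.GoodTab d.tab && M24.powOne d.n (M24.papp d.tab) && !Nat.beq (M24.fixCount d.tab) 24 &&
    (List.range 24).all fun i => Nat.beq (M24.papp d.tinv (M24.papp d.tab i)) i && Nat.beq (M24.papp d.tab (M24.papp d.tinv i)) i

/-- The check of the basis and the dual system. -/
def checkBasis : Bool :=
  ((List.range d.k).all fun j => inLeechB (d.eI j) && inLeechB (d.uI j) &&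
      (List.range 24).all fun i => d.eI j (ptOf (M24.papp d.tab i)) == d.eI j (ptOf i)) &&
    ((List.range d.k).all fun i => (List.range d.k).all fun j =>
      dotL (d.eI i) (d.uI j) == bif Nat.beq i j then 8 else 0) &&
    !(d.den == 0) &&
    (List.range 24).all fun i => (List.range 24).all fun q =>
      ((List.range d.n).map fun a => d.comb i (ptOf (M24.powBase (M24.papp d.tab) a q))).sum ==
        d.den * ((List.range d.n).countP fun a => Nat.beq (M24.powBase (M24.papp d.tab) a i) q : ℕ)

/-- The check of the representatives of the classes. -/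
def checkReps : Bool :=
  (List.range (2 ^ d.k)).all fun m =>
    let w := ofI (d.reps.getD m ([], 0)).1
    let v : GolayPt → ℤ := fun p => ((List.range d.k).map fun j => bif m.testBit j then d.eI j p else 0).sum
    inLeechB w && (List.range 24).all (fun i => (w (ptOf i) - v (ptOf i)) % 2 == 0) &&
      inLeechB (fun p => (w p - v p) / 2) &&
      dotL w w == (d.reps.getD m ([], 0)).2 && decide ((d.reps.getD m ([], 0)).2 ≤ 64)

/-- The permutation. -/
noncomputable def perm (h : d.checkPerm = true) : M24 :=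
  ⟨M24.elemOf d.tab, (M24.elemOf_spec (by simp only [checkPerm, Bool.and_eq_true] at h; exact h.1.1.1)).1⟩

/-- The automorphism. -/
noncomputable def g (h : d.checkPerm = true) : Co0 := permLift (d.perm h)

variable {d}

theorem rep (h : d.checkPerm = true) : M24.Rep d.tab (d.perm h : Equiv.Perm GolayPt) := by
  have h' := h
  simp only [checkPerm, Bool.and_eq_true] at h'
  exact (M24.elemOf_spec h'.1.1.1).2

theorem inv_apply (h : d.checkPerm = true) {i : ℕ} (hi : i < 24) :
    ((d.perm h : Equiv.Perm GolayPt)⁻¹) (ptOf i) = ptOf (M24.papp d.tinv i) := by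
  have h' := h
  simp only [checkPerm, Bool.and_eq_true, List.all_eq_true, List.mem_range, Nat.beq_eq] at h'
  rw [Equiv.Perm.inv_eq_iff_eq]
  refine ptIdx_injective ?_
  rw [rep h, M24.ptIdx_ptOf i hi]
  have h2 := (h'.2 i hi).2
  by_cases hlt : M24.papp d.tinv i < 24
  · rw [M24.ptIdx_ptOf _ hlt, h2]
  · exfalso
    obtain ⟨j, hj, e⟩ : ∃ j < 24, M24.papp d.tab j = i := by
      refine ⟨ptIdx ((d.perm h : Equiv.Perm GolayPt)⁻¹ (ptOf i)), ptIdx_lt _, ?_⟩
      rw [← rep h, Monster.perm_apply_inv, M24.ptIdx_ptOf i hi]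
    rw [← e, (h'.2 j hj).1] at hlt
    exact hlt hj

theorem order_perm (h : d.checkPerm = true) [Fact d.n.Prime] : orderOf (d.perm h) = d.n := by
  have h' := h
  simp only [checkPerm, Bool.and_eq_true, Bool.not_eq_true'] at h'
  rw [← Subgroup.orderOf_coe]
  refine M24.orderOf_elemOf h'.1.1.1 h'.1.1.2 fun e => ?_
  rw [e, Nat.beq_refl] at h'
  exact Bool.noConfusion h'.1.2

theorem order_g (h : d.checkPerm = true) [Fact d.n.Prime] : orderOf (d.g h) = d.n := by
  rw [← order_perm h]
  exact orderOf_injective permLift (fun a b e => by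
    have := congrArg (fun x : crossStab => permHom x) (show (⟨permLift a, permLift_mem a⟩ : crossStab) = ⟨permLift b, permLift_mem b⟩ from Subtype.ext e)
    simpa [permHom_permLift] using this) _

theorem g_cross (h : d.checkPerm = true) : classMap (d.g h • crossL none) = classMap (crossL none) :=
  (classMap_eq_iff.2 (mem_classStab.1 (permLift_mem _))).symm

theorem exists_coords (h : d.checkPerm = true) [hp : Fact d.n.Prime] (hodd : Odd d.n) (hb : d.checkBasis = true) :
    ∃ X : Coords (d.g h) d.k, ∀ j : Fin d.k, (X.e j).1 = d.eI j ∧ (X.u j).1 = d.uI j := by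
  simp only [checkBasis, Bool.and_eq_true, List.all_eq_true, List.mem_range, beq_iff_eq, Bool.not_eq_true',
    beq_eq_false_iff_ne] at hb
  obtain ⟨⟨⟨hv, hdual⟩, hden⟩, hnd⟩ := hb
  have hfix : ∀ j : Fin d.k, ∀ p, d.eI j ((d.perm h : Equiv.Perm GolayPt) p) = d.eI j p := by
    intro j p
    have h2 := (hv j j.2).2 (ptIdx p) (ptIdx_lt p)
    rwa [← rep h, M24.ptOf_ptIdx, M24.ptOf_ptIdx] at h2
  refine ⟨
    { n := d.n, odd := hodd,
      pow := by rw [← order_g h]; exact pow_orderOf_eq_one _
      e := fun j => mkV (d.e.getD j []), u := fun j => mkV (d.u.getD j [])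
      fix := fun j => Subtype.ext ?_
      dual := fun i j => ?_
      nondeg := fun v hgv hu => ?_ }, fun j => ⟨mkV_val (hv j j.2).1.1, mkV_val (hv j j.2).1.2⟩⟩
  · rw [Data.g, permLift_smul, mkV_val (hv j j.2).1.1]
    funext p
    rw [Function.comp_apply]
    show d.eI j _ = d.eI j p
    rw [← hfix j, Monster.perm_apply_inv]
  · rw [mkV_val (hv i i.2).1.1, mkV_val (hv j j.2).1.2, ← dotL_eq]
    show dotL (d.eI i) (d.uI j) = _
    rw [hdual i i.2 j j.2]
    by_cases e : i = j
    · simp [e]
    · have : Nat.beq (i : ℕ) (j : ℕ) = false := Bool.eq_false_iff.2 fun hh => e (Fin.ext (Nat.eq_of_beq_eq_true hh))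
      simp [e, this]
  · set σ := (d.perm h : Equiv.Perm GolayPt) with hσ
    have hvσ : ∀ (a : ℕ) (p : GolayPt), v.1 ((σ ^ a) p) = v.1 p := by
      intro a p
      induction a with
      | zero => simp
      | succ a ih =>
        have := congrArg (fun w : leechLattice => w.1 ((σ ^ (a + 1)) p)) hgv
        simp only [Data.g, permLift_smul, Function.comp_apply] at this
        rw [← this, pow_succ', Equiv.Perm.mul_apply, ← hσ, Monster.perm_inv_apply, ih]
    refine Subtype.ext (funext fun p => ?_)
    show v.1 p = 0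
    set i := ptIdx p with hi
    have hF : ∑ q, v.1 q * d.comb i q = 0 := by
      have e1 : ∀ j < d.k, dotInt v.1 (d.uI j) = 0 := fun j hj => by
        have := hu ⟨j, hj⟩
        rwa [mkV_val (hv j hj).1.2] at this
      have e2 : ∀ q, d.comb i q = ∑ j ∈ Finset.range d.k, (d.cofs.getD i []).getD j 0 * d.uI j q := fun q => rfl
      simp only [e2, Finset.mul_sum]
      rw [Finset.sum_comm]
      refine Finset.sum_eq_zero fun j hj => ?_
      calc ∑ q, v.1 q * ((d.cofs.getD i []).getD j 0 * d.uI j q)
          = (d.cofs.getD i []).getD j 0 * dotInt v.1 (d.uI j) := by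
            rw [dotInt, Finset.mul_sum]; exact Finset.sum_congr rfl fun q _ => by ring
        _ = 0 := by rw [e1 j (Finset.mem_range.1 hj), mul_zero]
    have hpos : ∀ (a : ℕ) (q : GolayPt), ptOf (M24.powBase (M24.papp d.tab) a (ptIdx q)) = (σ ^ a) q := fun a q => by
      rw [powBase_papp (rep h), M24.ptOf_ptIdx]
    have hsum : ∀ q, ∑ a ∈ Finset.range d.n, d.comb i ((σ ^ a) q) =
        d.den * ∑ a ∈ Finset.range d.n, (if (σ ^ a) p = q then (1 : ℤ) else 0) := by
      intro q
      have h2 := hnd i (ptIdx_lt p) (ptIdx q) (ptIdx_lt q)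
      have hl : ((List.range d.n).map fun a => d.comb i (ptOf (M24.powBase (M24.papp d.tab) a (ptIdx q)))).sum =
          ∑ a ∈ Finset.range d.n, d.comb i ((σ ^ a) q) := by
        simp only [hpos]; rfl
      rw [hl] at h2
      rw [h2, Finset.sum_boole, List.countP_eq_length_filter, ← List.toFinset_card_of_nodup (List.nodup_range.filter _)]
      congr 3
      ext a
      simp only [List.mem_toFinset, List.mem_filter, List.mem_range, Finset.mem_filter, Finset.mem_range, Nat.beq_eq,
        hi, powBase_papp (rep h), ← hσ]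
      exact and_congr_right fun _ => ptIdx_injective.eq_iff
    have key : ∑ q, v.1 q * ∑ a ∈ Finset.range d.n, d.comb i ((σ ^ a) q) = 0 := by
      simp only [Finset.mul_sum]
      rw [Finset.sum_comm]
      refine Finset.sum_eq_zero fun a _ => ?_
      calc ∑ q, v.1 q * d.comb i ((σ ^ a) q) = ∑ q, v.1 ((σ ^ a) q) * d.comb i ((σ ^ a) q) :=
            Finset.sum_congr rfl fun q _ => by rw [hvσ]
        _ = 0 := (Equiv.sum_comp (σ ^ a) fun q => v.1 q * d.comb i q).trans hF
    simp only [hsum, mul_left_comm (v.1 _), ← Finset.mul_sum] at key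
    rw [mul_eq_zero] at key
    have key := key.resolve_left hden
    simp only [Finset.mul_sum, mul_ite, mul_one, mul_zero] at key
    rw [Finset.sum_comm] at key
    simp only [Finset.sum_ite_eq, Finset.mem_univ, if_true, hvσ, Finset.sum_const, Finset.card_range,
      nsmul_eq_mul, mul_eq_zero, Nat.cast_eq_zero] at key
    exact key.resolve_left hp.out.ne_zero

/-- The classes of squared length 64. -/
def types (d : Data) : Finset (Co d.k) :=
  ((Finset.range (2 ^ d.k)).filter fun m => (d.reps.getD m ([], 0)).2 = 64).image (cf d.k)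

variable {h : d.checkPerm = true} {X : Coords (d.g h) d.k}

theorem mem_types (hX : ∀ j : Fin d.k, (X.e j).1 = d.eI j ∧ (X.u j).1 = d.uI j) (hr : d.checkReps = true)
    (c : Co d.k) : c ∈ d.types ↔ ∃ v : leechLattice, sqNorm (v : GolayPt → ℤ) = 64 ∧ classMap v = classMap (X.vec c) := by
  simp only [checkReps, Bool.and_eq_true, List.all_eq_true, List.mem_range, beq_iff_eq, decide_eq_true_eq] at hr
  obtain ⟨m, hm, rfl⟩ := exists_cf c
  obtain ⟨⟨⟨⟨hw, heven⟩, hhalf⟩, hnorm⟩, hle⟩ := hr m hm
  set w : GolayPt → ℤ := ofI (d.reps.getD m ([], 0)).1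
  have hvec : (X.vec (cf d.k m)).1 =
      fun p => ((List.range d.k).map fun j => bif m.testBit j then d.eI j p else 0).sum := by
    funext p
    rw [Coords.vec, AddSubgroup.val_finsetSum, Finset.sum_apply]
    show _ = ∑ j ∈ Finset.range d.k, _
    rw [← Fin.sum_univ_eq_sum_range fun j => bif m.testBit j then d.eI j p else 0]
    refine Finset.sum_congr rfl fun j _ => ?_
    rw [AddSubgroup.coe_nsmul, (hX j).1, Pi.smul_apply]
    cases hb : m.testBit (j : ℕ) <;> simp [cf, hb, ZMod.val_one]
  have hcl : classMap (⟨w, mem_of_inLeechB hw⟩ : leechLattice) = classMap (X.vec (cf d.k m)) := by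
    refine (classMap_eq_iff.2 ?_).symm
    refine ⟨_, mem_of_inLeechB hhalf, funext fun p => ?_⟩
    have h2 := heven (ptIdx p) (ptIdx_lt p)
    rw [M24.ptOf_ptIdx] at h2
    rw [Pi.sub_apply, Pi.smul_apply, hvec]
    simp only [nsmul_eq_mul, Nat.cast_ofNat]
    omega
  have hn : sqNorm w = (d.reps.getD m ([], 0)).2 := by
    rw [← hnorm, dotL_eq]
    simp [sqNorm, dotInt, sq]
  have hmem : cf d.k m ∈ d.types ↔ (d.reps.getD m ([], 0)).2 = 64 := by
    rw [types, Finset.mem_image]
    refine ⟨?_, fun e => ⟨m, Finset.mem_filter.2 ⟨Finset.mem_range.2 hm, e⟩, rfl⟩⟩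
    rintro ⟨m', hm', e⟩
    obtain ⟨h1, h2⟩ := Finset.mem_filter.1 hm'
    have : m' = m := congrArg Fin.val
      ((cf_bijective d.k).1 (show cf d.k (⟨m', Finset.mem_range.1 h1⟩ : Fin (2 ^ d.k)).1 = cf d.k (⟨m, hm⟩ : Fin (2 ^ d.k)).1 from e))
    exact this ▸ h2
  rw [hmem]
  constructor
  · exact fun e => ⟨_, hn.trans e, hcl⟩
  · rintro ⟨v, hv, hc⟩
    have := classes_distinct (v := ⟨w, mem_of_inLeechB hw⟩) (w := v) (hn.trans_le hle) hv.le (hcl.trans hc.symm)
    rw [← hn]
    exact this.trans hv

/-- The classes in the orbit of the cross are classes of squared length 64. -/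
theorem act_std_mem (hX : ∀ j : Fin d.k, (X.e j).1 = d.eI j ∧ (X.u j).1 = d.uI j) (hr : d.checkReps = true)
    {a : Co0} (ha : ∀ c, classMap (d.g h • a • X.vec c) = classMap (a • X.vec c)) :
    X.act a X.std ∈ d.types := by
  refine (mem_types hX hr _).2 ⟨a • crossL none, (a.2.2 _).trans (sqNorm_cross none), ?_⟩
  rw [classMap_smul a (X.expand (g_cross h))]
  exact X.expand (ha _)

/-- The check that a word commutes with the permutation and has given columns. -/
def checkRaw (d : Data) (w : List ℕ) (cols : List ℕ) : Bool :=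
  ((List.range 24).all fun i =>
    (List.range 24).all fun j => runV (opsOf w) (Leech.cross (ptOf (M24.papp d.tab i))) (ptOf (M24.papp d.tab j)) ==
      runV (opsOf w) (Leech.cross (ptOf i)) (ptOf j)) &&
    (List.range d.k).all fun j => (List.range d.k).all fun i =>
      (dotL (runV (opsOf w) (d.eI j)) (d.uI i) / 8 % 2 == 1) == (cols.getD j 0).testBit i

/-- An element of the centraliser with its columns. -/
def IsCol (X : Coords (d.g h) d.k) (a : Co0) (cols : List ℕ) : Prop :=
  a ∈ cen (d.g h) ∧ ∀ m, X.act a (cf d.k m) = cf d.k (mapM cols d.k m)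

theorem isCol_raw (hX : ∀ j : Fin d.k, (X.e j).1 = d.eI j ∧ (X.u j).1 = d.uI j) {w cols : List ℕ}
    (hc : checkRaw d w cols = true) : IsCol X (rawEl w) cols := by
  simp only [checkRaw, Bool.and_eq_true, List.all_eq_true, List.mem_range, beq_iff_eq] at hc
  obtain ⟨hcomm, hcol⟩ := hc
  have hcross : ∀ p : GolayPt, (d.g h • crossL p) = crossL ((d.perm h : Equiv.Perm GolayPt) p) := fun p => by
    refine Subtype.ext (funext fun q => ?_)
    rw [Data.g, permLift_smul]
    simp only [crossL, Leech.cross, Function.comp_apply, Equiv.Perm.inv_eq_iff_eq]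
  refine ⟨mem_cen.2 (Leech.co0_ext fun p => ?_), fun m => ?_⟩
  · rw [mul_smul, mul_smul, hcross]
    refine Subtype.ext (funext fun q => ?_)
    rw [rawEl_smul, Data.g, permLift_smul, Function.comp_apply, rawEl_smul]
    set σ := (d.perm h : Equiv.Perm GolayPt)
    have h2 := hcomm (ptIdx p) (ptIdx_lt p) (ptIdx (σ⁻¹ q)) (ptIdx_lt _)
    rw [← rep h, ← rep h, M24.ptOf_ptIdx, M24.ptOf_ptIdx, M24.ptOf_ptIdx, M24.ptOf_ptIdx,
      Monster.perm_apply_inv] at h2
    exact h2
  · rw [Coords.act_eq_sum, cf_mapM, ← Fin.sum_univ_eq_sum_range]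
    refine Finset.sum_congr rfl fun j _ => ?_
    have e : X.kap (rawEl w • X.e j) = cf d.k (cols.getD j 0) := by
      funext i
      have h2 := hcol j j.2 i i.2
      simp only [Coords.kap, cf, rawEl_smul, (hX j).1, (hX i).2, ← dotL_eq]
      rw [← h2]
      rcases Int.emod_two_eq_zero_or_one (dotL (runV (opsOf w) (d.eI j)) (d.uI i) / 8) with e | e <;>
        simp [e] <;> [exact (ZMod.intCast_zmod_eq_zero_iff_dvd _ 2).2 (Int.dvd_of_emod_eq_zero e);
          rw [← Int.emod_add_mul_ediv (dotL (runV (opsOf w) (d.eI j)) (d.uI i) / 8) 2, e]]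
      simp [show (2 : ZMod 2) = 0 from rfl]
    rw [e]
    show (bif m.testBit j then 1 else 0 : ZMod 2) • _ = _
    cases m.testBit (j : ℕ) <;> simp

/-- Composition of columns. -/
def mulCols (k : ℕ) (A B : List ℕ) : List ℕ := B.map (mapM A k)

theorem IsCol.mul {a b : Co0} {A B : List ℕ} (ha : IsCol X a A) (hb : IsCol X b B) (hl : B.length = d.k) :
    IsCol X (a * b) (mulCols d.k A B) := by
  refine ⟨mul_mem ha.1 hb.1, fun m => ?_⟩
  rw [X.act_comp (mem_cen.1 hb.1), hb.2, ha.2]
  have hlin : ∀ x y, cf d.k (mapM A d.k (x ^^^ y)) = cf d.k (mapM A d.k x) + cf d.k (mapM A d.k y) := fun x y => by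
    rw [← ha.2, ← ha.2, ← ha.2, cf_xor, X.act_add]
  have key : ∀ n ≤ d.k, cf d.k (mapM A d.k (mapM B n m)) = cf d.k (mapM (mulCols d.k A B) n m) := by
    intro n
    induction n with
    | zero => intro _; simp only [mapM]; rw [← ha.2, cf_zero, Coords.act_eq_sum]; simp
    | succ n ih =>
      intro hn
      simp only [mapM]
      rw [hlin, ih (by omega), cf_xor]
      congr 1
      cases m.testBit n
      · simp only [cond_false]; rw [← ha.2, cf_zero, Coords.act_eq_sum]; simp
      · simp only [cond_true, mulCols]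
        rw [List.getD_eq_getElem _ _ (show n < B.length by omega),
          List.getD_eq_getElem _ _ (show n < (B.map _).length by rw [List.length_map]; omega), List.getElem_map]
  exact key d.k le_rfl

/-- The columns of a product of raw words. -/
def prodCols (k : ℕ) (raw : List (List ℕ × List ℕ)) : List ℕ → List ℕ
  | [] => (List.range k).map fun j => 2 ^ j
  | i :: w => mulCols k (raw.getD i ([], [])).2 (prodCols k raw w)

/-- The product of raw words. -/
noncomputable def prodEl (raw : List (List ℕ × List ℕ)) : List ℕ → Co0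
  | [] => 1
  | i :: w => rawEl (raw.getD i ([], [])).1 * prodEl raw w

theorem length_prodCols (k : ℕ) (raw : List (List ℕ × List ℕ)) : ∀ w, (prodCols k raw w).length = k
  | [] => by simp [prodCols]
  | i :: w => by rw [prodCols, mulCols, List.length_map, length_prodCols k raw w]

theorem mapM_id (k m : ℕ) : ∀ n ≤ k, cf k (mapM ((List.range k).map fun j => 2 ^ j) n m) = cf k (m % 2 ^ n) := by
  intro n
  induction n with
  | zero => intro _; simp [mapM, Nat.mod_one]
  | succ n ih =>
    intro hn
    rw [mapM, cf_xor, ih (by omega), List.getD_eq_getElem _ _ (by simp; omega)]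
    simp only [List.getElem_map, List.getElem_range]
    funext i
    simp only [Pi.add_apply, cf, Nat.testBit_mod_two_pow]
    rcases lt_trichotomy (i : ℕ) n with hi | hi | hi
    · cases m.testBit n <;> simp [hi, show (i : ℕ) < n + 1 by omega, Nat.testBit_two_pow, hi.ne']
    · cases hb : m.testBit n <;> simp [hi, hb, Nat.testBit_two_pow]
    · cases m.testBit n <;> simp [show ¬ (i : ℕ) < n by omega, show ¬ (i : ℕ) < n + 1 by omega, Nat.testBit_two_pow, hi.ne]

theorem isCol_prod (hX : ∀ j : Fin d.k, (X.e j).1 = d.eI j ∧ (X.u j).1 = d.uI j) {raw : List (List ℕ × List ℕ)}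
    (hraw : (raw.all fun r => checkRaw d r.1 r.2) = true) :
    ∀ w : List ℕ, (∀ i ∈ w, i < raw.length) → IsCol X (prodEl raw w) (prodCols d.k raw w)
  | [], _ => by
    refine ⟨one_mem _, fun m => ?_⟩
    rw [show prodEl raw [] = 1 from rfl, X.act_one, prodCols, mapM_id d.k m d.k le_rfl]
    funext j
    simp [cf, Nat.testBit_mod_two_pow]
  | i :: w, hw => by
    have hi := hw i List.mem_cons_self
    refine IsCol.mul ?_ (isCol_prod hX hraw w fun a ha => hw a (List.mem_cons_of_mem _ ha)) (length_prodCols _ _ _)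
    rw [List.getD_eq_getElem _ _ hi]
    exact isCol_raw hX (List.all_eq_true.1 hraw _ (List.getElem_mem hi))

end Data

end Cfsg.Agent.MonsterCent
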