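import Cfsg.Agent.MonsterCent.Cert
import Cfsg.Agent.Linear.Transvection

/-!
The centraliser as a group of permutations of objects built from classes.
-/

set_option autoImplicit false

namespace Cfsg.Agent.MonsterCent

open Cfsg Cfsg.Agent.Leech Cfsg.Agent.Monster

variable {g : Co0} {k : ℕ} (X : Coords g k)

/-- The permutations induced on objects told apart by their members. -/
theorem exists_perm_hom {ι : Type} [Finite ι] (mem : ι → Co k → Bool)
    (sep : ∀ i j, (∀ c, mem i c = mem j c) → i = j) (gens : Set (Co0 × Equiv.Perm ι))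
    (hg : ∀ x ∈ gens, x.1 ∈ cen g ∧ ∀ i c, mem (x.2 i) (X.act x.1 c) = mem i c) :
    ∃ ρ : ↥(Subgroup.closure (Prod.fst '' gens)) →* Equiv.Perm ι,
      ρ.range = Subgroup.closure (Prod.snd '' gens) ∧
      (∀ x ∈ gens, ∀ h, ρ ⟨x.1, h⟩ = x.2) ∧ ∀ h, (∀ c, X.act h.1 c = c) → ρ h = 1 := by
  have key : ∀ a ∈ Subgroup.closure (Prod.fst '' gens),
      a ∈ cen g ∧ ∃ π : Equiv.Perm ι, ∀ i c, mem (π i) (X.act a c) = mem i c := by
    intro a ha
    induction ha using Subgroup.closure_induction with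
    | mem a ha => obtain ⟨x, hx, rfl⟩ := ha; exact ⟨(hg x hx).1, _, (hg x hx).2⟩
    | one => exact ⟨one_mem _, 1, fun i c => by rw [X.act_one]; rfl⟩
    | mul a b _ _ iha ihb =>
      obtain ⟨ha, π, hπ⟩ := iha
      obtain ⟨hb, π', hπ'⟩ := ihb
      exact ⟨mul_mem ha hb, π * π', fun i c => by
        rw [X.act_comp (mem_cen.1 hb), Equiv.Perm.mul_apply, hπ, hπ']⟩
    | inv a _ iha =>
      obtain ⟨ha, π, hπ⟩ := iha
      refine ⟨inv_mem ha, π⁻¹, fun i c => ?_⟩
      rw [← hπ (π⁻¹ i) (X.act a⁻¹ c), Monster.perm_apply_inv, ← X.act_comp (mem_cen.1 (inv_mem ha)),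
        mul_inv_cancel, X.act_one]
  have uniq : ∀ (a : Co0), a ∈ cen g → ∀ π π' : Equiv.Perm ι, (∀ i c, mem (π i) (X.act a c) = mem i c) →
      (∀ i c, mem (π' i) (X.act a c) = mem i c) → π = π' := by
    intro a ha π π' h h'
    refine Equiv.ext fun i => sep _ _ fun c => ?_
    have e : c = X.act a (X.act a⁻¹ c) := by
      rw [← X.act_comp (mem_cen.1 (inv_mem ha)), mul_inv_cancel, X.act_one]
    rw [e, h, h']
  choose hc π hπ using fun a : ↥(Subgroup.closure (Prod.fst '' gens)) => key a.1 a.2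
  let ρ : ↥(Subgroup.closure (Prod.fst '' gens)) →* Equiv.Perm ι := MonoidHom.mk' π fun a b =>
    uniq _ (hc (a * b)) _ _ (hπ (a * b)) fun i c => by
      rw [Subgroup.coe_mul, X.act_comp (mem_cen.1 (hc b)), Equiv.Perm.mul_apply, hπ a, hπ b]
  have hgen : ∀ x ∈ gens, ∀ h, ρ ⟨x.1, h⟩ = x.2 := fun x hx h => uniq x.1 (hg x hx).1 _ _ (hπ ⟨x.1, h⟩) (hg x hx).2
  refine ⟨ρ, ?_, hgen, fun h hh => uniq _ (hc h) _ _ (hπ h) fun i c => by rw [hh]; rfl⟩
  have htop : (⊤ : Subgroup ↥(Subgroup.closure (Prod.fst '' gens))) =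
      Subgroup.closure (Subtype.val ⁻¹' (Prod.fst '' gens)) :=
    Subgroup.closure_closure_coe_preimage.symm
  rw [MonoidHom.range_eq_map, htop, MonoidHom.map_closure]
  congr 1
  ext y
  constructor
  · rintro ⟨⟨a, ha⟩, ⟨x, hx, rfl⟩, rfl⟩
    exact ⟨x, hx, (hgen x hx _).symm⟩
  · rintro ⟨x, hx, rfl⟩
    exact ⟨⟨x.1, Subgroup.subset_closure ⟨x, hx, rfl⟩⟩, ⟨x, hx, rfl⟩, hgen x hx _⟩

/-- The centraliser from generators inducing generators of the target. -/
theorem exists_cent_of_perms {ι : Type} [Finite ι] {p : ℕ} (hp : Odd p) (hg' : orderOf g = p)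
    (mem : ι → Co k → Bool) (sep : ∀ i j, (∀ c, mem i c = mem j c) → i = j)
    (l : List (Co0 × Equiv.Perm ι))
    (hl : ∀ x ∈ l, x.1 ∈ cen g ∧ ∀ i c, mem (x.2 i) (X.act x.1 c) = mem i c)
    {K : Type} [Group K] [Finite K] (φ : K →* Equiv.Perm ι) (hφ : Function.Injective φ)
    (hgen : φ.range = Subgroup.closure {π | ∃ x ∈ l, x.2 = π})
    (hcard : Nat.card (cen g) ≤ 2 * p * Nat.card K) : Nonempty (LeechCent X K) := by
  let gens : Set (Co0 × Equiv.Perm ι) := insert (g * negCo0, 1) {x | x ∈ l}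
  have hgn : g * negCo0 ∈ cen g := mem_cen.2 (by rw [mul_assoc, negCo0_comm g])
  have hg0 : ∀ x ∈ gens, x.1 ∈ cen g ∧ ∀ i c, mem (x.2 i) (X.act x.1 c) = mem i c := by
    rintro x (rfl | hx)
    · refine ⟨hgn, fun i c => ?_⟩
      show mem i (X.act (g * negCo0) c) = _
      rw [X.act_comp (negCo0_comm g), X.act_negCo0, X.act_self]
    · exact hl x hx
  obtain ⟨ρ, hrange, hρ, htriv⟩ := exists_perm_hom X mem sep gens hg0
  have hH : Subgroup.closure (Prod.fst '' gens) ≤ cen g :=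
    (Subgroup.closure_le _).2 (by rintro _ ⟨x, hx, rfl⟩; exact (hg0 x hx).1)
  have hgH : g * negCo0 ∈ Subgroup.closure (Prod.fst '' gens) :=
    Subgroup.subset_closure ⟨(g * negCo0, 1), Or.inl rfl, rfl⟩
  have hr : ρ.range = φ.range := by
    rw [hrange, hgen]
    refine le_antisymm ((Subgroup.closure_le _).2 ?_) (Subgroup.closure_mono ?_)
    · rintro _ ⟨x, rfl | hx, rfl⟩
      · exact one_mem _
      · exact Subgroup.subset_closure ⟨x, hx, rfl⟩
    · rintro _ ⟨x, hx, rfl⟩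
      exact ⟨x, Or.inr hx, rfl⟩
  let e : ρ.range ≃* K := (MulEquiv.subgroupCongr hr).trans (MonoidHom.ofInjective hφ).symm
  refine exists_leechCent X hp hg' hH hgH (e.toMonoidHom.comp ρ.rangeRestrict)
    (e.surjective.comp ρ.rangeRestrict_surjective) ?_ (fun h hh => ?_) hcard
  · show e (ρ.rangeRestrict _) = 1
    rw [show ρ.rangeRestrict ⟨g * negCo0, hgH⟩ = 1 from Subtype.ext (hρ _ (Or.inl rfl) hgH), map_one]
  · show e (ρ.rangeRestrict h) = 1
    rw [show ρ.rangeRestrict h = 1 from Subtype.ext (htriv h hh), map_one]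

/-- Products of two transpositions against a fixed one generate the alternating group. -/
theorem closure_eq_alternating {α : Type} [Fintype α] [DecidableEq α] {S : Set (Equiv.Perm α)} (a0 b0 : α)
    (hS : ∀ π ∈ S, Equiv.Perm.sign π = 1)
    (h : ∀ a b : α, a ≠ b → Equiv.swap a b * Equiv.swap a0 b0 ∈ Subgroup.closure S) :
    Subgroup.closure S = alternatingGroup α := by
  refine le_antisymm ((Subgroup.closure_le _).2 fun π hπ => Equiv.Perm.mem_alternatingGroup.2 (hS π hπ)) ?_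
  rw [← Equiv.Perm.closure_three_cycles_eq_alternating, Subgroup.closure_le]
  intro σ hσ
  have h3 : σ.IsThreeCycle := hσ
  obtain ⟨a, ha⟩ : ∃ a, a ∈ σ.support := Finset.card_pos.1 (by rw [h3.card_support]; norm_num)
  have hnd := h3.nodup_iff_mem_support.mpr ha
  have h1 := h a (σ a) (fun e => Equiv.Perm.mem_support.1 ha e.symm)
  have h2 := h (σ a) (σ (σ a)) (fun e => Equiv.Perm.mem_support.1 (Equiv.Perm.apply_mem_support.2 ha) e.symm)
  have hm := mul_mem h1 (inv_mem h2)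
  rw [mul_inv_rev, Equiv.swap_inv, Equiv.swap_inv, mul_assoc, ← mul_assoc (Equiv.swap a0 b0),
    Equiv.swap_mul_self, one_mul, ← h3.eq_swap_mul_swap_iff_mem_support.mpr ha] at hm
  exact hm

end Cfsg.Agent.MonsterCent
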