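import Cfsg.Agent.MonsterCent.Fusion
import Cfsg.Agent.MonsterCent.Perms

/-!
Bounds for the centraliser from the data, and the passage from the hypotheses of the statements.
-/

set_option autoImplicit false

namespace Cfsg.Agent.MonsterCent

open Cfsg Cfsg.Agent.Leech Cfsg.Agent.Monster

namespace Data

variable {d : Data} {h : d.checkPerm = true} {X : Coords (d.g h) d.k}

/-- The scan for the centraliser in M24 and the count of the invariant code words. -/
def checkStab (d : Data) (m f : ℕ) : Bool :=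
  Nat.beq (M24.scan (twistOK d.tab 1 d.n) (twistFull d.tab 1)).length m &&
    Nat.beq ((List.range 4096).countP fun k => fixWord d.tab k) f

theorem card_stab {m f : ℕ} (hs : checkStab d m f = true) :
    Nat.card ↥(cen (d.g h) ⊓ crossStab) ≤ m * f := by
  rw [checkStab, Bool.and_eq_true] at hs
  obtain ⟨hs1, hs2⟩ := hs
  refine card_cen_crossStab (rep h) (card_commuting (rep h) (d.perm h).2 (Nat.eq_of_beq_eq_true hs1)) ?_
  have key : ∀ N : ℕ, ((Finset.range N).filter fun k => fixWord d.tab k = true).card =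
      (List.range N).countP fun k => fixWord d.tab k := by
    intro N
    rw [List.countP_eq_length_filter, ← List.toFinset_card_of_nodup (List.nodup_range.filter _)]
    exact congrArg Finset.card (Finset.ext fun a => by simp only [Finset.mem_filter, Finset.mem_range, List.mem_toFinset, List.mem_filter, List.mem_range])
  exact (key 4096).trans (Nat.eq_of_beq_eq_true hs2)

theorem card_cen_of_types (hX : ∀ j : Fin d.k, (X.e j).1 = d.eI j ∧ (X.u j).1 = d.uI j) (hr : d.checkReps = true)
    {t m f : ℕ} (ht : d.types.card = t) (hs : checkStab d m f = true) :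
    Nat.card (cen (d.g h)) ≤ t * (m * f) := by
  refine (card_cen_le X (g_cross h) (s := (d.types : Set (Co d.k))) (fun a ha => ?_) (card_stab hs)).trans_eq ?_
  · exact act_std_mem hX hr fun c => Coords.fixed_smul (mem_cen.1 ha) (X.vec_fixed_class c)
  · rw [Set.ncard_coe_finset, ht]

theorem card_types {t : ℕ} (ht : ((List.range (2 ^ d.k)).countP fun m => (d.reps.getD m ([], 0)).2 == 64) = t) :
    d.types.card = t := by
  rw [types, Finset.card_image_of_injOn fun a ha b hb e => ?_, ← ht, List.countP_eq_length_filter,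
    ← List.toFinset_card_of_nodup (List.nodup_range.filter _)]
  · congr 1
    ext a
    simp
  · have ha' := Finset.mem_range.1 (Finset.mem_filter.1 ha).1
    have hb' := Finset.mem_range.1 (Finset.mem_filter.1 hb).1
    exact congrArg Fin.val ((cf_bijective d.k).1 (show cf d.k (⟨a, ha'⟩ : Fin (2 ^ d.k)).1 = cf d.k (⟨b, hb'⟩ : Fin (2 ^ d.k)).1 from e))

end Data

variable {G : Type*} [Group G] [Finite G] {z : G} {Q : Subgroup (Subgroup.centralizer ({z} : Set G))} [Q.Normal]
  {e : (Subgroup.centralizer ({z} : Set G)) ⧸ Q ≃* Spor.Co1} {ψ : leechLattice → Q ⧸ Subgroup.center Q}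

/-- The order of the joint centraliser at an odd prime. -/
theorem factorization_joint {s : G} {S : MSetting z Q e ψ} (J : JointData S s) {p : ℕ} (hp : p.Prime) (hodd : p ≠ 2) :
    (Nat.card ↥(joint z s)).factorization p = (Nat.card ↥M24).factorization p := by
  haveI : Fact (Nat.Prime 2) := ⟨Nat.prime_two⟩
  have h := Subgroup.card_mul_index J.π.ker
  rw [Subgroup.index_ker, MonoidHom.range_eq_top.2 J.surj, Nat.card_congr Subgroup.topEquiv.toEquiv] at h
  obtain ⟨n, hn⟩ := IsPGroup.iff_card.1 J.ker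
  rw [← h, hn, Nat.factorization_mul (by positivity) Nat.card_pos.ne', Finsupp.add_apply,
    Nat.factorization_pow, Finsupp.smul_apply, Nat.Prime.factorization Nat.prime_two,
    Finsupp.single_eq_of_ne hodd, smul_zero, zero_add]

theorem order_pi {s : G} {S : MSetting z Q e ψ} (J : JointData S s) {p : ℕ} (hp : p.Prime) (hodd : p ≠ 2)
    {b : joint z s} (hb : orderOf b = p) : orderOf (J.π b) = p := by
  haveI := Fact.mk hp
  refine orderOf_eq_prime (by rw [← map_pow, ← hb, pow_orderOf_eq_one, map_one]) fun h1 => ?_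
  obtain ⟨n, hn⟩ := J.ker ⟨b, h1⟩
  have h2 : orderOf b ∣ 2 ^ n := orderOf_dvd_of_pow_eq_one (congrArg Subtype.val hn)
  rw [hb] at h2
  exact hodd ((Nat.prime_dvd_prime_iff_eq hp Nat.prime_two).1 (hp.dvd_of_dvd_pow h2))

/-- A subgroup of prime order of the joint centraliser has a generator matching a standard element. -/
theorem exists_generator {s : G} {S : MSetting z Q e ψ} (J : JointData S s) {p : ℕ} (hp : p.Prime) (hodd : p ≠ 2)
    {B : Subgroup G} (hB : B ≤ joint z s) (hBp : Nat.card B = p) (r : M24)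
    (hr : ∀ x : joint z s, (x : G) ∈ B → orderOf x = p → ∃ τ : M24, τ * J.π x * τ⁻¹ = r ∨ τ * J.π x * τ⁻¹ = r⁻¹) :
    ∃ b : joint z s, orderOf b = p ∧ B = Subgroup.zpowers (b : G) ∧ ∃ τ : M24, τ * J.π b * τ⁻¹ = r := by
  haveI := Fact.mk hp
  obtain ⟨x, hx⟩ := exists_prime_orderOf_dvd_card' (G := B) p (by rw [hBp])
  rw [← Subgroup.orderOf_coe] at hx
  have hgen : ∀ y : G, y ∈ B → orderOf y = p → B = Subgroup.zpowers y := fun y hy hy' =>
    (Subgroup.eq_of_le_of_card_ge (Subgroup.zpowers_le.2 hy) (by rw [hBp, Nat.card_zpowers, hy'])).symm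
  let b : joint z s := ⟨(x : G), hB x.2⟩
  have hb : orderOf b = p := by rw [← Subgroup.orderOf_coe]; exact hx
  obtain ⟨τ, hτ | hτ⟩ := hr b x.2 hb
  · exact ⟨b, hb, hgen _ x.2 hx, τ, hτ⟩
  · refine ⟨b⁻¹, by rw [orderOf_inv, hb], hgen _ (inv_mem x.2) (by rw [InvMemClass.coe_inv, orderOf_inv, hx]), τ, ?_⟩
    rw [map_inv, show τ * (J.π b)⁻¹ * τ⁻¹ = (τ * J.π b * τ⁻¹)⁻¹ by group, hτ, inv_inv]

/-- The fusion hypothesis when all elements of the given order of M24 fall in one class or its inverse. -/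
theorem fuse_of_classes {s : G} {S : MSetting z Q e ψ} (J : JointData S s) {p : ℕ} (hp : p.Prime) (hodd : p ≠ 2)
    (r : M24) (hcl : ∀ x : M24, orderOf x = p → ∃ τ : M24, τ * x * τ⁻¹ = r ∨ τ * x * τ⁻¹ = r⁻¹)
    (b y : joint z s) (hb : orderOf b = p) (hy : orderOf y = p) :
    ∃ τ : M24, J.π y = τ * J.π b * τ⁻¹ ∨ J.π y = τ * (J.π b)⁻¹ * τ⁻¹ := by
  obtain ⟨a, ha⟩ := hcl _ (order_pi J hp hodd hb)
  obtain ⟨c, hc⟩ := hcl _ (order_pi J hp hodd hy)
  refine ⟨c⁻¹ * a, ?_⟩
  rcases ha with ha | ha <;> rcases hc with hc | hc <;> [left; right; right; left] <;>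
    calc J.π y = c⁻¹ * (c * J.π y * c⁻¹) * c := by group
      _ = _ := by rw [hc]; first
        | (rw [← ha]; group; done)
        | (rw [← inv_inv (c⁻¹ * r⁻¹ * c)]; simp only [← ha]; group; done)
        | (rw [show r = (r⁻¹)⁻¹ from (inv_inv r).symm, ← ha]; group; done)

end Cfsg.Agent.MonsterCent
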