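import Cfsg.Agent.Monster.Short
import Cfsg.Prelude.Def_MonsterType

/-!
Classes modulo twice the lattice fixed by an automorphism of odd order, in coordinates.
-/

set_option autoImplicit false

namespace Cfsg.Agent.MonsterCent

open Cfsg Cfsg.Agent.Leech Cfsg.Agent.Monster

/-- Coordinate vectors of the classes. -/
abbrev Co (k : ℕ) := Fin k → ZMod 2

/-- A basis of the fixed vectors of `g` with a dual system in the lattice. -/
structure Coords (g : Co0) (k : ℕ) where
  n : ℕ
  odd : Odd n
  pow : g ^ n = 1
  e : Fin k → leechLattice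
  u : Fin k → leechLattice
  fix : ∀ j, g • e j = e j
  dual : ∀ i j, dotInt (e i).1 (u j).1 = if i = j then 8 else 0
  nondeg : ∀ v : leechLattice, g • v = v → (∀ j, dotInt v.1 (u j).1 = 0) → v = 0

theorem classMap_add (v w : leechLattice) : classMap (v + w) = classMap v + classMap w :=
  QuotientAddGroup.mk_add _ v w

theorem classMap_zero : classMap (0 : leechLattice) = 0 := QuotientAddGroup.mk_zero _

theorem classMap_double (v : leechLattice) : classMap v + classMap v = 0 := by
  rw [← classMap_add, ← classMap_zero, classMap_eq_iff]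
  refine Cong.symm ⟨v.1, v.2, ?_⟩
  rw [AddSubgroup.coe_add, ZeroMemClass.coe_zero, sub_zero, two_nsmul]

theorem classMap_smul (h : Co0) {v w : leechLattice} (e : classMap v = classMap w) :
    classMap (h • v) = classMap (h • w) :=
  classMap_eq_iff.2 (cong_smul h (classMap_eq_iff.1 e))

theorem classMap_pow_smul {g : Co0} {v : leechLattice} (h : classMap (g • v) = classMap v) :
    ∀ i : ℕ, classMap ((g ^ i) • v) = classMap v
  | 0 => by rw [pow_zero, one_smul]
  | i + 1 => by rw [pow_succ', mul_smul, classMap_smul g (classMap_pow_smul h i), h]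

theorem dotInt_add' (x y w : leechLattice) : dotInt (x + y).1 w.1 = dotInt x.1 w.1 + dotInt y.1 w.1 :=
  dotInt_add_left x.1 y.1 w.1

namespace Coords

variable {g : Co0} {k : ℕ} (X : Coords g k)

/-- The coordinates of the class of a vector. -/
def kap (v : leechLattice) : Co k := fun j => ((dotInt v.1 (X.u j).1 / 8 : ℤ) : ZMod 2)

/-- The fixed vector with given coordinates. -/
def vec (c : Co k) : leechLattice := ∑ j, (c j).val • X.e j

theorem kap_add (v w : leechLattice) : X.kap (v + w) = X.kap v + X.kap w := by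
  funext j
  simp only [kap, Pi.add_apply, dotInt_add']
  rw [Int.add_ediv_of_dvd_left (eight_dvd_dotInt _ _), Int.cast_add]

theorem kap_zero : X.kap 0 = 0 := by
  funext j
  simp [kap, dotInt]

/-- The additive map of coordinates. -/
def kapHom : leechLattice →+ Co k :=
  AddMonoidHom.mk' X.kap X.kap_add

theorem kap_eq {v w : leechLattice} (h : classMap v = classMap w) : X.kap v = X.kap w := by
  obtain ⟨z, hz, e⟩ := classMap_eq_iff.1 h
  have e1 : w = v + (⟨z, hz⟩ + ⟨z, hz⟩) := Subtype.ext (by
    rw [AddSubgroup.coe_add, AddSubgroup.coe_add, ← two_nsmul, ← e]; abel)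
  rw [e1, X.kap_add, X.kap_add, show X.kap ⟨z, hz⟩ + X.kap ⟨z, hz⟩ = 0 from
    funext fun j => CharTwo.add_self_eq_zero _, add_zero]

theorem kap_e (i : Fin k) : X.kap (X.e i) = Pi.single i 1 := by
  funext j
  simp only [kap, X.dual, Pi.single_apply, eq_comm (a := i)]
  split_ifs <;> simp

theorem kap_vec (c : Co k) : X.kap (X.vec c) = c := by
  show X.kapHom (∑ j, (c j).val • X.e j) = c
  rw [map_sum]
  funext i
  simp only [map_nsmul]
  show (∑ j, (c j).val • X.kap (X.e j)) i = c i
  rw [Finset.sum_apply, Finset.sum_eq_single i]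
  · rw [Pi.smul_apply, kap_e, Pi.single_eq_same]
    rcases zmod2_cases (c i) with e | e <;> simp [e, ZMod.val_one]
  · intro j _ hj
    rw [Pi.smul_apply, kap_e, Pi.single_eq_of_ne hj.symm, nsmul_zero]
  · simp

theorem vec_fixed (c : Co k) : g • X.vec c = X.vec c := by
  let L : leechLattice →+ leechLattice := AddMonoidHom.mk' (g • ·) (co0_add g)
  show L (∑ j, (c j).val • X.e j) = _
  rw [map_sum]
  refine Finset.sum_congr rfl fun j _ => ?_
  rw [map_nsmul]
  show (c j).val • (g • X.e j) = _
  rw [X.fix]

/-- A class fixed by `g` is the class of a combination of the basis. -/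
theorem expand {v : leechLattice} (hv : classMap (g • v) = classMap v) :
    classMap v = classMap (X.vec (X.kap v)) := by
  let L : leechLattice →+ leechLattice := AddMonoidHom.mk' (g • ·) (co0_add g)
  let C : leechLattice →+ leechLattice ⧸ twiceSub := QuotientAddGroup.mk' twiceSub
  have hC : ∀ w, C w = classMap w := fun _ => rfl
  set N : leechLattice := ∑ i ∈ Finset.range X.n, (g ^ i) • v with hN
  have hfix : g • N = N := by
    show L N = N
    rw [hN, map_sum]
    have hs : ∀ i, L ((g ^ i) • v) = (g ^ (i + 1)) • v := fun i => by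
      show g • (g ^ i) • v = _
      rw [pow_succ', mul_smul]
    simp only [hs]
    have h1 := Finset.sum_range_succ (fun i => (g ^ i) • v) X.n
    have h2 := Finset.sum_range_succ' (fun i => (g ^ i) • v) X.n
    rw [h2, X.pow, pow_zero] at h1
    exact add_right_cancel h1
  have hNv : classMap N = classMap v := by
    rw [← hC, ← hC, hN, map_sum]
    simp only [hC, classMap_pow_smul hv, Finset.sum_const, Finset.card_range]
    obtain ⟨m, hm⟩ := X.odd
    rw [hm, add_nsmul, mul_comm, mul_nsmul', two_nsmul, classMap_double, nsmul_zero, zero_add, one_nsmul]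
  set a : Fin k → ℤ := fun j => dotInt N.1 (X.u j).1 / 8 with ha
  set W : leechLattice := ∑ j, a j • X.e j with hW
  have hWfix : g • W = W := by
    show L W = W
    rw [hW, map_sum]
    refine Finset.sum_congr rfl fun j _ => ?_
    rw [map_zsmul]
    show a j • (g • X.e j) = _
    rw [X.fix]
  have hNW : N - W = 0 := by
    refine X.nondeg _ (by rw [co0_sub, hfix, hWfix]) fun j => ?_
    obtain ⟨D, hD0⟩ : ∃ D : leechLattice →+ ℤ, ∀ w, D w = dotInt w.1 (X.u j).1 :=
      ⟨AddMonoidHom.mk' (fun w => dotInt w.1 (X.u j).1) (fun x y => dotInt_add' x y _), fun _ => rfl⟩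
    have hD : ∀ i, D (X.e i) = if i = j then 8 else 0 := fun i => (hD0 _).trans (X.dual i j)
    rw [← hD0]
    have hDW : D W = dotInt N.1 (X.u j).1 / 8 * 8 := by
      show D (∑ i, a i • X.e i) = _
      simp only [map_sum, map_zsmul, hD, smul_eq_mul, mul_ite, mul_zero, Finset.sum_ite_eq', Finset.mem_univ, if_true]
      rfl
    rw [map_sub, hDW, hD0]
    rw [Int.ediv_mul_cancel (eight_dvd_dotInt _ _), sub_self]
  rw [sub_eq_zero] at hNW
  rw [← hNv, ← X.kap_eq hNv, hNW, ← hC, ← hC, hW, vec, map_sum, map_sum]
  refine Finset.sum_congr rfl fun j _ => ?_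
  have hk : X.kap W j = ((a j : ℤ) : ZMod 2) := by
    rw [ha, ← hNW]; rfl
  rw [← hW, hk, map_zsmul, map_nsmul]
  rcases Int.even_or_odd' (a j) with ⟨m, hm | hm⟩ <;> rw [hm]
  · rw [show (((2 * m : ℤ)) : ZMod 2) = 0 by simp [show (2 : ZMod 2) = 0 from rfl], ZMod.val_zero,
      zero_nsmul, mul_comm, mul_zsmul, two_zsmul, hC, classMap_double, zsmul_zero]
  · rw [show (((2 * m + 1 : ℤ)) : ZMod 2) = 1 by simp [show (2 : ZMod 2) = 0 from rfl], ZMod.val_one,
      one_nsmul, add_zsmul, mul_comm, mul_zsmul, two_zsmul, hC, classMap_double, zsmul_zero, zero_add, one_zsmul]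

theorem eq_of_kap {v w : leechLattice} (hv : classMap (g • v) = classMap v)
    (hw : classMap (g • w) = classMap w) (h : X.kap v = X.kap w) : classMap v = classMap w := by
  rw [X.expand hv, X.expand hw, h]

theorem vec_fixed_class (c : Co k) : classMap (g • X.vec c) = classMap (X.vec c) := by
  rw [X.vec_fixed]

/-- The map of classes induced by an automorphism. -/
def act (h : Co0) (c : Co k) : Co k := X.kap (h • X.vec c)

theorem act_mul {a b : Co0} (hb : ∀ c, classMap (g • b • X.vec c) = classMap (b • X.vec c)) (c : Co k) :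
    X.act (a * b) c = X.act a (X.act b c) := by
  rw [act, mul_smul]
  exact X.kap_eq (classMap_smul a (X.expand (hb c)))

theorem fixed_smul {h : Co0} (hh : h * g = g * h) {v : leechLattice}
    (hv : classMap (g • v) = classMap v) : classMap (g • h • v) = classMap (h • v) := by
  rw [← mul_smul, ← hh, mul_smul, classMap_smul h hv]

theorem act_comp {a b : Co0} (hb : b * g = g * b) (c : Co k) :
    X.act (a * b) c = X.act a (X.act b c) :=
  X.act_mul (fun d => fixed_smul hb (X.vec_fixed_class d)) c

theorem act_one (c : Co k) : X.act 1 c = c := by rw [act, one_smul, X.kap_vec]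

theorem act_negCo0 (c : Co k) : X.act negCo0 c = c := by
  rw [act, negCo0_smul]
  calc X.kap (-X.vec c) = X.kap (X.vec c) := X.kap_eq (classMap_eq_iff.2 (cong_neg (X.vec c).2))
    _ = c := X.kap_vec c

theorem act_self (c : Co k) : X.act g c = c := by rw [act, X.vec_fixed, X.kap_vec]

theorem act_add (h : Co0) (c d : Co k) : X.act h (c + d) = X.act h c + X.act h d := by
  have e : classMap (X.vec (c + d)) = classMap (X.vec c + X.vec d) := by
    refine X.eq_of_kap (X.vec_fixed_class _) ?_ ?_
    · rw [co0_add, X.vec_fixed, X.vec_fixed]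
    · rw [X.kap_add, X.kap_vec, X.kap_vec, X.kap_vec]
  rw [act, X.kap_eq (classMap_smul h e), co0_add, X.kap_add]; rfl

/-- The action on classes is determined by the images of the basis. -/
theorem act_eq_sum (h : Co0) (c : Co k) :
    X.act h c = ∑ j, c j • X.kap (h • X.e j) := by
  let L : leechLattice →+ Co k := X.kapHom.comp (AddMonoidHom.mk' (h • ·) (co0_add h))
  show L (∑ j, (c j).val • X.e j) = _
  rw [map_sum]
  refine Finset.sum_congr rfl fun j _ => ?_
  rw [map_nsmul]
  show (c j).val • X.kap (h • X.e j) = c j • _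
  rcases zmod2_cases (c j) with e | e <;> simp [e, ZMod.val_one]

end Coords

end Cfsg.Agent.MonsterCent
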