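import Cfsg.Agent.MonsterCent.Targets
import Cfsg.Agent.MonsterCent.Perms

/-!
The wreath product of the alternating group of degree five by a group of order two.
-/

set_option autoImplicit false

namespace Cfsg.Agent.MonsterCent.WreathFive

open Cfsg

/-- The base group as permutations of the two summands. -/
def base : alternatingGroup (Fin 5) × alternatingGroup (Fin 5) →* Equiv.Perm (Fin 5 ⊕ Fin 5) :=
  (Equiv.Perm.sumCongrHom (Fin 5) (Fin 5)).comp ((alternatingGroup (Fin 5)).subtype.prodMap (alternatingGroup (Fin 5)).subtype)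

theorem base_apply (σ τ : alternatingGroup (Fin 5)) :
    base (σ, τ) = Equiv.Perm.sumCongr (σ : Equiv.Perm (Fin 5)) (τ : Equiv.Perm (Fin 5)) := rfl

/-- The exchange of the summands. -/
def flip : Equiv.Perm (Fin 5 ⊕ Fin 5) := Equiv.sumComm (Fin 5) (Fin 5)

theorem flip_mul_base (σ τ : alternatingGroup (Fin 5)) : flip * base (σ, τ) = base (τ, σ) * flip := by
  ext (i | i) <;> rfl

theorem flip_sq : flip * flip = 1 := by
  ext (i | i) <;> rfl

theorem base_injective : Function.Injective base := by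
  intro a b h
  have h' := Equiv.Perm.sumCongrHom_injective h
  exact Prod.ext (Subtype.ext (congrArg Prod.fst h')) (Subtype.ext (congrArg Prod.snd h'))

theorem base_mem (a : alternatingGroup (Fin 5) × alternatingGroup (Fin 5)) : base a ∈ alternatingFiveWreathTwo :=
  Subgroup.subset_closure (Or.inl ⟨a.1, a.2, rfl⟩)

theorem flip_mem : flip ∈ alternatingFiveWreathTwo := Subgroup.subset_closure (Or.inr rfl)

theorem cases_of_mem {x : Equiv.Perm (Fin 5 ⊕ Fin 5)} (hx : x ∈ alternatingFiveWreathTwo) :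
    ∃ a, x = base a ∨ x = base a * flip := by
  have hf : ∀ a : alternatingGroup (Fin 5) × alternatingGroup (Fin 5), flip * base a = base (a.2, a.1) * flip :=
    fun a => flip_mul_base a.1 a.2
  induction hx using Subgroup.closure_induction with
  | mem x hx =>
    rcases hx with ⟨σ, τ, rfl⟩ | hx
    · exact ⟨(σ, τ), Or.inl rfl⟩
    · exact ⟨1, Or.inr (by rw [map_one, one_mul]; exact hx)⟩
  | one => exact ⟨1, Or.inl (map_one _).symm⟩
  | mul x y _ _ ihx ihy =>
    obtain ⟨a, rfl | rfl⟩ := ihx <;> obtain ⟨b, rfl | rfl⟩ := ihy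
    · exact ⟨a * b, Or.inl (map_mul _ _ _).symm⟩
    · exact ⟨a * b, Or.inr (by rw [map_mul, mul_assoc])⟩
    · exact ⟨a * (b.2, b.1), Or.inr (by rw [map_mul, mul_assoc, mul_assoc, hf])⟩
    · refine ⟨a * (b.2, b.1), Or.inl ?_⟩
      rw [map_mul, mul_assoc, ← mul_assoc flip, hf, mul_assoc (base (b.2, b.1)), flip_sq, mul_one]
  | inv x _ ihx =>
    obtain ⟨a, rfl | rfl⟩ := ihx
    · exact ⟨a⁻¹, Or.inl (map_inv _ _).symm⟩
    · refine ⟨(a.2⁻¹, a.1⁻¹), Or.inr ?_⟩
      rw [mul_inv_rev, inv_eq_of_mul_eq_one_left flip_sq, ← map_inv]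
      exact hf a⁻¹

theorem card_ge : 7200 ≤ Nat.card alternatingFiveWreathTwo := by
  have h5 : Nat.card (alternatingGroup (Fin 5)) = 60 := by
    rw [Nat.card_eq_fintype_card]; decide +kernel
  have hinj : Function.Injective fun x : (alternatingGroup (Fin 5) × alternatingGroup (Fin 5)) × Bool =>
      (⟨base x.1 * bif x.2 then flip else 1, mul_mem (base_mem _) (by cases x.2 <;> [exact one_mem _; exact flip_mem])⟩ :
        alternatingFiveWreathTwo) := by
    intro x y h
    have h' : base x.1 * (bif x.2 then flip else 1) = base y.1 * (bif y.2 then flip else 1) := congrArg Subtype.val h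
    have hne : ∀ a b, base a ≠ base b * flip := fun a b e => by
      have := DFunLike.congr_fun e (Sum.inl 0)
      simp [base, flip] at this
    obtain ⟨a, i⟩ := x
    obtain ⟨b, j⟩ := y
    cases i <;> cases j <;> simp only [cond_false, cond_true, mul_one] at h'
    · rw [base_injective h']
    · exact absurd h' (hne _ _)
    · exact absurd h'.symm (hne _ _)
    · rw [base_injective (mul_right_cancel h')]
  have := Nat.card_le_card_of_injective _ hinj
  rwa [Nat.card_prod, Nat.card_prod, h5, Nat.card_eq_fintype_card, Fintype.card_bool] at this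

theorem core (N : Subgroup alternatingFiveWreathTwo) (hN : N.Normal) (h2 : IsPGroup 2 ↥N) : N = ⊥ := by
  haveI : IsSimpleGroup (alternatingGroup (Fin 5)) := alternatingGroup.isSimpleGroup (by simp)
  haveI : Fact (Nat.Prime 2) := ⟨Nat.prime_two⟩
  let i1 : alternatingGroup (Fin 5) →* alternatingFiveWreathTwo :=
    (base.comp (MonoidHom.inl _ _)).codRestrict _ fun a => base_mem _
  let i2 : alternatingGroup (Fin 5) →* alternatingFiveWreathTwo :=
    (base.comp (MonoidHom.inr _ _)).codRestrict _ fun a => base_mem _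
  have hcomm : ∀ {n : alternatingFiveWreathTwo}, n ∈ N → ∀ c, n * c * n⁻¹ * c⁻¹ ∈ N := fun {n} hn c => by
    rw [mul_assoc n c, mul_assoc n]; exact mul_mem hn (hN.conj_mem _ (inv_mem hn) c)
  have hbot : ∀ i : alternatingGroup (Fin 5) →* alternatingFiveWreathTwo, Function.Injective i → N.comap i = ⊥ := by
    intro i hi
    refine core_of_simple (by norm_num : Nat.Prime 3) (by norm_num) ?_ _ (hN.comap i) ?_
    · rw [Nat.card_eq_fintype_card]; decide +kernel
    · exact h2.comap_of_injective i hi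
  have h1 := hbot i1 fun a b h => congrArg Prod.fst (base_injective (congrArg Subtype.val h))
  have h1' := hbot i2 fun a b h => congrArg Prod.snd (base_injective (congrArg Subtype.val h))
  obtain ⟨t, ht⟩ : ∃ t : alternatingGroup (Fin 5), orderOf t = 3 := by
    haveI : Fact (Nat.Prime 3) := ⟨Nat.prime_three⟩
    exact exists_prime_orderOf_dvd_card' 3 (by rw [Nat.card_eq_fintype_card]; decide +kernel)
  have hc5 : Subgroup.center (alternatingGroup (Fin 5)) = ⊥ :=
    (IsSimpleGroup.eq_bot_or_eq_top_of_normal _ inferInstance).resolve_right fun h => by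
      have : ∀ a : alternatingGroup (Fin 5), a ∈ Subgroup.center _ := fun a => h ▸ Subgroup.mem_top a
      revert this
      simp only [Subgroup.mem_center_iff]
      decide +kernel
  refine Subgroup.eq_bot_iff_forall _ |>.2 fun n hn => ?_
  obtain ⟨⟨σ, τ⟩, e | e⟩ := cases_of_mem n.2
  · have hσ : σ = 1 := by
      rw [← Subgroup.mem_bot, ← hc5, Subgroup.mem_center_iff]
      intro c
      have he : n * i1 c * n⁻¹ * (i1 c)⁻¹ = i1 (σ * c * σ⁻¹ * c⁻¹) := by
        refine Subtype.ext ?_
        show (n : Equiv.Perm (Fin 5 ⊕ Fin 5)) * base (c, 1) * (↑n)⁻¹ * (base (c, 1))⁻¹ = base (σ * c * σ⁻¹ * c⁻¹, 1)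
        rw [e, ← map_inv, ← map_inv, ← map_mul, ← map_mul, ← map_mul]
        simp
      have := hcomm hn (i1 c)
      rw [he, ← Subgroup.mem_comap, h1, Subgroup.mem_bot, mul_inv_eq_one, mul_inv_eq_iff_eq_mul] at this
      exact this.symm
    have hτ : τ = 1 := by
      rw [← Subgroup.mem_bot, ← hc5, Subgroup.mem_center_iff]
      intro c
      have he : n * i2 c * n⁻¹ * (i2 c)⁻¹ = i2 (τ * c * τ⁻¹ * c⁻¹) := by
        refine Subtype.ext ?_
        show (n : Equiv.Perm (Fin 5 ⊕ Fin 5)) * base (1, c) * (↑n)⁻¹ * (base (1, c))⁻¹ = base (1, τ * c * τ⁻¹ * c⁻¹)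
        rw [e, ← map_inv, ← map_inv, ← map_mul, ← map_mul, ← map_mul]
        simp
      have := hcomm hn (i2 c)
      rw [he, ← Subgroup.mem_comap, h1', Subgroup.mem_bot, mul_inv_eq_one, mul_inv_eq_iff_eq_mul] at this
      exact this.symm
    exact Subtype.ext (by rw [e, hσ, hτ]; exact map_one base)
  · exfalso
    have h3 := hcomm hn (i1 t)
    have he : ((n * i1 t * n⁻¹ * (i1 t)⁻¹ : alternatingFiveWreathTwo) : Equiv.Perm (Fin 5 ⊕ Fin 5)) =
        base (t⁻¹, τ * t * τ⁻¹) := by
      show (n : Equiv.Perm (Fin 5 ⊕ Fin 5)) * base (t, 1) * (↑n)⁻¹ * (base (t, 1))⁻¹ = _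
      rw [e, mul_assoc (base (σ, τ)) flip, flip_mul_base, mul_inv_rev, ← mul_assoc (base (σ, τ)),
        mul_assoc _ flip, mul_inv_cancel_left, ← map_inv, ← map_inv, ← map_mul, ← map_mul, ← map_mul]
      simp
    obtain ⟨k, hk⟩ := h2 ⟨_, h3⟩
    have hk' := congrArg (fun q : N => ((q : alternatingFiveWreathTwo) : Equiv.Perm (Fin 5 ⊕ Fin 5))) hk
    simp only [SubmonoidClass.coe_pow, OneMemClass.coe_one, he, ← map_pow] at hk'
    have hk2 := congrArg Prod.fst (base_injective (hk'.trans (map_one base).symm))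
    have hd : orderOf (t⁻¹) ∣ 2 ^ k := orderOf_dvd_of_pow_eq_one hk2
    rw [orderOf_inv, ht] at hd
    exact absurd (Nat.prime_three.dvd_of_dvd_pow hd) (by norm_num)

end Cfsg.Agent.MonsterCent.WreathFive
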