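import Cfsg.Agent.MonsterCent.Words
import Cfsg.Agent.MonsterCent.WreathFive
import Cfsg.Agent.MonsterCent.FiveChecks

/-!
The centraliser in `Co0` of an element of order 5.
-/

set_option autoImplicit false

namespace Cfsg.Agent.MonsterCent.Five

open Cfsg Cfsg.Agent.Leech Cfsg.Agent.Monster Cfsg.Agent.MonsterCent Cfsg.Agent.Golay

/-- The element of order 5 of M24. -/
noncomputable abbrev r : M24 := data.perm check_perm

/-- Its lift. -/
noncomputable abbrev g : Co0 := data.g check_perm

instance : Fact (Nat.Prime data.n) := ⟨by decide +kernel⟩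

theorem order_r : orderOf r = 5 := Data.order_perm check_perm

/-- A 3-cycle of consecutive points. -/
def cyc (a : ℕ) : Equiv.Perm (Fin 5) :=
  Equiv.swap (Fin.ofNat 5 a) (Fin.ofNat 5 (a + 1)) * Equiv.swap (Fin.ofNat 5 (a + 1)) (Fin.ofNat 5 (a + 2))

/-- The generators. -/
def gen (a : ℕ) : Equiv.Perm (Fin 5 ⊕ Fin 5) :=
  if a < 3 then Equiv.Perm.sumCongr (cyc a) 1 else
    if a < 6 then Equiv.Perm.sumCongr 1 (cyc (a - 3)) else WreathFive.flip

/-- The number of an object. -/
def num : Fin 5 ⊕ Fin 5 → ℕ
  | Sum.inl i => i.val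
  | Sum.inr i => i.val + 5

/-- The object of a number. -/
def obj (n : ℕ) : Fin 5 ⊕ Fin 5 := if n < 5 then Sum.inl (Fin.ofNat 5 n) else Sum.inr (Fin.ofNat 5 n)

/-- The images of the blocks under a generator. -/
def img (a : ℕ) : List ℕ := (List.range 10).map fun n => num (gen a (obj n))

/-- The check of the generators. -/
def genCheck : Bool := (List.range 7).all fun a => wordCheck data raw blocks (words.getD a []) (img a)

theorem gen_check : genCheck = true := by decide +kernel

theorem sep_check : blockSep blocks data.k 10 = true := by decide +kernel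

theorem num_facts : ∀ i, num i < 10 ∧ obj (num i) = i := by decide +kernel

theorem pairs_check : ∀ a b : Fin 5, a ≠ b →
    (∀ x ∈ pairs.getD ((a : ℕ) * 5 + b) [], x < 3) ∧
      ((pairs.getD ((a : ℕ) * 5 + b) []).map cyc).prod = Equiv.swap a b * Equiv.swap 0 1 := by decide +kernel

theorem sign_cyc {a : ℕ} (ha : a < 3) : Equiv.Perm.sign (cyc a) = 1 := by
  have : ∀ a : Fin 3, Equiv.Perm.sign (cyc a) = 1 := by decide +kernel
  exact this ⟨a, ha⟩

theorem closure_cyc : Subgroup.closure {π | ∃ a < 3, cyc a = π} = alternatingGroup (Fin 5) := by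
  refine closure_eq_alternating (0 : Fin 5) 1 ?_ fun a b hab => ?_
  · rintro _ ⟨a, ha, rfl⟩
    exact sign_cyc ha
  · obtain ⟨h1, h2⟩ := pairs_check a b hab
    rw [← h2]
    refine Subgroup.list_prod_mem _ fun π hπ => ?_
    obtain ⟨x, hx, rfl⟩ := List.mem_map.1 hπ
    exact Subgroup.subset_closure ⟨x, h1 x hx, rfl⟩

theorem closure_gen : Subgroup.closure {π | ∃ a < 7, gen a = π} = alternatingFiveWreathTwo := by
  refine le_antisymm ((Subgroup.closure_le _).2 ?_) ((Subgroup.closure_le _).2 ?_)
  · rintro _ ⟨a, ha, rfl⟩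
    unfold gen
    split_ifs with h1 h2
    · exact Subgroup.subset_closure (Or.inl ⟨⟨cyc a, sign_cyc h1⟩, 1, rfl⟩)
    · exact Subgroup.subset_closure (Or.inl ⟨1, ⟨cyc (a - 3), sign_cyc (by omega)⟩, rfl⟩)
    · exact WreathFive.flip_mem
  · set H := Subgroup.closure {π | ∃ a < 7, gen a = π}
    let f := Equiv.Perm.sumCongrHom (Fin 5) (Fin 5)
    have hl : alternatingGroup (Fin 5) ≤ H.comap (f.comp (MonoidHom.inl _ _)) := by
      rw [← closure_cyc, Subgroup.closure_le]
      rintro _ ⟨a, ha, rfl⟩
      exact Subgroup.subset_closure ⟨a, by omega, by simp [gen, ha, f]⟩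
    have hr : alternatingGroup (Fin 5) ≤ H.comap (f.comp (MonoidHom.inr _ _)) := by
      rw [← closure_cyc, Subgroup.closure_le]
      rintro _ ⟨a, ha, rfl⟩
      exact Subgroup.subset_closure ⟨a + 3, by omega, by simp [gen, show a < 3 from ha, f]⟩
    rintro x (⟨σ, τ, rfl⟩ | rfl)
    · have h1 : f ((σ : Equiv.Perm (Fin 5)), 1) ∈ H := hl σ.2
      have h2 : f (1, (τ : Equiv.Perm (Fin 5))) ∈ H := hr τ.2
      have := mul_mem h1 h2
      rw [← map_mul, Prod.mk_mul_mk, mul_one, one_mul] at this
      exact this
    · exact Subgroup.subset_closure ⟨6, by omega, rfl⟩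

theorem exists_cent : ∃ X : Coords g data.k,
    (∀ j : Fin data.k, (X.e j).1 = data.eI j ∧ (X.u j).1 = data.uI j) ∧
      Nonempty (LeechCent X alternatingFiveWreathTwo) := by
  obtain ⟨X, hX⟩ := Data.exists_coords check_perm (show Odd data.n by decide) check_basis
  refine ⟨X, hX, ?_⟩
  have hgc := gen_check
  simp only [genCheck, List.all_eq_true, List.mem_range] at hgc
  refine exists_cent_of_perms X (p := 5) (by decide) (Data.order_g check_perm)
    (fun i c => blockMem blocks (num i) c) ?_
    ((List.range 7).map fun a => (Data.prodEl raw (words.getD a []), gen a)) ?_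
    alternatingFiveWreathTwo.subtype (Subgroup.subtype_injective _) ?_ ?_
  · intro i j h
    rw [← (num_facts i).2, ← (num_facts j).2, eq_of_blockSep sep_check (num_facts i).1 (num_facts j).1 h]
  · intro x hx
    obtain ⟨a, ha, rfl⟩ := List.mem_map.1 hx
    obtain ⟨h1, h2⟩ := mem_of_wordCheck hX check_raw sep_check (hgc a (List.mem_range.1 ha))
    refine ⟨h1, fun i c => ?_⟩
    have h3 := h2 (num i) (by simpa [img] using (num_facts i).1) c
    rw [show (img a).getD (num i) 0 = num (gen a i) by simp [img, (num_facts i).1, (num_facts i).2]] at h3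
    exact h3
  · rw [Subgroup.range_subtype, ← closure_gen]
    refine congrArg Subgroup.closure (Set.ext fun π => ?_)
    simp
  · refine (Data.card_cen_of_types hX check_reps (Data.card_types count_types) check_stab).trans ?_
    exact le_trans (by norm_num) (Nat.mul_le_mul_left (2 * 5) WreathFive.card_ge)

/-- Conjugators of the powers. -/
def conjList : List ℕ := [984818244535754528103549039458486304, 984494520731921762994871257372068866, 984237524269918934728204244506181729, 984731762807256713012318347127161923]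

theorem pow_cert : powCert data.tab 5 conjList = true := by decide +kernel

theorem factorization_five : (Nat.card ↥M24).factorization 5 = 1 := by
  rw [Golay.card_M24, show (244823040 : ℕ) = 5 ^ 1 * 48964608 by norm_num,
    Nat.factorization_mul (by norm_num) (by norm_num),
    Nat.Prime.factorization_pow (by norm_num : Nat.Prime 5), Finsupp.add_apply, Finsupp.single_eq_same,
    Nat.factorization_eq_zero_of_not_dvd (by norm_num : ¬ 5 ∣ 48964608), add_zero]

theorem classes {x : M24} (hx : orderOf x = 5) : ∃ τ : M24, τ * x * τ⁻¹ = r ∨ τ * x * τ⁻¹ = r⁻¹ := by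
  haveI : Fact (Nat.Prime 5) := ⟨by norm_num⟩
  exact classes_of_sylow (Data.rep check_perm) order_r pow_cert factorization_five hx

end Cfsg.Agent.MonsterCent.Five
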