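import Cfsg.Agent.MonsterCent.Local
import Cfsg.Agent.LargeExtra.PairGroup

/-!
Conjugates of `z` in the centraliser of an element of odd order, and the count of them in `Q`.
-/

set_option autoImplicit false

namespace Cfsg.Agent.MonsterCent

open Cfsg Cfsg.Agent.Leech Cfsg.Agent.Monster

variable {G : Type*} [Group G] [Finite G] {z : G} {Q : Subgroup (Subgroup.centralizer ({z} : Set G))} [Q.Normal]
  {e : (Subgroup.centralizer ({z} : Set G)) ⧸ Q ≃* Spor.Co1} {ψ : leechLattice → Q ⧸ Subgroup.center Q}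

omit [Finite G] in
/-- An element permuting `z`, `z s`, `s` cyclically normalises their joint centraliser. -/
theorem conj_mem_joint {r s x : G} (hzs : z * s = s * z) (hz : z * z = 1) (hr : r * z * r⁻¹ = z * s)
    (hr' : r * s * r⁻¹ = z) (hx : x ∈ joint z s) : r * x * r⁻¹ ∈ joint z s := by
  obtain ⟨h1, h2⟩ := mem_joint.1 hx
  have e1 : r * x * r⁻¹ * z = z * (r * x * r⁻¹) := by
    calc r * x * r⁻¹ * z = r * x * r⁻¹ * (r * s * r⁻¹) := by rw [hr']
      _ = r * (x * s) * r⁻¹ := by group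
      _ = r * (s * x) * r⁻¹ := by rw [h2]
      _ = r * s * r⁻¹ * (r * x * r⁻¹) := by group
      _ = z * (r * x * r⁻¹) := by rw [hr']
  have e2 : r * x * r⁻¹ * (z * s) = z * s * (r * x * r⁻¹) := by
    calc r * x * r⁻¹ * (z * s) = r * x * r⁻¹ * (r * z * r⁻¹) := by rw [hr]
      _ = r * (x * z) * r⁻¹ := by group
      _ = r * (z * x) * r⁻¹ := by rw [h1]
      _ = r * z * r⁻¹ * (r * x * r⁻¹) := by group
      _ = z * s * (r * x * r⁻¹) := by rw [hr]
  refine mem_joint.2 ⟨e1, ?_⟩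
  calc r * x * r⁻¹ * s = r * x * r⁻¹ * (z * (z * s)) := by rw [← mul_assoc z z, hz, one_mul]
    _ = (r * x * r⁻¹ * z) * (z * s) := by group
    _ = z * (r * x * r⁻¹ * (z * s)) := by rw [e1]; group
    _ = z * (z * s) * (r * x * r⁻¹) := by rw [e2]; group
    _ = s * (r * x * r⁻¹) := by rw [← mul_assoc z z, hz, one_mul]

/-- A conjugate `s` of `z` in `Q` is conjugate to it in the centraliser of `b`. -/
theorem fusion (S : MSetting z Q e ψ) {s : G} (hs : s ∈ amb Q) (hc : IsConj z s) (hne : s ≠ z)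
    (J : JointData S s) {p : ℕ} (hp : p.Prime) (hodd : p ≠ 2) (b : joint z s) (hb : b ^ p = 1)
    (hfuse : ∀ r : G, r * z * r⁻¹ = z * s → r * s * r⁻¹ = z → ∀ hy : r * (b : G) * r⁻¹ ∈ joint z s,
      ∃ τ : M24, J.π ⟨_, hy⟩ = τ * J.π b * τ⁻¹ ∨ J.π ⟨_, hy⟩ = τ * (J.π b)⁻¹ * τ⁻¹) :
    ∃ x : G, x * (b : G) = (b : G) * x ∧ x * z * x⁻¹ = s := by
  obtain ⟨g, hg⟩ := isConj_iff.1 hc
  have D : LargeExtra.PairData (amb Q) ((amb Q).map (MulAut.conj g).toMonoidHom) z s := by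
    have := S.pair (g := g) (by rw [hg]; exact hs) (by rw [hg]; exact hne)
    rwa [hg] at this
  have hzs : z * s = s * z := (S.ci.comm s hs).symm
  obtain ⟨q, hq, hqs⟩ := S.ci.exists_swap hs D.hQ'.ne_one hne
  obtain ⟨q', hq', hqz⟩ := D.hQ'.exists_swap D.hz S.ci.ne_one (Ne.symm hne)
  have hqz' : q * z * q⁻¹ = z := by rw [S.ci.comm q hq, mul_inv_cancel_right]
  have hqs' : q' * s * q'⁻¹ = s := by rw [D.hQ'.comm q' hq', mul_inv_cancel_right]
  have hs2 : s * s = 1 := D.hQ'.sq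
  set r := q' * q with hr
  have hrz : r * z * r⁻¹ = z * s := by
    calc r * z * r⁻¹ = q' * (q * z * q⁻¹) * q'⁻¹ := by rw [hr]; group
      _ = z * s := by rw [hqz', hqz]
  have hrs : r * s * r⁻¹ = z := by
    calc r * s * r⁻¹ = q' * (q * s * q⁻¹) * q'⁻¹ := by rw [hr]; group
      _ = (q' * s * q'⁻¹) * (q' * z * q'⁻¹) := by rw [hqs]; group
      _ = s * (z * s) := by rw [hqs', hqz]
      _ = z := by rw [hzs, ← mul_assoc, hs2, one_mul]
  have hy := conj_mem_joint hzs S.ci.sq hrz hrs b.2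
  obtain ⟨τ, hτ⟩ := hfuse r hrz hrs hy
  obtain ⟨l, rfl⟩ := J.surj τ
  have key : ∀ b' : joint z s, b' ^ p = 1 → J.π ⟨_, hy⟩ = J.π (l * b' * l⁻¹) →
      ∃ r1 : G, r1 * z * r1⁻¹ = z * s ∧ r1 * s * r1⁻¹ = z ∧ r1 * (b : G) * r1⁻¹ = b' := by
    intro b' hb' he
    have hyp : (⟨_, hy⟩ : joint z s) ^ p = 1 := Subtype.ext (by
      rw [SubgroupClass.coe_pow, OneMemClass.coe_one, conj_pow,
        show (b : G) ^ p = 1 from congrArg Subtype.val hb, mul_one, mul_inv_cancel])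
    obtain ⟨k, -, hk⟩ := conj_of_map_eq J.π J.ker hp hodd hyp
      (y := l * b' * l⁻¹) (by rw [conj_pow, hb', mul_one, mul_inv_cancel]) he
    have hk' : (k : G)⁻¹ * (r * b * r⁻¹) * k = l * b' * (l : G)⁻¹ := congrArg Subtype.val hk
    obtain ⟨hkz, hks⟩ := mem_joint.1 (mul_mem k.2 l.2)
    refine ⟨((k : G) * l)⁻¹ * r, ?_, ?_, ?_⟩
    · calc ((k : G) * l)⁻¹ * r * z * (((k : G) * l)⁻¹ * r)⁻¹ = ((k : G) * l)⁻¹ * (r * z * r⁻¹) * (k * l) := by group
        _ = ((k : G) * l)⁻¹ * (z * s * (k * l)) := by rw [hrz]; group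
        _ = ((k : G) * l)⁻¹ * (k * l * (z * s)) := by rw [mul_assoc z, ← hks, ← mul_assoc z, ← hkz, mul_assoc]
        _ = z * s := inv_mul_cancel_left _ _
    · calc ((k : G) * l)⁻¹ * r * s * (((k : G) * l)⁻¹ * r)⁻¹ = ((k : G) * l)⁻¹ * (r * s * r⁻¹) * (k * l) := by group
        _ = ((k : G) * l)⁻¹ * (k * l * z) := by rw [hrs, hkz, mul_assoc]
        _ = z := inv_mul_cancel_left _ _
    · calc ((k : G) * l)⁻¹ * r * b * (((k : G) * l)⁻¹ * r)⁻¹ = (l : G)⁻¹ * ((k : G)⁻¹ * (r * b * r⁻¹) * k) * l := by group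
        _ = b' := by rw [hk']; group
  obtain ⟨r1, h1, h2, b', h3, hsq⟩ : ∃ r1 : G, r1 * z * r1⁻¹ = z * s ∧ r1 * s * r1⁻¹ = z ∧
      ∃ b' : G, r1 * (b : G) * r1⁻¹ = b' ∧ (b' = b ∨ b' = (b : G)⁻¹) := by
    rcases hτ with e' | e'
    · obtain ⟨r1, a, c, d⟩ := key b hb (by rw [e', map_mul, map_mul, map_inv])
      exact ⟨r1, a, c, _, d, Or.inl rfl⟩
    · obtain ⟨r1, a, c, d⟩ := key b⁻¹ (by rw [inv_pow, hb, inv_one]) (by rw [e', map_mul, map_mul, map_inv, map_inv])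
      exact ⟨r1, a, c, _, d, Or.inr rfl⟩
  refine ⟨r1 * r1, ?_, ?_⟩
  · refine mul_inv_eq_iff_eq_mul.1 ?_
    rw [show r1 * r1 * (b : G) * (r1 * r1)⁻¹ = r1 * (r1 * b * r1⁻¹) * r1⁻¹ by group, h3]
    rcases hsq with rfl | rfl
    · exact h3
    · rw [show r1 * (b : G)⁻¹ * r1⁻¹ = (r1 * b * r1⁻¹)⁻¹ by group, h3, inv_inv]
  · calc r1 * r1 * z * (r1 * r1)⁻¹ = r1 * (r1 * z * r1⁻¹) * r1⁻¹ := by group
      _ = (r1 * z * r1⁻¹) * (r1 * s * r1⁻¹) := by rw [h1]; conv_rhs => rw [← h1]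
                                                  group
      _ = z * (s * z) := by rw [h1, h2, mul_assoc]
      _ = s := by rw [← hzs, ← mul_assoc, S.ci.sq, one_mul]

/-- With a suitable generator, the identification may be moved to a standard element. -/
theorem exists_hyp_setting (S : MSetting z Q e ψ) {s : G} (J : JointData S s) {p : ℕ} (hp : p.Prime)
    (hodd : p ≠ 2) (b : joint z s) (hb : b ^ p = 1) (r : M24) (τ : M24) (hτ : τ * J.π b * τ⁻¹ = r) :
    ∃ (e' : (Subgroup.centralizer ({z} : Set G)) ⧸ Q ≃* Spor.Co1) (ψ' : leechLattice → Q ⧸ Subgroup.center Q)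
      (S' : MSetting z Q e' ψ'), S'.Matches (permLift r) (toC z s b) := by
  obtain ⟨u, hu⟩ := J.matched hp hodd b hb
  obtain ⟨e', ψ', S', h⟩ := twist S (u * (permLift τ)⁻¹)
  refine ⟨e', ψ', S', (h _ _).2 ?_⟩
  rw [← hτ, map_mul, map_mul, map_inv]
  convert hu using 1
  group

namespace Hyp

variable {S : MSetting z Q e ψ} {g : Co0} {k : ℕ} {K : Type*} [Group K] (P : Hyp S g k K)
  [hn : (P.B.subgroupOf P.CB).Normal]
include hn

/-- The conjugates of the image of `z` in the extraspecial group. -/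
theorem count_R (hfus : ∀ a ∈ P.Ab, a ≠ z → IsConj z a → ∃ x ∈ P.CB, x * z * x⁻¹ = a)
    (T : Finset (Co k)) (hT : ∀ c, c ∈ T ↔ ∃ v : leechLattice,
      sqNorm (v : GolayPt → ℤ) = 64 ∧ classMap v = classMap (P.X.vec c)) :
    Set.ncard {x : Subgroup.centralizer ({P.zb} : Set P.H) | x ∈ P.R ∧ IsConj P.zb (x : P.H)} =
      2 * T.card + 1 := by
  classical
  have hset : {x : Subgroup.centralizer ({P.zb} : Set P.H) | x ∈ P.R ∧ IsConj P.zb (x : P.H)} =
      (fun a : P.Ab => P.phi ⟨a, P.Ab_le_D a.2⟩) '' {a : P.Ab | IsConj z (a : G)} := by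
    ext y
    constructor
    · rintro ⟨⟨a, ha, rfl⟩, hy⟩
      obtain ⟨w, hw⟩ := isConj_iff.1 hy
      obtain ⟨x, rfl⟩ := QuotientGroup.mk'_surjective (P.B.subgroupOf P.CB) w
      exact ⟨⟨a, ha⟩, isConj_iff.2 ⟨x, P.conj_z ha hw.symm⟩, rfl⟩
    · rintro ⟨a, ha, rfl⟩
      refine ⟨⟨⟨a, P.Ab_le_D a.2⟩, a.2, rfl⟩, ?_⟩
      by_cases haz : (a : G) = z
      · rw [isConj_iff]
        exact ⟨1, by rw [inv_one, one_mul, mul_one]; exact congrArg P.qm (Subtype.ext haz.symm)⟩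
      · obtain ⟨x, hx, hxa⟩ := hfus a a.2 haz ha
        refine isConj_iff.2 ⟨P.qm ⟨x, hx⟩, ?_⟩
        show P.qm _ * P.qm ⟨z, P.D_le (P.Ab_le_D P.z_mem_Ab)⟩ * (P.qm _)⁻¹ = _
        rw [← map_inv, ← map_mul, ← map_mul]
        exact congrArg P.qm (Subtype.ext hxa)
  rw [hset, Set.ncard_image_of_injective _ fun (a b : P.Ab) h => Subtype.ext
    (congrArg (fun d : P.D => (d : G)) (P.phi_injOn (x := ⟨a, P.Ab_le_D a.2⟩) (y := ⟨b, P.Ab_le_D b.2⟩) a.2 b.2 h))]
  have hkey : ∀ a : P.Ab, IsConj z (a : G) ↔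
      a = ⟨z, P.z_mem_Ab⟩ ∨ Multiplicative.toAdd (P.coordHom a) ∈ T := by
    intro a
    obtain ⟨v, hv⟩ := S.rep_exists a.2.1
    have hco : Multiplicative.toAdd (P.coordHom a) = P.X.kap v := P.coord_eq a hv
    rw [hco, hT]
    by_cases haz : (a : G) = z
    · simp only [haz, IsConj.refl, true_iff]
      exact Or.inl (Subtype.ext haz)
    · have hne : a ≠ (⟨z, P.z_mem_Ab⟩ : P.Ab) := fun h => haz (congrArg Subtype.val h)
      have hexp := P.X.expand (P.rep_fixed a.2 hv)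
      have hq : ∀ w : leechLattice, classMap w = classMap v → Rep ψ w (a : G) := by
        intro w hw
        obtain ⟨q, hq1, hq2⟩ := hv
        exact ⟨q, hq1, (S.psi_congr (classMap_eq_iff.1 hw)).symm.trans hq2⟩
      simp only [hne, false_or]
      constructor
      · intro h
        obtain ⟨w, hw, hrw⟩ := (S.isConj_iff_norm a.2.1).1 ⟨h, haz⟩
        exact ⟨w, hw, (classMap_eq_iff.2 (S.rep_cong hv hrw)).trans hexp⟩
      · rintro ⟨w, hw, hc⟩
        exact ((S.isConj_iff_norm a.2.1).2 ⟨w, hw, hq w (hc.trans hexp.symm)⟩).1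
  have hz1 : (0 : Co k) ∉ T := by
    rw [hT]
    rintro ⟨v, hv, hc⟩
    have h := classes_distinct (v := v) (w := (0 : leechLattice)) hv.le
      (by simp [sqNorm]) (hc.trans (by simp [Coords.vec]))
    rw [hv] at h
    simp [sqNorm] at h
  have hzT : (⟨z, P.z_mem_Ab⟩ : P.Ab) ∉ {a : P.Ab | Multiplicative.toAdd (P.coordHom a) ∈ T} := by
    show ¬ _ ∈ T
    rw [P.coordHom_eq_one.2 (Or.inr rfl)]
    exact hz1
  rw [show {a : P.Ab | IsConj z (a : G)} =
    insert ⟨z, P.z_mem_Ab⟩ {a : P.Ab | Multiplicative.toAdd (P.coordHom a) ∈ T} from Set.ext fun a => hkey a,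
    Set.ncard_insert_of_notMem hzT]
  congr 1
  rw [← Nat.card_coe_set_eq]
  choose a0 ha0 using fun c : T => P.coordHom_surjective (Multiplicative.ofAdd (c : Co k))
  rw [show 2 * T.card = Nat.card (↥P.coordHom.ker × T) by
    rw [Nat.card_prod, P.card_coord_ker, Nat.card_eq_fintype_card, Fintype.card_coe]]
  exact Nat.card_congr
    { toFun := fun a => ⟨⟨(a0 ⟨_, a.2⟩)⁻¹ * a.1, by
        rw [MonoidHom.mem_ker, map_mul, map_inv, ha0]
        exact inv_mul_cancel _⟩, ⟨_, a.2⟩⟩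
      invFun := fun y => ⟨a0 y.2 * y.1.1, by
        show Multiplicative.toAdd (P.coordHom _) ∈ T
        rw [map_mul, ha0, MonoidHom.mem_ker.1 y.1.2, mul_one]
        exact y.2.2⟩
      left_inv := fun a => Subtype.ext (mul_inv_cancel_left _ _)
      right_inv := fun y => by
        have h : Multiplicative.toAdd (P.coordHom (a0 y.2 * y.1.1)) = (y.2 : Co k) := by
          rw [map_mul, ha0, MonoidHom.mem_ker.1 y.1.2, mul_one]; rfl
        refine Prod.ext (Subtype.ext ?_) (Subtype.ext h)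
        dsimp only
        rw [show (⟨_, _⟩ : T) = y.2 from Subtype.ext h]
        exact inv_mul_cancel_left _ _ }

end Hyp

end Cfsg.Agent.MonsterCent
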