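import Cfsg.Agent.MonsterCent.Stab

/-!
The centraliser of an element of odd prime order acting on `Q`, modulo the group it generates.
-/

set_option autoImplicit false

namespace Cfsg.Agent.MonsterCent

open Cfsg Cfsg.Agent.Leech Cfsg.Agent.Monster

/-- The hypotheses: `b` matches a lattice automorphism whose centraliser is known. -/
structure Hyp {G : Type*} [Group G] [Finite G] {z : G} {Q : Subgroup (Subgroup.centralizer ({z} : Set G))}
    [Q.Normal] {e : (Subgroup.centralizer ({z} : Set G)) ⧸ Q ≃* Spor.Co1}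
    {ψ : leechLattice → Q ⧸ Subgroup.center Q} (S : MSetting z Q e ψ) (g : Co0) (k : ℕ) (K : Type*) [Group K] where
  X : Coords g k
  L : LeechCent X K
  b : G
  hbC : b ∈ Subgroup.centralizer ({z} : Set G)
  p : ℕ
  hp : p.Prime
  hodd : p ≠ 2
  hb : orderOf b = p
  hg : orderOf g = p
  hm : S.Matches g ⟨b, hbC⟩
  hK : ∀ N : Subgroup K, N.Normal → IsPGroup 2 ↥N → N = ⊥

namespace Hyp

variable {G : Type*} [Group G] [Finite G] {z : G} {Q : Subgroup (Subgroup.centralizer ({z} : Set G))} [Q.Normal]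
  {e : (Subgroup.centralizer ({z} : Set G)) ⧸ Q ≃* Spor.Co1} {ψ : leechLattice → Q ⧸ Subgroup.center Q}
  {S : MSetting z Q e ψ} {g : Co0} {k : ℕ} {K : Type*} [Group K] (P : Hyp S g k K)
include P

/-- The group generated by `b`. -/
abbrev B : Subgroup G := Subgroup.zpowers P.b

/-- The centraliser of `B`. -/
abbrev CB : Subgroup G := Subgroup.centralizer (P.B : Set G)

/-- The part of `Q` centralising `B`. -/
def Ab : Subgroup G := amb Q ⊓ Subgroup.centralizer ({P.b} : Set G)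

/-- The centraliser of `z` and `B`. -/
def D : Subgroup G := Subgroup.centralizer ({z} : Set G) ⊓ Subgroup.centralizer ({P.b} : Set G)

theorem centralizer_B : Subgroup.centralizer ((Subgroup.zpowers P.b : Subgroup G) : Set G) =
    Subgroup.centralizer ({P.b} : Set G) := by
  rw [Subgroup.zpowers_eq_closure, Subgroup.centralizer_closure]

theorem mem_CB {x : G} : x ∈ P.CB ↔ x * P.b = P.b * x := by
  rw [CB, B, P.centralizer_B, Subgroup.mem_centralizer_singleton_iff]

theorem Ab_le_D : P.Ab ≤ P.D := fun _ hx => ⟨S.ci.le_centralizer hx.1, hx.2⟩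

theorem D_le : P.D ≤ P.CB := fun _ hx => P.mem_CB.2 (Subgroup.mem_centralizer_singleton_iff.1 hx.2)

theorem pow_p : P.b ^ P.p = 1 := P.hb ▸ pow_orderOf_eq_one P.b

theorem g_pow : g ^ P.p = 1 := P.hg ▸ pow_orderOf_eq_one g

theorem odd_p : Odd P.p := P.hp.odd_of_ne_two P.hodd

theorem inf_eq_one {x : G} (hx : x ∈ amb Q) (hxB : x ∈ P.B) : x = 1 := by
  obtain ⟨a, ha⟩ := S.ci.isPGroup ⟨x, hx⟩
  exact pow_eq_one_of_sq P.odd_p P.pow_p hxB (congrArg Subtype.val ha)

theorem b_mem_D : P.b ∈ P.D := ⟨P.hbC, Subgroup.mem_centralizer_singleton_iff.2 rfl⟩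

theorem z_mem_Ab : z ∈ P.Ab :=
  ⟨S.ci.mem, Subgroup.mem_centralizer_singleton_iff.2 (Subgroup.mem_centralizer_singleton_iff.1 P.hbC).symm⟩

/-- An involution in a coset of `B` of a commuting element. -/
theorem eq_of_sq {a y : G} (ha : a ∈ amb Q) (hc : a * P.b = P.b * a) (hy : y * y = 1)
    (hyB : a⁻¹ * y ∈ P.B) : y = a := by
  obtain ⟨i, hi⟩ := Subgroup.mem_zpowers_iff.1 hyB
  have hy' : y = a * P.b ^ i := by rw [hi, mul_inv_cancel_left]
  have hci : a * P.b ^ i = P.b ^ i * a := (Commute.zpow_right (show Commute a P.b from hc) i).eq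
  have h2 : (P.b ^ i) * (P.b ^ i) = (a * a)⁻¹ := by
    refine eq_inv_of_mul_eq_one_right ?_
    rw [← hy]
    nth_rewrite 1 [hy']
    rw [show y = a * P.b ^ i from hy']
    calc a * a * (P.b ^ i * P.b ^ i) = a * (a * P.b ^ i) * P.b ^ i := by group
      _ = a * (P.b ^ i * a) * P.b ^ i := by rw [hci]
      _ = a * P.b ^ i * (a * P.b ^ i) := by group
  have h3 : (P.b ^ i) * (P.b ^ i) = 1 := by
    refine P.inf_eq_one (h2 ▸ inv_mem (mul_mem ha ha)) (mul_mem ⟨i, rfl⟩ ⟨i, rfl⟩)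
  have h4 : P.b ^ i = 1 := pow_eq_one_of_sq P.odd_p P.pow_p ⟨i, rfl⟩ (k := 1) (by rw [pow_one, pow_two, h3])
  rw [hy', h4, mul_one]

/-! ### The coordinates of the fixed part of `Q` -/

theorem rep_fixed {v : leechLattice} {x : G} (hx : x ∈ P.Ab) (hv : Rep ψ v x) :
    classMap (g • v) = classMap v := by
  have h := S.rep_conj P.hm hv
  have e : P.b * x * P.b⁻¹ = x :=
    mul_inv_eq_iff_eq_mul.2 (Subgroup.mem_centralizer_singleton_iff.1 hx.2).symm
  rw [e] at h
  exact (classMap_eq_iff.2 (S.rep_cong h hv)).symm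

/-- The coordinates. -/
noncomputable def coord (x : P.Ab) : Co k := P.X.kap (S.rep_exists x.2.1).choose

theorem coord_eq (x : P.Ab) {v : leechLattice} (hv : Rep ψ v (x : G)) : P.coord x = P.X.kap v :=
  P.X.kap_eq (classMap_eq_iff.2 (S.rep_cong hv (S.rep_exists x.2.1).choose_spec))

/-- The coordinates as a homomorphism. -/
noncomputable def coordHom : P.Ab →* Multiplicative (Co k) :=
  MonoidHom.mk' (fun x => Multiplicative.ofAdd (P.coord x)) fun x y => by
    obtain ⟨v, hv⟩ := S.rep_exists x.2.1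
    obtain ⟨w, hw⟩ := S.rep_exists y.2.1
    rw [P.coord_eq x hv, P.coord_eq y hw, P.coord_eq (x * y) (S.rep_mul hv hw), P.X.kap_add, ofAdd_add]

theorem coordHom_surjective : Function.Surjective P.coordHom := by
  intro c
  obtain ⟨x, hx⟩ := S.rep_surj (P.X.vec (Multiplicative.toAdd c))
  have h := S.rep_conj P.hm hx
  rw [P.X.vec_fixed] at h
  have hxb : P.b * x * P.b⁻¹ = x := by
    rcases S.rep_pair hx h (Cong.refl _) with r | r
    · exact r
    · exfalso
      have hx2 : ∀ n : ℕ, P.b ^ n * x * (P.b ^ n)⁻¹ = x * z ^ n := by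
        intro n
        induction n with
        | zero => simp
        | succ n ih =>
          have hbz : P.b * z = z * P.b := Subgroup.mem_centralizer_singleton_iff.1 P.hbC
          calc P.b ^ (n + 1) * x * (P.b ^ (n + 1))⁻¹ = P.b * (P.b ^ n * x * (P.b ^ n)⁻¹) * P.b⁻¹ := by
                rw [pow_succ']; group
            _ = (P.b * x * P.b⁻¹) * (P.b * z ^ n * P.b⁻¹) := by rw [ih]; group
            _ = x * z * z ^ n := by
                rw [(Commute.pow_right (show Commute P.b z from hbz) n).eq, mul_inv_cancel_right]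
                exact congrArg (· * z ^ n) r
            _ = _ := by rw [pow_succ', mul_assoc]
      have := hx2 P.p
      rw [P.pow_p, one_mul, inv_one, mul_one] at this
      obtain ⟨m, hm⟩ := P.odd_p
      rw [hm, pow_add, pow_mul, pow_two, S.ci.sq, one_pow, one_mul, pow_one, eq_comm, mul_eq_left] at this
      exact S.ci.ne_one this
  have hxA : x ∈ P.Ab := ⟨Monster.MSetting.rep_mem hx,
    Subgroup.mem_centralizer_singleton_iff.2 (mul_inv_eq_iff_eq_mul.1 hxb).symm⟩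
  refine ⟨⟨x, hxA⟩, ?_⟩
  show Multiplicative.ofAdd (P.coord ⟨x, hxA⟩) = c
  rw [P.coord_eq ⟨x, hxA⟩ hx, P.X.kap_vec]
  rfl

theorem coordHom_eq_one {x : P.Ab} : P.coordHom x = 1 ↔ (x : G) = 1 ∨ (x : G) = z := by
  obtain ⟨v, hv⟩ := S.rep_exists x.2.1
  rw [← S.rep_zero_iff hv]
  show Multiplicative.ofAdd (P.coord x) = 1 ↔ _
  rw [P.coord_eq x hv, ofAdd_eq_one]
  constructor
  · intro h
    have := P.X.eq_of_kap (P.rep_fixed x.2 hv) (w := 0) ?_ (h.trans P.X.kap_zero.symm)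
    · exact (classMap_eq_iff.1 this.symm)
    · rw [show g • (0 : leechLattice) = 0 from by simpa using co0_sub g 0 0]
  · intro h
    rw [P.X.kap_eq (w := (0 : leechLattice)) ((classMap_eq_iff.2 h.symm)), P.X.kap_zero]

theorem card_coord_ker : Nat.card P.coordHom.ker = 2 := by
  rw [Nat.card_eq_two_iff' (1 : P.coordHom.ker)]
  refine ⟨⟨⟨z, P.z_mem_Ab⟩, P.coordHom_eq_one.2 (Or.inr rfl)⟩, fun h => S.ci.ne_one ?_, fun y hy => ?_⟩
  · exact congrArg (fun y : P.coordHom.ker => ((y : P.Ab) : G)) h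
  · rcases P.coordHom_eq_one.1 y.2 with r | r
    · exact absurd (Subtype.ext (Subtype.ext r)) hy
    · exact Subtype.ext (Subtype.ext r)

theorem card_Ab : Nat.card P.Ab = 2 ^ (k + 1) := by
  have h1 := Subgroup.card_mul_index P.coordHom.ker
  rw [Subgroup.index_ker, MonoidHom.range_eq_top.2 P.coordHom_surjective,
    Nat.card_congr Subgroup.topEquiv.toEquiv, P.card_coord_ker, Nat.card_congr Multiplicative.toAdd,
    Nat.card_fun, Nat.card_zmod, Nat.card_fin] at h1
  rw [← h1, pow_succ']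

theorem extraspecial_Ab (hk : 0 < k) : IsExtraspecial 2 ↥P.Ab := by
  haveI : Fact (Nat.Prime 2) := ⟨Nat.prime_two⟩
  have hA : P.Ab ≤ amb Q := inf_le_left
  have hcen : ∀ x : P.Ab, (∀ y : P.Ab, x * y = y * x) → (x : G) = 1 ∨ (x : G) = z := by
    intro x hx
    by_contra hne
    rw [not_or] at hne
    classical
    -- the elements of `Q` not commuting with `x`
    let T := {a : G // a ∈ amb Q ∧ a * (x : G) ≠ (x : G) * a}
    have hxb := Subgroup.mem_centralizer_singleton_iff.1 x.2.2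
    have hbA : ∀ {a : G}, a ∈ amb Q → P.b * a * P.b⁻¹ ∈ amb Q ∧ P.b⁻¹ * a * P.b ∈ amb Q := fun ha =>
      ⟨(Subgroup.mem_normalizer_iff.1 (S.norm_le P.hbC) _).1 ha,
        by simpa using (Subgroup.mem_normalizer_iff.1 (inv_mem (S.norm_le P.hbC)) _).1 ha⟩
    have hxb' : P.b⁻¹ * (x : G) * P.b = x := by rw [mul_assoc, hxb, inv_mul_cancel_left]
    let f : Equiv.Perm T :=
      { toFun := fun a => ⟨P.b * a.1 * P.b⁻¹, (hbA a.2.1).1, fun h => a.2.2 (by
          calc a.1 * (x : G) = a.1 * (P.b⁻¹ * x * P.b) := by rw [hxb']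
            _ = P.b⁻¹ * ((P.b * a.1 * P.b⁻¹) * x) * P.b := by group
            _ = P.b⁻¹ * (x * (P.b * a.1 * P.b⁻¹)) * P.b := by rw [h]
            _ = (P.b⁻¹ * x * P.b) * a.1 := by group
            _ = x * a.1 := by rw [hxb'])⟩
        invFun := fun a => ⟨P.b⁻¹ * a.1 * P.b, (hbA a.2.1).2, fun h => a.2.2 (by
          have e : P.b * (x : G) * P.b⁻¹ = x := by rw [← hxb, mul_inv_cancel_right]
          calc a.1 * (x : G) = a.1 * (P.b * x * P.b⁻¹) := by rw [e]
            _ = P.b * ((P.b⁻¹ * a.1 * P.b) * x) * P.b⁻¹ := by group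
            _ = P.b * (x * (P.b⁻¹ * a.1 * P.b)) * P.b⁻¹ := by rw [h]
            _ = (P.b * x * P.b⁻¹) * a.1 := by group
            _ = x * a.1 := by rw [e])⟩
        left_inv := fun a => Subtype.ext (by group)
        right_inv := fun a => Subtype.ext (by group) }
    have hf : f ^ P.p = 1 := by
      have : ∀ (n : ℕ) (a : T), ((f ^ n) a).1 = P.b ^ n * a.1 * (P.b ^ n)⁻¹ := by
        intro n
        induction n with
        | zero => simp
        | succ n ih =>
          intro a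
          rw [pow_succ', Equiv.Perm.mul_apply]
          show P.b * ((f ^ n) a).1 * P.b⁻¹ = _
          rw [ih, pow_succ']; group
      refine Equiv.ext fun a => Subtype.ext ?_
      rw [this, P.pow_p]; simp
    have hcard : Nat.card T * 2 = Nat.card ↥(amb Q) := by
      have h1 := Monster.card_inf_centralizer S.ci x.2.1 hne.1 hne.2
      have h2 : Nat.card T + Nat.card ↥(amb Q ⊓ Subgroup.centralizer ({(x : G)} : Set G)) = Nat.card ↥(amb Q) := by
        rw [← Nat.card_congr (Equiv.sumCompl (fun a : amb Q => a.1 * (x : G) ≠ (x : G) * a.1)), Nat.card_sum]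
        congr 1
        · exact Nat.card_congr
            { toFun := fun a => ⟨⟨a.1, a.2.1⟩, a.2.2⟩
              invFun := fun a => ⟨a.1.1, a.1.2, a.2⟩
              left_inv := fun _ => rfl
              right_inv := fun _ => rfl }
        · exact Nat.card_congr
            { toFun := fun a => ⟨⟨a.1, a.2.1⟩, fun h => h (Subgroup.mem_centralizer_singleton_iff.1 a.2.2)⟩
              invFun := fun a => ⟨a.1.1, a.1.2, Subgroup.mem_centralizer_singleton_iff.2 (not_not.1 a.2)⟩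
              left_inv := fun _ => rfl
              right_inv := fun _ => rfl }
      omega
    obtain ⟨a, ha⟩ := exists_fixed P.hp (fun hd => P.hodd ((Nat.prime_dvd_prime_iff_eq P.hp Nat.prime_two).1
      (P.hp.dvd_of_dvd_pow (n := 25) (S.card_amb ▸ hcard ▸ hd.mul_right 2)))) f hf
    have ha' : P.b * a.1 * P.b⁻¹ = a.1 := congrArg Subtype.val ha
    exact a.2.2 (congrArg Subtype.val (hx ⟨a.1, a.2.1,
      Subgroup.mem_centralizer_singleton_iff.2 (mul_inv_eq_iff_eq_mul.1 ha').symm⟩).symm)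
  have hc : ∀ x : P.Ab, x ∈ Subgroup.center P.Ab ↔ (x : G) = 1 ∨ (x : G) = z := by
    intro x
    refine ⟨fun h => hcen x fun y => (Subgroup.mem_center_iff.1 h y).symm, fun h => Subgroup.mem_center_iff.2 fun y => ?_⟩
    refine Subtype.ext ?_
    rcases h with h | h
    · simp [h]
    · simp only [Subgroup.coe_mul, h]; exact S.ci.comm y (hA y.2)
  have hcard : Nat.card (Subgroup.center P.Ab) = 2 := by
    rw [← P.card_coord_ker]
    exact Nat.card_congr (Equiv.subtypeEquivRight fun x => (hc x).trans P.coordHom_eq_one.symm)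
  refine PGroup.isExtraspecial_of_center (S.ci.isPGroup.to_le hA) hcard (fun h => ?_) ?_ fun x => ?_
  · have htop : ∀ x : P.Ab, x ∈ Subgroup.center P.Ab := fun x => Subgroup.mem_center_iff.2 fun y => h.is_comm.comm y x
    have : Nat.card P.Ab = 2 := by
      rw [← hcard]; exact (Nat.card_congr (Equiv.subtypeUnivEquiv htop)).symm
    rw [P.card_Ab] at this
    have h4 : 2 ^ 2 ≤ 2 ^ (k + 1) := Nat.pow_le_pow_right (by norm_num) (by omega)
    omega
  · rw [commutator_eq_closure, Subgroup.closure_le]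
    rintro _ ⟨a, b, rfl⟩
    exact (hc _).2 (S.ci.comm_mem (hA a.2) (hA b.2))
  · refine (hc _).2 ?_
    rw [SubgroupClass.coe_pow, pow_two]
    exact S.ci.sq_mem (hA x.2)

/-! ### The map onto `K` -/

/-- The centraliser of `g` mapped to the centraliser of `z` modulo `Q`. -/
noncomputable def projC (_P : Hyp S g k K) : cen g →* (Subgroup.centralizer ({z} : Set G)) ⧸ Q := S.proj.comp (cen g).subtype

theorem ker_projC : (P.projC).ker ≤ P.L.ρ.ker := by
  intro h hh
  rw [MonoidHom.mem_ker, P.L.ker_eq]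
  have h1 : (QuotientGroup.mk (h : Co0) : Spor.Co1) = 1 := by
    have := S.proj_eq_iff (g := (h : Co0)) (c := 1)
    rw [QuotientGroup.mk_one] at this
    rw [this.1 hh, QuotientGroup.mk_one, map_one]
  rcases (center_eq _).1 ((QuotientGroup.eq_one_iff _).1 h1) with r | r
  · rw [r]; exact one_mem _
  · obtain ⟨m, hm⟩ := P.odd_p
    rw [r]
    refine ⟨(P.p : ℤ), ?_⟩
    show (g * negCo0) ^ (P.p : ℤ) = negCo0
    rw [zpow_natCast, Commute.mul_pow (negCo0_comm g).symm, P.g_pow, one_mul, hm, pow_add, pow_mul, pow_two,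
      negCo0_sq, one_pow, one_mul, pow_one]

theorem mem_range {x : G} (hx : x ∈ P.D) :
    (QuotientGroup.mk ⟨x, hx.1⟩ : _ ⧸ Q) ∈ (P.projC).range := by
  obtain ⟨h, hh⟩ := S.proj_surjective (QuotientGroup.mk ⟨x, hx.1⟩)
  have hb : S.proj g = QuotientGroup.mk ⟨P.b, P.hbC⟩ := S.proj_eq_iff.2 P.hm
  have h1 : S.proj (h * g * h⁻¹ * g⁻¹) = 1 := by
    rw [map_mul, map_mul, map_mul, map_inv, map_inv, hh, hb, ← QuotientGroup.mk_mul, ← QuotientGroup.mk_inv,
      ← QuotientGroup.mk_mul, ← QuotientGroup.mk_inv, ← QuotientGroup.mk_mul, ← QuotientGroup.mk_one]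
    congr 1
    refine Subtype.ext ?_
    have hc := Subgroup.mem_centralizer_singleton_iff.1 hx.2
    show x * P.b * x⁻¹ * P.b⁻¹ = 1
    rw [hc]; group
  have h2 : (QuotientGroup.mk (h * g * h⁻¹ * g⁻¹) : Spor.Co1) = 1 := by
    have := S.proj_eq_iff (g := h * g * h⁻¹ * g⁻¹) (c := 1)
    rw [QuotientGroup.mk_one] at this
    rw [this.1 h1, QuotientGroup.mk_one, map_one]
  refine ⟨⟨h, mem_cen.2 ?_⟩, hh⟩
  rcases (center_eq _).1 ((QuotientGroup.eq_one_iff _).1 h2) with r | r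
  · exact mul_inv_eq_iff_eq_mul.1 (mul_inv_eq_one.1 r)
  · exfalso
    have h3 : h * g * h⁻¹ = negCo0 * g := mul_inv_eq_iff_eq_mul.1 r
    have h4 := congrArg (· ^ P.p) h3
    obtain ⟨m, hm⟩ := P.odd_p
    simp only [conj_pow, Commute.mul_pow (negCo0_comm g), P.g_pow, mul_one, mul_inv_cancel] at h4
    rw [hm, pow_add, pow_mul, pow_two, negCo0_sq, one_pow, one_mul, pow_one] at h4
    exact negCo0_ne_one h4.symm

/-- The image of `D` in the centraliser of `z` modulo `Q`. -/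
noncomputable def toRange : P.D →* (P.projC).range :=
  MonoidHom.codRestrict ((QuotientGroup.mk' Q).comp
    (Subgroup.inclusion (show P.D ≤ Subgroup.centralizer ({z} : Set G) from inf_le_left))) (P.projC).range
    fun x => P.mem_range x.2

/-- The map of `D` onto `K`. -/
noncomputable def theta : P.D →* K :=
  ((P.projC).rangeRestrict.liftOfSurjective (P.projC).rangeRestrict_surjective
    ⟨P.L.ρ, by rw [MonoidHom.ker_rangeRestrict]; exact P.ker_projC⟩).comp P.toRange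

theorem theta_eq {x : P.D} {h : cen g} (e' : S.proj (h : Co0) = QuotientGroup.mk ⟨(x : G), x.2.1⟩) :
    P.theta x = P.L.ρ h := by
  have : P.toRange x = (P.projC).rangeRestrict h := Subtype.ext e'.symm
  rw [theta, MonoidHom.comp_apply, this]
  exact MonoidHom.liftOfRightInverse_comp_apply _ _ _ _ h

theorem theta_surjective : Function.Surjective P.theta := by
  intro a
  obtain ⟨h, rfl⟩ := P.L.surj a
  obtain ⟨c, hc⟩ := QuotientGroup.mk_surjective (S.proj (h : Co0))
  have hb : S.proj g = QuotientGroup.mk ⟨P.b, P.hbC⟩ := S.proj_eq_iff.2 P.hm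
  haveI : Fact (Nat.Prime 2) := ⟨Nat.prime_two⟩
  have hsp : IsPGroup 2 ↥(QuotientGroup.mk' Q).ker := by rw [QuotientGroup.ker_mk']; exact S.setting.2.2.1.1.1
  obtain ⟨x, hx, hxb⟩ := exists_centralizing (QuotientGroup.mk' Q) hsp P.hp P.hodd
    (b := ⟨P.b, P.hbC⟩) (c := c) (Subtype.ext P.pow_p)
    (by simp only [QuotientGroup.mk'_apply]; rw [hc, ← hb, ← map_mul, ← map_mul, mem_cen.1 h.2])
  refine ⟨⟨x, x.2, Subgroup.mem_centralizer_singleton_iff.2 (congrArg Subtype.val hxb)⟩, ?_⟩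
  refine P.theta_eq ?_
  rw [← hc]
  exact hx.symm

theorem theta_eq_one_iff {x : P.D} :
    P.theta x = 1 ↔ ∃ a ∈ P.Ab, a⁻¹ * (x : G) ∈ P.B := by
  have hb : S.proj g = QuotientGroup.mk ⟨P.b, P.hbC⟩ := S.proj_eq_iff.2 P.hm
  have hneg : S.proj negCo0 = 1 := by
    show e.symm (QuotientGroup.mk negCo0) = 1
    rw [(QuotientGroup.eq_one_iff _).2 ((center_eq _).2 (Or.inr rfl)), map_one]
  obtain ⟨h, hh⟩ := P.mem_range x.2
  rw [P.theta_eq hh, P.L.ker_eq]
  constructor
  · rintro ⟨i, hi⟩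
    refine ⟨(x : G) * (P.b ^ i)⁻¹, ⟨?_, ?_⟩, ?_⟩
    · have : (QuotientGroup.mk ⟨(x : G), x.2.1⟩ : _ ⧸ Q) = QuotientGroup.mk (⟨P.b, P.hbC⟩ ^ i) := by
        rw [← hh]
        show S.proj (h : Co0) = _
        rw [← hi]
        show S.proj ((g * negCo0) ^ i) = _
        rw [map_zpow, map_mul, hneg, mul_one, hb, ← QuotientGroup.mk_zpow]
      refine ⟨⟨(x : G), x.2.1⟩ * (⟨P.b, P.hbC⟩ ^ i)⁻¹, ?_, by simp⟩
      have h2 := QuotientGroup.eq.1 this.symm
      have h3 : _ ∈ Q := (inferInstance : Q.Normal).conj_mem _ h2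
        ((⟨P.b, P.hbC⟩ : Subgroup.centralizer ({z} : Set G)) ^ i)
      rwa [mul_inv_cancel_left] at h3
    · exact (Subgroup.centralizer ({P.b} : Set G)).mul_mem x.2.2
        ((Subgroup.centralizer ({P.b} : Set G)).inv_mem (Subgroup.zpow_mem _ P.b_mem_D.2 i))
    · rw [mul_inv_rev, inv_inv, mul_assoc, inv_mul_cancel, mul_one]
      exact ⟨i, rfl⟩
  · rintro ⟨a, ⟨ha, -⟩, i, hi⟩
    refine (P.L.ker_eq h).1 ?_
    have hgc : g ∈ cen g := mem_cen.2 rfl
    let h' : cen g := ⟨g, hgc⟩ ^ i * ⟨negCo0, mem_cen.2 (negCo0_comm g)⟩ ^ (i : ℤ)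
    have hh' : S.proj (h' : Co0) = QuotientGroup.mk ⟨(x : G), x.2.1⟩ := by
      show S.proj (g ^ i * negCo0 ^ i) = _
      rw [map_mul, map_zpow, map_zpow, hneg, one_zpow, mul_one, hb, ← QuotientGroup.mk_zpow]
      refine QuotientGroup.eq.2 ?_
      obtain ⟨a', ha', rfl⟩ := ha
      have : ((⟨P.b, P.hbC⟩ : Subgroup.centralizer ({z} : Set G)) ^ i)⁻¹ * ⟨(x : G), x.2.1⟩ =
          ((⟨P.b, P.hbC⟩ : Subgroup.centralizer ({z} : Set G)) ^ i)⁻¹ * a' * ⟨P.b, P.hbC⟩ ^ i := by
        refine Subtype.ext ?_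
        simp only [Subgroup.coe_mul, InvMemClass.coe_inv, SubgroupClass.coe_zpow]
        rw [mul_assoc, show P.b ^ i = (a' : G)⁻¹ * (x : G) from hi, mul_inv_cancel_left]
      rw [this]
      simpa using (inferInstance : Q.Normal).conj_mem a' ha' ((⟨P.b, P.hbC⟩ : Subgroup.centralizer ({z} : Set G)) ^ i)⁻¹
    rw [← P.theta_eq hh, P.theta_eq hh', P.L.ker_eq]
    refine ⟨i, ?_⟩
    show (g * negCo0) ^ i = g ^ i * negCo0 ^ i
    exact Commute.mul_zpow (negCo0_comm g).symm i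

/-- An element of `D` centralising the fixed part of `Q` up to `B`. -/
theorem theta_of_central {x : P.D} (hx : ∀ a ∈ P.Ab, (x : G) * a = a * (x : G)) : P.theta x = 1 := by
  obtain ⟨h, hh⟩ := P.mem_range x.2
  rw [P.theta_eq hh]
  refine P.L.triv h fun c => ?_
  obtain ⟨a, ha⟩ := P.coordHom_surjective (Multiplicative.ofAdd c)
  obtain ⟨v, hv⟩ := S.rep_exists a.2.1
  have hc : c = P.X.kap v := (Multiplicative.ofAdd.injective ha).symm.trans (P.coord_eq a hv)
  have h2 := S.rep_conj (S.proj_eq_iff.1 hh) hv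
  rw [show ((⟨(x : G), x.2.1⟩ : Subgroup.centralizer ({z} : Set G)) : G) * (a : G) * (x : G)⁻¹ = a from
    mul_inv_eq_iff_eq_mul.2 (hx a a.2)] at h2
  subst hc
  rw [Coords.act, P.X.kap_eq (classMap_smul _ (P.X.expand (P.rep_fixed a.2 hv)).symm)]
  exact P.X.kap_eq (classMap_eq_iff.2 (S.rep_cong hv h2))

/-! ### The quotient -/

variable [hn : (P.B.subgroupOf P.CB).Normal]
include hn

/-- The quotient. -/
abbrev H : Type _ := ↥P.CB ⧸ P.B.subgroupOf P.CB

/-- The quotient map. -/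
def qm : ↥P.CB →* P.H := QuotientGroup.mk' _

/-- The image of `z`. -/
def zb : P.H := P.qm ⟨z, P.D_le (P.Ab_le_D P.z_mem_Ab)⟩

theorem qm_eq_iff {x y : ↥P.CB} : P.qm x = P.qm y ↔ (x : G)⁻¹ * y ∈ P.B := by
  rw [qm, QuotientGroup.mk'_apply, QuotientGroup.mk'_apply, QuotientGroup.eq, Subgroup.mem_subgroupOf]
  rfl

/-- The map onto the centraliser of the image of `z`. -/
def phi : P.D →* Subgroup.centralizer ({P.zb} : Set P.H) :=
  MonoidHom.codRestrict (P.qm.comp (Subgroup.inclusion P.D_le)) _ fun x => by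
    rw [Subgroup.mem_centralizer_singleton_iff, MonoidHom.comp_apply, zb, ← map_mul, ← map_mul]
    congr 1
    exact Subtype.ext (Subgroup.mem_centralizer_singleton_iff.1 x.2.1)

theorem phi_eq_one_iff {x : P.D} : P.phi x = 1 ↔ (x : G) ∈ P.B := by
  rw [Subtype.ext_iff]
  show P.qm (Subgroup.inclusion P.D_le x) = 1 ↔ _
  rw [← map_one P.qm, eq_comm, P.qm_eq_iff]
  simp

theorem conj_z {x : ↥P.CB} {a : G} (ha : a ∈ P.Ab) (h : P.qm (⟨a, P.D_le (P.Ab_le_D ha)⟩) =
    P.qm x * P.zb * (P.qm x)⁻¹) : (x : G) * z * (x : G)⁻¹ = a := by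
  rw [zb, ← map_inv, ← map_mul, ← map_mul, P.qm_eq_iff] at h
  refine P.eq_of_sq ha.1 (Subgroup.mem_centralizer_singleton_iff.1 ha.2) ?_ h
  calc (x : G) * z * (x : G)⁻¹ * ((x : G) * z * (x : G)⁻¹) = (x : G) * (z * z) * (x : G)⁻¹ := by group
    _ = 1 := by rw [S.ci.sq]; group

theorem phi_surjective : Function.Surjective P.phi := by
  intro y
  obtain ⟨x, hx⟩ := QuotientGroup.mk'_surjective (P.B.subgroupOf P.CB) y.1
  have hy := Subgroup.mem_centralizer_singleton_iff.1 y.2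
  rw [← hx] at hy
  have h := P.conj_z P.z_mem_Ab (x := x) (by
    show P.zb = P.qm x * P.zb * (P.qm x)⁻¹
    rw [show P.qm x * P.zb = P.zb * P.qm x from hy, mul_inv_cancel_right])
  refine ⟨⟨x, Subgroup.mem_centralizer_singleton_iff.2 (mul_inv_eq_iff_eq_mul.1 h),
    Subgroup.mem_centralizer_singleton_iff.2 (P.mem_CB.1 x.2)⟩, Subtype.ext ?_⟩
  exact hx

/-- The map of the centraliser onto `K`. -/
noncomputable def rho : Subgroup.centralizer ({P.zb} : Set P.H) →* K :=
  P.phi.liftOfSurjective P.phi_surjective ⟨P.theta, fun x hx => MonoidHom.mem_ker.2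
    (P.theta_eq_one_iff.2 ⟨1, one_mem _, by simpa using P.phi_eq_one_iff.1 (MonoidHom.mem_ker.1 hx)⟩)⟩

theorem rho_phi (x : P.D) : P.rho (P.phi x) = P.theta x :=
  MonoidHom.liftOfRightInverse_comp_apply _ _ _ _ x

/-- The extraspecial group. -/
def R : Subgroup (Subgroup.centralizer ({P.zb} : Set P.H)) := (P.Ab.subgroupOf P.D).map P.phi

theorem rho_ker : P.rho.ker = P.R := by
  ext y
  obtain ⟨x, rfl⟩ := P.phi_surjective y
  rw [MonoidHom.mem_ker, P.rho_phi, P.theta_eq_one_iff]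
  constructor
  · rintro ⟨a, ha, hab⟩
    refine ⟨⟨a, P.Ab_le_D ha⟩, ha, ?_⟩
    refine Subtype.ext (P.qm_eq_iff.2 ?_)
    exact hab
  · rintro ⟨a, ha, hax⟩
    exact ⟨a, ha, P.qm_eq_iff.1 (congrArg Subtype.val hax)⟩

theorem phi_injOn {x y : P.D} (hx : (x : G) ∈ P.Ab) (hy : (y : G) ∈ P.Ab) (h : P.phi x = P.phi y) : x = y := by
  have := P.inf_eq_one (mul_mem (inv_mem hx.1) hy.1) (P.qm_eq_iff.1 (congrArg Subtype.val h))
  exact Subtype.ext (inv_mul_eq_one.1 this)

/-- The fixed part of `Q` and its image. -/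
noncomputable def equivR : ↥P.Ab ≃* ↥P.R :=
  (Subgroup.subgroupOfEquivOfLe P.Ab_le_D).symm.trans
    (MulEquiv.ofBijective ((P.phi.comp (P.Ab.subgroupOf P.D).subtype).codRestrict P.R
        fun x => ⟨x, x.2, rfl⟩)
      ⟨fun x y h => Subtype.ext (P.phi_injOn x.2 y.2 (congrArg Subtype.val h)),
        fun y => by obtain ⟨x, hx, e⟩ := y.2; exact ⟨⟨x, hx⟩, Subtype.ext e⟩⟩)

theorem orderOf_zb : orderOf P.zb = 2 := by
  refine orderOf_eq_prime ?_ ?_
  · rw [zb, ← map_pow]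
    convert map_one P.qm
    exact Subtype.ext (by simp [pow_two, S.ci.sq])
  · intro h
    rw [zb, ← map_one P.qm, eq_comm, P.qm_eq_iff] at h
    simp only [OneMemClass.coe_one, inv_one, one_mul] at h
    exact S.ci.ne_one (P.inf_eq_one S.ci.mem h)

theorem R_normal : P.R.Normal := by rw [← P.rho_ker]; infer_instance

theorem rho_surjective : Function.Surjective P.rho := fun a => by
  obtain ⟨x, hx⟩ := P.theta_surjective a
  exact ⟨P.phi x, by rw [P.rho_phi, hx]⟩

theorem genFitting_R (hk : 0 < k) :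
    generalizedFittingSubgroup (Subgroup.centralizer ({P.zb} : Set P.H)) = P.R := by
  haveI : Fact (Nat.Prime 2) := ⟨Nat.prime_two⟩
  haveI := P.R_normal
  have hR : IsPGroup 2 ↥P.R := (P.extraspecial_Ab hk).1.1.of_equiv P.equivR
  have hcore : pCore 2 (Subgroup.centralizer ({P.zb} : Set P.H)) = P.R := by
    refine le_antisymm ?_ (Cores.le_pCore inferInstance hR)
    rw [← P.rho_ker, ← Subgroup.map_eq_bot_iff]
    exact P.hK _ ((inferInstance : (pCore 2 _).Normal).map _ P.rho_surjective)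
      ((Cores.pCore_isPGroup).map _)
  rw [Components.genFitting_eq_pCore_of_centralizer_le (p := 2) ?_, hcore]
  rw [hcore]
  intro y hy
  obtain ⟨x, rfl⟩ := P.phi_surjective y
  rw [← P.rho_ker, MonoidHom.mem_ker, P.rho_phi]
  refine P.theta_of_central fun a ha => ?_
  have h := hy (P.phi ⟨a, P.Ab_le_D ha⟩) ⟨⟨a, P.Ab_le_D ha⟩, ha, rfl⟩
  rw [← map_mul, ← map_mul] at h
  have h2 : (a * (x : G))⁻¹ * ((x : G) * a) ∈ P.B := P.qm_eq_iff.1 (congrArg Subtype.val h)
  have h3 : (a * (x : G))⁻¹ * ((x : G) * a) ∈ amb Q := by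
    rw [show (a * (x : G))⁻¹ * ((x : G) * a) = ((x : G)⁻¹ * a⁻¹ * (x : G)) * a by group]
    refine mul_mem ?_ ha.1
    simpa using (Subgroup.mem_normalizer_iff.1 (inv_mem (S.norm_le x.2.1)) a⁻¹).1 (inv_mem ha.1)
  exact (inv_mul_eq_one.1 (P.inf_eq_one h3 h2)).symm

theorem setting_R {w : ℕ} (hw : k = 2 * w) (hw0 : 0 < w)
    (hconj : ∃ x ∈ P.CB, x * z * x⁻¹ ∈ P.Ab ∧ x * z * x⁻¹ ≠ z) :
    IsExtraspecialCentralizerSetting P.zb P.R w := by
  refine ⟨P.orderOf_zb, P.genFitting_R (by omega),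
    LargeExtra.isExtraspecial_map_equiv (P.extraspecial_Ab (by omega)) P.equivR, ?_, ?_⟩
  · rw [← Nat.card_congr P.equivR.toEquiv, P.card_Ab, hw]
  · obtain ⟨x, hx, hxA, hne⟩ := hconj
    refine ⟨P.qm ⟨x, hx⟩, ?_, ?_⟩
    · have e : P.qm ⟨x, hx⟩ * P.zb * (P.qm ⟨x, hx⟩)⁻¹ = P.qm ⟨_, P.D_le (P.Ab_le_D hxA)⟩ := by
        rw [zb, ← map_inv, ← map_mul, ← map_mul]; rfl
      rw [e]
      exact ⟨(P.phi ⟨_, P.Ab_le_D hxA⟩).2, ⟨_, P.Ab_le_D hxA⟩, hxA, rfl⟩
    · intro h
      exact hne (P.conj_z P.z_mem_Ab (x := ⟨x, hx⟩) h.symm)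

/-- The quotient by the extraspecial group. -/
theorem quotient_R [P.R.Normal] :
    Nonempty ((Subgroup.centralizer ({P.zb} : Set P.H)) ⧸ P.R ≃* K) :=
  ⟨(QuotientGroup.quotientMulEquivOfEq P.rho_ker.symm).trans
    (QuotientGroup.quotientKerEquivOfSurjective P.rho P.rho_surjective)⟩

end Hyp

end Cfsg.Agent.MonsterCent
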