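import Cfsg.Agent.MonsterCent.Common
import Cfsg.Agent.MonsterCent.SevenChecks

/-!
The centraliser in `Co0` of an element of order 7 fixing three points.
-/

set_option autoImplicit false

namespace Cfsg.Agent.MonsterCent.Seven

open Cfsg Cfsg.Agent.Leech Cfsg.Agent.Monster Cfsg.Agent.MonsterCent Cfsg.Agent.Golay

/-- The element of order 7 of M24. -/
noncomputable abbrev r : M24 := data.perm check_perm

/-- Its lift. -/
noncomputable abbrev g : Co0 := data.g check_perm

instance : Fact (Nat.Prime data.n) := ⟨by decide +kernel⟩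

theorem order_r : orderOf r = 7 := Data.order_perm check_perm

theorem no_inverter : (M24.scan (twistOK data.tab 6 data.n) (twistFull data.tab 6)).length = 0 := by decide +kernel

/-- The check that the flip word inverts. -/
def flipCheck : Bool :=
  (List.range 24).all fun i => (List.range 24).all fun j =>
    runV (opsOf flipWord) (Leech.cross (ptOf (M24.papp data.tab i))) (ptOf j) ==
      runV (opsOf flipWord) (Leech.cross (ptOf i)) (ptOf (M24.papp data.tab j))

theorem flip_check : flipCheck = true := by decide +kernel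

theorem flip_comm : g * rawEl flipWord * g = rawEl flipWord := by
  refine Leech.co0_ext fun p => Subtype.ext (funext fun q => ?_)
  have hσ : g • crossL p = crossL ((r : Equiv.Perm GolayPt) p) := Subtype.ext (funext fun t => by
    show ((permLift r) • crossL p).1 t = _
    rw [permLift_smul]
    simp only [crossL, Leech.cross, Function.comp_apply, Equiv.Perm.inv_eq_iff_eq])
  rw [mul_smul, mul_smul, hσ]
  show ((permLift r) • rawEl flipWord • crossL _).1 q = _
  rw [permLift_smul, Function.comp_apply, rawEl_smul, rawEl_smul]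
  have := flip_check
  simp only [flipCheck, List.all_eq_true, List.mem_range, beq_iff_eq] at this
  have h2 := this (Golay.ptIdx p) (Golay.ptIdx_lt p) (Golay.ptIdx ((r : Equiv.Perm GolayPt)⁻¹ q)) (Golay.ptIdx_lt _)
  rw [← Data.rep check_perm, ← Data.rep check_perm, M24.ptOf_ptIdx, M24.ptOf_ptIdx, M24.ptOf_ptIdx,
    M24.ptOf_ptIdx, Monster.perm_apply_inv] at h2
  exact h2

variable {X : Coords g data.k}

theorem card_cen (hX : ∀ j : Fin data.k, (X.e j).1 = data.eI j ∧ (X.u j).1 = data.uI j) :
    Nat.card (cen g) ≤ 7 * (42 * 8) := by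
  classical
  set h0 := rawEl flipWord
  have hh : g * h0 = h0 * g⁻¹ := eq_mul_inv_iff_mul_eq.2 flip_comm
  have hfix : ∀ v : leechLattice, classMap (g • v) = classMap v → classMap (g • h0 • v) = classMap (h0 • v) := by
    intro v hv
    have hv' : classMap (g⁻¹ • v) = classMap v := by
      have := classMap_smul g⁻¹ hv
      rw [inv_smul_smul] at this
      exact this.symm
    rw [← mul_smul, hh, mul_smul, classMap_smul h0 hv']
  set R : Set (Co data.k) := {c | ∃ a ∈ cen g, c = X.act a X.std}
  have hRT : R ⊆ ↑(data.types) := by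
    rintro _ ⟨a, ha, rfl⟩
    exact Data.act_std_mem hX check_reps fun c => Coords.fixed_smul (mem_cen.1 ha) (X.vec_fixed_class c)
  have hmul : ∀ a ∈ cen g, ∀ c, X.act h0 (X.act a c) = X.act (h0 * a) c := fun a ha c =>
    (X.act_comp (mem_cen.1 ha) c).symm
  have hRT' : X.act h0 '' R ⊆ ↑(data.types) := by
    rintro _ ⟨_, ⟨a, ha, rfl⟩, rfl⟩
    rw [hmul a ha]
    refine Data.act_std_mem hX check_reps fun c => ?_
    rw [mul_smul]
    exact hfix _ (Coords.fixed_smul (mem_cen.1 ha) (X.vec_fixed_class c))
  have hinj : Function.Injective (X.act h0) := by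
    refine Function.LeftInverse.injective (g := X.act h0⁻¹) fun c => ?_
    rw [← X.act_mul (fun d => hfix _ (X.vec_fixed_class d)), inv_mul_cancel, X.act_one]
  have hdisj : Disjoint R (X.act h0 '' R) := by
    rw [Set.disjoint_left]
    rintro _ ⟨b, hb, rfl⟩ ⟨_, ⟨a, ha, rfl⟩, e⟩
    rw [hmul a ha] at e
    have h1 : ∀ c, classMap (g • (h0 * a) • X.vec c) = classMap ((h0 * a) • X.vec c) := fun c => by
      rw [mul_smul]
      exact hfix _ (Coords.fixed_smul (mem_cen.1 ha) (X.vec_fixed_class c))
    have h2 : ∀ c, classMap (g • b • X.vec c) = classMap (b • X.vec c) :=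
      fun c => Coords.fixed_smul (mem_cen.1 hb) (X.vec_fixed_class c)
    have hstd : classMap (crossL none) = classMap (X.vec X.std) := X.expand (Data.g_cross check_perm)
    have e' := classMap_smul b⁻¹ (X.eq_of_kap (h1 X.std) (h2 X.std) e)
    rw [inv_smul_smul, ← mul_smul] at e'
    have hmem : b⁻¹ * (h0 * a) ∈ crossStab :=
      mem_classStab.2 (classMap_eq_iff.1 (hstd.trans (e'.symm.trans (classMap_smul _ hstd).symm)))
    have hinv : b⁻¹ * (h0 * a) * g = g⁻¹ * (b⁻¹ * (h0 * a)) := by
      have ha' : a * g = g * a := mem_cen.1 ha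
      have hb' : Commute b g := mem_cen.1 hb
      have hh' : h0 * g = g⁻¹ * h0 := eq_inv_mul_iff_mul_eq.2 (by rw [← mul_assoc]; exact flip_comm)
      calc b⁻¹ * (h0 * a) * g = b⁻¹ * (h0 * (a * g)) := by group
        _ = b⁻¹ * ((h0 * g) * a) := by rw [ha']; group
        _ = (b⁻¹ * g⁻¹) * (h0 * a) := by rw [hh']; group
        _ = _ := by rw [(hb'.inv_inv).eq]; group
    have h3 := congrArg permHom (show (⟨_, hmem⟩ : crossStab) * ⟨g, permLift_mem r⟩ =
      ⟨g, permLift_mem r⟩⁻¹ * ⟨_, hmem⟩ from Subtype.ext hinv)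
    have hg' : permHom ⟨g, permLift_mem r⟩ = (r : Equiv.Perm GolayPt) := permHom_permLift r
    rw [map_mul, map_mul, map_inv, hg'] at h3
    have h6 : (r : Equiv.Perm GolayPt) ^ 6 = (r : Equiv.Perm GolayPt)⁻¹ := by
      refine eq_inv_of_mul_eq_one_left ?_
      rw [← pow_succ]
      have h7 := pow_orderOf_eq_one r
      rw [order_r] at h7
      exact congrArg Subtype.val h7
    haveI : IsEmpty {x : Equiv.Perm GolayPt // x ∈ M24 ∧ x * (r : Equiv.Perm GolayPt) = (r : Equiv.Perm GolayPt) ^ 6 * x} := by
      have := card_twist (Data.rep check_perm) r.2 no_inverter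
      exact (Nat.card_eq_zero.1 this).resolve_right (fun h => h.not_finite inferInstance)
    exact IsEmpty.false (⟨_, (crossStab_monomial _).1, by rw [h6]; exact h3⟩ :
      {x : Equiv.Perm GolayPt // x ∈ M24 ∧ x * (r : Equiv.Perm GolayPt) = (r : Equiv.Perm GolayPt) ^ 6 * x})
  have hcard : (R ∪ X.act h0 '' R).ncard ≤ 14 := by
    refine (Set.ncard_le_ncard (Set.union_subset hRT hRT') (Finset.finite_toSet _)).trans_eq ?_
    rw [Set.ncard_coe_finset, Data.card_types count_types]
  rw [Set.ncard_union_eq hdisj, Set.ncard_image_of_injective _ hinj] at hcard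
  refine (card_cen_le X (Data.g_cross check_perm) (s := R) (fun a ha => ⟨a, ha, rfl⟩)
    (Data.card_stab check_stab)).trans ?_
  exact Nat.mul_le_mul_right _ (by omega)

/-- The action of the linear group on vectors. -/
def toPerm : Matrix.SpecialLinearGroup (Fin 3) (ZMod 2) →* Equiv.Perm (Fin 3 → ZMod 2) :=
  MonoidHom.mk' (fun A =>
    { toFun := fun v => (A : Matrix (Fin 3) (Fin 3) (ZMod 2)).mulVec v
      invFun := fun v => ((A⁻¹ : Matrix.SpecialLinearGroup (Fin 3) (ZMod 2)) : Matrix (Fin 3) (Fin 3) (ZMod 2)).mulVec v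
      left_inv := fun v => by
        simp [Matrix.mulVec_mulVec, Matrix.adjugate_mul, A.det_coe]
      right_inv := fun v => by
        simp [Matrix.mulVec_mulVec, Matrix.mul_adjugate, A.det_coe] })
    fun A B => Equiv.ext fun v => by
      simp [Matrix.mulVec_mulVec, Matrix.SpecialLinearGroup.coe_mul]

theorem toPerm_injective : Function.Injective toPerm := by
  intro A B h
  refine Subtype.ext (Matrix.ext_of_mulVec_single fun i => ?_)
  exact DFunLike.congr_fun h (Pi.single i 1)

/-- The positions of the six transvections. -/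
def posList : List (Fin 3 × Fin 3) := [(0, 1), (0, 2), (1, 0), (1, 2), (2, 0), (2, 1)]

/-- Membership of a class in the point given by a vector. -/
def mem (v : Fin 3 → ZMod 2) (c : Co data.k) : Bool :=
  decide ((∀ j : Fin 3, c ⟨j.val, Nat.lt_of_lt_of_le j.isLt (show 3 ≤ 6 by decide)⟩ = v j) ∧
    ∀ j : Fin 3, c ⟨j.val + 3, Nat.add_lt_add_right j.isLt 3⟩ = 0)

/-- The check of a transvection word. -/
def genCheck : Bool :=
  (List.range 6).all fun a =>
    match posList[a]? with
    | none => false
    | some (i, j) => ((words.getD a []).all fun x => decide (x < raw.length)) &&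
        decide (∀ m : Fin 64, ∀ v : Fin 3 → ZMod 2,
          mem (fun t => if t = i then v t + v j else v t)
            (cf data.k (mapM (Data.prodCols data.k raw (words.getD a [])) data.k m)) = mem v (cf data.k m))

theorem gen_check : genCheck = true := by decide +kernel

theorem toPerm_transvection {i j : Fin 3} (hij : i ≠ j) (v : Fin 3 → ZMod 2) :
    toPerm (Matrix.SpecialLinearGroup.transvection hij 1) v = fun t => if t = i then v t + v j else v t := by
  have : ∀ i j : Fin 3, i ≠ j → ∀ v : Fin 3 → ZMod 2,
      (Matrix.transvection i j (1 : ZMod 2)).mulVec v = fun t => if t = i then v t + v j else v t := by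
    decide +kernel
  exact this i j hij v

theorem closure_transvections :
    Subgroup.closure {A : Matrix.SpecialLinearGroup (Fin 3) (ZMod 2) |
      ∃ i j : Fin 3, ∃ h : i ≠ j, A = Matrix.SpecialLinearGroup.transvection h 1} = ⊤ := by
  refine eq_top_iff.2 fun A hA => ?_
  clear hA
  induction A using Linear.transvection_induction with
  | htransvec i j h c =>
    rcases (show ∀ c : ZMod 2, c = 0 ∨ c = 1 by decide) c with rfl | rfl
    · convert one_mem (Subgroup.closure {A : Matrix.SpecialLinearGroup (Fin 3) (ZMod 2) |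
        ∃ i j : Fin 3, ∃ h : i ≠ j, A = Matrix.SpecialLinearGroup.transvection h 1})
      exact Subtype.ext (Matrix.transvection_zero i j)
    · exact Subgroup.subset_closure ⟨i, j, h, rfl⟩
  | hmul A B hA hB => exact mul_mem hA hB

theorem exists_cent : ∃ X : Coords g data.k,
    (∀ j : Fin data.k, (X.e j).1 = data.eI j ∧ (X.u j).1 = data.uI j) ∧
      Nonempty (LeechCent X (Matrix.SpecialLinearGroup (Fin 3) (ZMod 2))) := by
  obtain ⟨X, hX⟩ := Data.exists_coords check_perm (show Odd data.n by decide) check_basis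
  refine ⟨X, hX, ?_⟩
  have hgc := gen_check
  simp only [genCheck, List.all_eq_true, List.mem_range] at hgc
  have hne : ∀ (a : Fin 6), (posList[(a : ℕ)]'a.2).1 ≠ (posList[(a : ℕ)]'a.2).2 := by decide
  let tv : Fin 6 → Matrix.SpecialLinearGroup (Fin 3) (ZMod 2) := fun a =>
    Matrix.SpecialLinearGroup.transvection (hne a) 1
  refine exists_cent_of_perms X (p := 7) (by decide) (Data.order_g check_perm) mem ?_
    ((List.finRange 6).map fun a : Fin 6 => (Data.prodEl raw (words.getD (a : ℕ) []), toPerm (tv a))) ?_ toPerm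
    toPerm_injective ?_ ?_
  · intro v w h
    have hsep : ∀ v w : Fin 3 → ZMod 2, (∀ m : Fin 64, mem v (cf data.k m) = mem w (cf data.k m)) → v = w := by
      decide +kernel
    exact hsep v w fun m => h _
  · intro x hx
    obtain ⟨a, -, rfl⟩ := List.mem_map.1 hx
    have ha := hgc a a.2
    rw [List.getElem?_eq_getElem (show (a : ℕ) < posList.length from a.2)] at ha
    simp only [Bool.and_eq_true, List.all_eq_true, decide_eq_true_eq] at ha
    obtain ⟨hw, hchk⟩ := ha
    have hcol := Data.isCol_prod hX check_raw _ hw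
    refine ⟨hcol.1, fun v c => ?_⟩
    obtain ⟨m, hm, rfl⟩ := exists_cf c
    rw [hcol.2 m, toPerm_transvection (hne a)]
    exact hchk ⟨m, hm⟩ v
  · rw [MonoidHom.range_eq_map, ← closure_transvections, MonoidHom.map_closure]
    congr 1
    ext π
    constructor
    · rintro ⟨A, ⟨i, j, hij, rfl⟩, rfl⟩
      obtain ⟨a, ha⟩ : ∃ a : Fin 6, posList[(a : ℕ)]'a.2 = (i, j) := by
        have : ∀ i j : Fin 3, i ≠ j → ∃ a : Fin 6, posList[(a : ℕ)]'a.2 = (i, j) := by decide
        exact this i j hij
      refine ⟨_, List.mem_map.2 ⟨a, List.mem_finRange a, rfl⟩, ?_⟩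
      show toPerm (Matrix.SpecialLinearGroup.transvection (hne a) 1) = _
      congr 1
      exact Subtype.ext (by show Matrix.transvection _ _ _ = Matrix.transvection _ _ _; rw [ha])
    · rintro ⟨x, hx, rfl⟩
      obtain ⟨a, -, rfl⟩ := List.mem_map.1 hx
      exact ⟨_, ⟨_, _, hne a, rfl⟩, rfl⟩
  · refine (card_cen hX).trans ?_
    rw [show Nat.card (Matrix.SpecialLinearGroup (Fin 3) (ZMod 2)) = 168 by
      rw [Nat.card_eq_fintype_card]; decide +kernel]

/-- Conjugators of the powers. -/
def conjList : List ℕ := [984818244535754528103549039458486304, 967809572305687624954479744312710147, 966198997466176224638768504908036193, 966198997466176224638768504908036193, 967809572305687624954479744312710147, 984818244535754528103549039458486304]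

theorem pow_cert : powCert data.tab 7 conjList = true := by decide +kernel

theorem factorization_seven : (Nat.card ↥M24).factorization 7 = 1 := by
  rw [Golay.card_M24, show (244823040 : ℕ) = 7 ^ 1 * 34974720 by norm_num, Nat.factorization_mul (by norm_num) (by norm_num),
    Nat.Prime.factorization_pow (by norm_num : Nat.Prime 7), Finsupp.add_apply, Finsupp.single_eq_same,
    Nat.factorization_eq_zero_of_not_dvd (by norm_num : ¬ 7 ∣ 34974720), add_zero]

theorem classes {x : M24} (hx : orderOf x = 7) : ∃ τ : M24, τ * x * τ⁻¹ = r ∨ τ * x * τ⁻¹ = r⁻¹ := by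
  haveI : Fact (Nat.Prime 7) := ⟨by norm_num⟩
  exact classes_of_sylow (Data.rep check_perm) order_r pow_cert factorization_seven hx

end Cfsg.Agent.MonsterCent.Seven
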