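import Cfsg.Agent.MonsterCent.SevenFrame
import Cfsg.Agent.Monster.BabyLift

/-!
An involution inverting the element of order 7.
-/

set_option autoImplicit false

namespace Cfsg.Agent.MonsterCent.Seven

open Cfsg Cfsg.Agent.Leech Cfsg.Agent.Monster

variable {G : Type*} [Group G] [Finite G] {z : G} {Q : Subgroup (Subgroup.centralizer ({z} : Set G))} [Q.Normal]
  {e : (Subgroup.centralizer ({z} : Set G)) ⧸ Q ≃* Spor.Co1} {ψ : leechLattice → Q ⧸ Subgroup.center Q}

/-- An element matching a conjugate of a sign change is matched by an involution. -/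
theorem exists_involution_of_sign (S : MSetting z Q e ψ) (f u : Co0) (hf : u⁻¹ * f * u ∈ signs) :
    ∃ y : Subgroup.centralizer ({z} : Set G), y * y = 1 ∧ S.Matches f y := by
  haveI := finite_Co0
  haveI : Fact (Nat.Prime 2) := ⟨Nat.prime_two⟩
  have S2 := S.retarget u
  obtain ⟨x0, hx0⟩ := S2.rep_surj (crossL none)
  have hconj := (S2.isConj_iff_norm (Monster.MSetting.rep_mem hx0)).2 ⟨crossL none, sqNorm_cross none, hx0⟩
  obtain ⟨g, hgz⟩ := isConj_iff.1 hconj.1
  subst hgz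
  have hs := Monster.MSetting.rep_mem hx0
  have hne := hconj.2
  obtain ⟨hle, hn⟩ := S2.conjLift_le hs hne hx0
  obtain ⟨hcard, hp⟩ := S2.card_conjLift hs hne
  have heq := Subgroup.eq_of_le_of_card_ge (le_signs_of_normal hp hle hn) (by rw [card_signs_all]; exact hcard)
  rw [← heq] at hf
  obtain ⟨c, hc, hce⟩ := hf
  have hm : S.Matches f c := by
    have h2 : (QuotientGroup.mk (u⁻¹ * f * u) : Spor.Co1) =
        (e.trans (MulAut.conj (QuotientGroup.mk (u⁻¹) : Spor.Co1))) (QuotientGroup.mk c) :=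
      (MulEquiv.symm_apply_eq _).1 hce.symm
    rw [MulEquiv.trans_apply, MulAut.conj_apply, QuotientGroup.mk_mul, QuotientGroup.mk_mul, QuotientGroup.mk_inv,
      inv_inv] at h2
    exact mul_left_cancel (mul_right_cancel h2)
  have D := S2.pair hs hne
  set A' := (amb Q).map (MulAut.conj g).toMonoidHom with hA'
  set x0 := g * z * g⁻¹ with hx0def
  by_cases h1 : (c : G) * c = 1
  · exact ⟨c, Subtype.ext h1, hm⟩
  obtain ⟨a, haQ, haA, hac⟩ : ∃ a : G, a ∈ amb Q ∧ a ∈ A' ∧ (c : G) * a ≠ a * c := by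
    by_contra hcon
    push Not at hcon
    set I := amb Q ⊓ A' with hI
    set I' := I.subgroupOf A' with hI'
    have hcI : Nat.card ↥I' = 2 ^ 13 := by
      rw [hI', Nat.card_congr (Subgroup.subgroupOfEquivOfLe inf_le_right).toEquiv]
      exact (S2.card_inter hs hne).1
    have hcA : Nat.card ↥A' = 2 ^ 25 := by
      rw [hA', ← Nat.card_congr
        ((amb Q).equivMapOfInjective (MulAut.conj g).toMonoidHom (MulAut.conj g).injective).toEquiv, S2.card_amb]
    have hcenter : Subgroup.center ↥A' ≤ I' := by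
      intro w hw
      show (w : G) ∈ I
      rcases D.hQ'.eq_of_mem hw with r | r
      · rw [r]; exact one_mem _
      · rw [r]; exact ⟨hs, D.hQ'.mem⟩
    have h2 := Cfsg.Agent.PGroup.extraspecial_card_centralizer_mul D.hQ'.extra hcenter
    rw [hcI, hcA] at h2
    have habel : I' ≤ Subgroup.centralizer (I' : Set ↥A') := by
      intro w hw v hv
      exact Subtype.ext (congrArg (fun q : ↥I => (q : G))
        (D.elementary.1.is_comm.comm ⟨(v : G), hv⟩ ⟨(w : G), hw⟩))
    have hC : Subgroup.centralizer (I' : Set ↥A') = I' :=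
      (Subgroup.eq_of_le_of_card_ge habel (by rw [hcI]; omega)).symm
    have hcC : (⟨(c : G), hc.1⟩ : ↥A') ∈ Subgroup.centralizer (I' : Set ↥A') :=
      fun v hv => Subtype.ext (hcon _ hv.1 hv.2).symm
    rw [hC] at hcC
    exact h1 ((pow_two _).symm.trans (D.elementary.2 (c : G) hcC))
  have hcc : (c : G) * c = x0 := (D.hQ'.sq_mem hc.1).resolve_left h1
  have hcac : (c : G) * a * (c : G)⁻¹ = a * x0 :=
    (D.hQ'.conj_cases hc.1 haA).resolve_left fun r => hac (mul_inv_eq_iff_eq_mul.1 r)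
  have ha2 : a * a = 1 := (pow_two _).symm.trans (D.elementary.2 a ⟨haQ, haA⟩)
  obtain ⟨a', ha', rfl⟩ := haQ
  refine ⟨c * a', Subtype.ext ?_, ?_⟩
  · show (c : G) * (a' : G) * ((c : G) * (a' : G)) = 1
    calc (c : G) * (a' : G) * ((c : G) * (a' : G))
        = (c : G) * (a' : G) * (c : G)⁻¹ * ((c : G) * c) * (a' : G) := by group
      _ = (a' : G) * x0 * x0 * (a' : G) := by
        rw [show (c : G) * (a' : G) * (c : G)⁻¹ = (a' : G) * x0 from hcac, hcc]
      _ = 1 := by rw [mul_assoc (a' : G) x0 x0, D.hQ'.sq, mul_one]; exact ha2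
  · have h3 : (QuotientGroup.mk (c * a') : _ ⧸ Q) = QuotientGroup.mk c := by
      rw [QuotientGroup.mk_mul, (QuotientGroup.eq_one_iff a').2 ha', mul_one]
    show _ = _
    rw [h3]
    exact hm

/-- The element of order 7 is inverted by an involution. -/
theorem exists_inverting (S : MSetting z Q e ψ) {b : Subgroup.centralizer ({z} : Set G)} (hb : b ^ 7 = 1)
    (hm : S.Matches g b) : ∃ t : Subgroup.centralizer ({z} : Set G), t * t = 1 ∧ t * b * t⁻¹ = b⁻¹ := by
  obtain ⟨u, hu⟩ := exists_sign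
  obtain ⟨y, hy, hmy⟩ := exists_involution_of_sign S _ u hu
  haveI : Fact (Nat.Prime 2) := ⟨Nat.prime_two⟩
  set mk := QuotientGroup.mk' Q with hmk
  have hsp : IsPGroup 2 ↥mk.ker := by rw [hmk, QuotientGroup.ker_mk']; exact S.setting.2.2.1.1.1
  have hpb : mk b = S.proj g := (S.proj_eq_iff.2 hm).symm
  have hpy : mk y = S.proj (rawEl flipWord) := (S.proj_eq_iff.2 hmy).symm
  have hg7 : g ^ 7 = 1 := by
    have h := pow_orderOf_eq_one g
    rwa [show orderOf g = 7 from Data.order_g check_perm] at h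
  have hh : rawEl flipWord * g * (rawEl flipWord)⁻¹ = g⁻¹ := by
    have h1 : rawEl flipWord * g = g⁻¹ * rawEl flipWord :=
      eq_inv_mul_iff_mul_eq.2 (by rw [← mul_assoc]; exact flip_comm)
    rw [h1, mul_inv_cancel_right]
  set d := y * b ^ 3 * y⁻¹ * (b ^ 3)⁻¹ with hd
  have hyi : y⁻¹ = y := inv_eq_of_mul_eq_one_right hy
  have hdi : y * d * y⁻¹ = d⁻¹ := by
    rw [hd, hyi]
    calc y * (y * b ^ 3 * y * (b ^ 3)⁻¹) * y = y * y * (b ^ 3 * y * (b ^ 3)⁻¹ * y) := by group
      _ = b ^ 3 * y⁻¹ * (b ^ 3)⁻¹ * y⁻¹ := by rw [hy, one_mul, hyi]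
      _ = _ := by rw [hyi]; group; rw [show y ^ (-1 : ℤ) = y by rw [zpow_neg_one, hyi]]
  have hdg : mk d = S.proj g := by
    rw [hd]
    rw [map_mul, map_mul, map_mul, map_inv, map_inv, map_pow, hpb, hpy, ← map_pow, ← map_inv, ← map_inv, ← map_mul,
      ← map_mul, ← map_mul]
    refine congrArg (fun a => S.proj a) ?_
    rw [← conj_pow, hh]
    have : g⁻¹ = g ^ 6 := (eq_inv_of_mul_eq_one_left (by rw [← pow_succ, hg7])).symm
    rw [inv_pow, ← mul_inv_rev, ← pow_add, show (3 : ℕ) + 3 = 6 from rfl, ← this, inv_inv]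
  have hd56 : (d ^ 8) ^ 7 = 1 := by
    have hq : d ^ 7 ∈ Q := (QuotientGroup.eq_one_iff _).1 (show mk (d ^ 7) = 1 by
      rw [map_pow, hdg, ← map_pow, hg7, map_one])
    have hqa : ((d ^ 7 : Subgroup.centralizer ({z} : Set G)) : G) ∈ amb Q := ⟨_, hq, rfl⟩
    have h4 : (d ^ 7) ^ 4 = 1 := by
      refine Subtype.ext ?_
      rw [SubgroupClass.coe_pow, OneMemClass.coe_one, show (4 : ℕ) = 2 * 2 from rfl, pow_mul, pow_two, pow_two]
      rcases S.ci.sq_mem hqa with r | r <;> rw [r]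
      · rw [mul_one]
      · exact S.ci.sq
    rw [← pow_mul, show 8 * 7 = 7 * 4 * 2 from rfl, pow_mul, pow_mul, h4, one_pow]
  obtain ⟨k, -, hk⟩ := conj_of_map_eq mk hsp (p := 7) (by norm_num) (by norm_num) hd56 hb
    (by rw [map_pow, hdg, hpb, ← map_pow, show (8 : ℕ) = 7 + 1 from rfl, pow_succ, hg7, one_mul])
  refine ⟨k⁻¹ * y * k, ?_, ?_⟩
  · calc k⁻¹ * y * k * (k⁻¹ * y * k) = k⁻¹ * (y * y) * k := by group
      _ = 1 := by rw [hy]; group
  · rw [← hk]
    calc k⁻¹ * y * k * (k⁻¹ * d ^ 8 * k) * (k⁻¹ * y * k)⁻¹ = k⁻¹ * (y * d * y⁻¹) ^ 8 * k := by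
          rw [conj_pow]; group
      _ = _ := by rw [hdi, inv_pow]; group

end Cfsg.Agent.MonsterCent.Seven
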