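import Cfsg.Agent.MonsterCent.Seven

/-!
The inverting word is a conjugate of a sign change.
-/

set_option autoImplicit false

namespace Cfsg.Agent.MonsterCent.Seven

open Cfsg Cfsg.Agent.Leech Cfsg.Agent.Monster Cfsg.Agent.Golay

/-- A cross diagonalising the inverting word. -/
def frame : List (List ℤ) := [
    [-2, -2, -2, -2, 0, -2, 0, 0, -2, 0, 0, 0, 0, -2, -2, -2, -2, -2, 2, 2, -2, -2, 0, -2],
    [-2, -2, 2, 2, 0, 2, 0, 0, 2, 0, 0, 0, 0, -2, 2, -2, 2, -2, 2, 2, 2, 2, 0, -2],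
    [-2, 2, -2, 2, 0, 2, 0, 0, 2, 0, 0, 0, 0, -2, -2, -2, -2, -2, -2, -2, -2, 2, 0, 2],
    [2, -2, -2, 2, 0, 2, 0, 0, 2, 0, 0, 0, 0, 2, -2, 2, -2, 2, 2, 2, -2, 2, 0, -2],
    [-2, 2, 2, -2, 0, -2, 0, 0, 2, 0, 0, 0, 0, 2, 2, 2, -2, -2, 2, 2, -2, 2, 0, 2],
    [2, -2, 2, -2, 0, -2, 0, 0, 2, 0, 0, 0, 0, -2, 2, -2, -2, 2, -2, -2, -2, 2, 0, -2],
    [2, 2, -2, -2, 0, -2, 0, 0, 2, 0, 0, 0, 0, -2, -2, -2, 2, 2, 2, 2, 2, 2, 0, 2],
    [-2, -2, -2, -2, 0, -2, 0, 0, 2, 0, 0, 0, 0, 2, -2, 2, 2, -2, -2, -2, 2, 2, 0, -2],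
    [0, 0, 0, 0, 2, 0, 2, 2, 0, 2, 2, 2, 2, 0, 0, 0, 0, 0, 4, -4, 0, 0, 2, 0],
    [0, 0, 0, 0, 2, 0, 2, 2, 0, 2, 2, 2, 2, 0, 0, 0, 0, 0, -4, 4, 0, 0, 2, 0],
    [0, -4, 0, 0, -2, 0, 2, -2, 0, 2, 2, 2, -2, 0, 0, 0, 0, 0, 0, 0, 0, 0, -2, 4],
    [0, 4, 0, 0, -2, 0, 2, -2, 0, 2, 2, 2, -2, 0, 0, 0, 0, 0, 0, 0, 0, 0, -2, -4],
    [0, 0, 0, 0, -2, 0, -2, 2, 0, -2, 2, 2, -2, -4, 0, 4, 0, 0, 0, 0, 0, 0, 2, 0],
    [0, 0, 0, 0, -2, 0, -2, 2, 0, -2, 2, 2, -2, 4, 0, -4, 0, 0, 0, 0, 0, 0, 2, 0],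
    [-4, 0, 0, 0, 2, 0, -2, -2, 0, -2, 2, 2, 2, 0, 0, 0, 0, 4, 0, 0, 0, 0, -2, 0],
    [4, 0, 0, 0, 2, 0, -2, -2, 0, -2, 2, 2, 2, 0, 0, 0, 0, -4, 0, 0, 0, 0, -2, 0],
    [0, 0, 0, 0, 2, 0, -2, 2, 0, 2, -2, 2, -2, 0, 0, 0, -4, 0, 0, 0, 4, 0, -2, 0],
    [0, 0, 0, 0, 2, 0, -2, 2, 0, 2, -2, 2, -2, 0, 0, 0, 4, 0, 0, 0, -4, 0, -2, 0],
    [0, 0, -4, 0, -2, 0, -2, -2, 0, 2, -2, 2, 2, 0, 4, 0, 0, 0, 0, 0, 0, 0, 2, 0],
    [0, 0, 4, 0, -2, 0, -2, -2, 0, 2, -2, 2, 2, 0, -4, 0, 0, 0, 0, 0, 0, 0, 2, 0],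
    [0, 0, 0, 0, -2, 0, 2, 2, -4, -2, -2, 2, 2, 0, 0, 0, 0, 0, 0, 0, 0, 4, -2, 0],
    [0, 0, 0, 0, -2, 0, 2, 2, 4, -2, -2, 2, 2, 0, 0, 0, 0, 0, 0, 0, 0, -4, -2, 0],
    [0, 0, 0, -4, 2, 4, 2, -2, 0, -2, -2, 2, -2, 0, 0, 0, 0, 0, 0, 0, 0, 0, 2, 0],
    [0, 0, 0, 4, 2, -4, 2, -2, 0, -2, -2, 2, -2, 0, 0, 0, 0, 0, 0, 0, 0, 0, 2, 0]]

/-- A vector of the cross. -/
def frameV (i : ℕ) : GolayPt → ℤ := ofI (frame.getD i [])

/-- The check of the cross. -/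
def frameCheck : Bool :=
  (List.range 24).all fun i =>
    inLeechB (frameV i) && dotL (frameV i) (frameV i) == 64 &&
    (List.range 24).all (fun q => (frameV i (ptOf q) - frameV 0 (ptOf q)) % 2 == 0) &&
    inLeechB (fun p => (frameV i p - frameV 0 p) / 2) &&
    ((List.range 24).all (fun q => runV (opsOf flipWord) (frameV i) (ptOf q) == frameV i (ptOf q)) ||
      (List.range 24).all (fun q => runV (opsOf flipWord) (frameV i) (ptOf q) == -frameV i (ptOf q))) &&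
    (List.range 24).all (fun j => Nat.beq i j || dotL (frameV i) (frameV j) == 0)

theorem frame_check : frameCheck = true := by decide +kernel

/-- The inverting word is conjugate to a sign change. -/
theorem exists_sign : ∃ u : Co0, u⁻¹ * rawEl flipWord * u ∈ signs := by
  have hc := frame_check
  simp only [frameCheck, List.all_eq_true, List.mem_range, Bool.and_eq_true, Bool.or_eq_true, beq_iff_eq,
    Nat.beq_eq] at hc
  have hmem : ∀ i < 24, frameV i ∈ leechLattice := fun i hi => mem_of_inLeechB (hc i hi).1.1.1.1.1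
  let v : Fin 24 → leechLattice := fun i => ⟨frameV i, hmem i i.2⟩
  have hn : ∀ i, sqNorm (v i).1 = 64 := fun i => by
    rw [← (hc i i.2).1.1.1.1.2, dotL_eq]
    simp [v, sqNorm, dotInt, sq]
  obtain ⟨u, hu⟩ := exists_smul_eq_of_conj (conj64 (crossL none).2 (sqNorm_cross none)) (conj64 (v 0).2 (hn 0))
  set f := u⁻¹ * rawEl flipWord * u with hf
  have hcong : ∀ i, Cong (crossL none).1 (u⁻¹ • v i).1 := by
    intro i
    have h1 : Cong (v i).1 (v 0).1 := by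
      refine ⟨_, mem_of_inLeechB (hc i i.2).1.1.2, funext fun p => ?_⟩
      have h2 := (hc i i.2).1.1.1.2 (ptIdx p) (ptIdx_lt p)
      rw [M24.ptOf_ptIdx] at h2
      simp only [v, Pi.sub_apply, Pi.smul_apply, nsmul_eq_mul, Nat.cast_ofNat, Fin.val_zero]
      omega
    have h2 := cong_smul u⁻¹ h1
    rw [← hu, inv_smul_smul] at h2
    exact h2.symm
  have hline : ∀ i, ∃ k, OnLine (u⁻¹ • v i).1 k := fun i =>
    cross_of_congr (u⁻¹ • v i).2 (((u⁻¹).2.2 (v i)).trans (hn i)) (hcong i)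
  choose k hk using hline
  have hinj : Function.Injective k := by
    intro i j e
    by_contra hne
    have h0 : dotInt (u⁻¹ • v i).1 (u⁻¹ • v j).1 = 0 := by
      rw [co0_dotInt]
      have := ((hc i i.2).2 j j.2).resolve_left fun h => hne (Fin.ext h)
      rwa [dotL_eq] at this
    have hi := hk i
    have hj := hk j
    rw [e] at hi
    rcases hi with a | a <;> rcases hj with b | b <;> rw [a, b] at h0 <;>
      simp [dotInt, Leech.cross] at h0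
  have hsurj := ((Fintype.bijective_iff_injective_and_card k).2
    ⟨hinj, by rw [Fintype.card_fin, Golay.card_golayPt]⟩).2
  have hfix : ∀ q, OnLine (f • crossL q).1 q := by
    intro q
    obtain ⟨i, rfl⟩ := hsurj q
    have hfl : rawEl flipWord • v i = v i ∨ rawEl flipWord • v i = -v i := by
      rcases (hc i i.2).1.2 with h | h
      · refine Or.inl (Subtype.ext (funext fun p => ?_))
        have := h (ptIdx p) (ptIdx_lt p)
        rw [M24.ptOf_ptIdx] at this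
        rw [rawEl_smul]
        exact this
      · refine Or.inr (Subtype.ext (funext fun p => ?_))
        have := h (ptIdx p) (ptIdx_lt p)
        rw [M24.ptOf_ptIdx] at this
        rw [rawEl_smul, AddSubgroup.coe_neg, Pi.neg_apply]
        exact this
    have hw : crossL (k i) = u⁻¹ • v i ∨ crossL (k i) = -(u⁻¹ • v i) := by
      rcases hk i with a | a
      · exact Or.inl (Subtype.ext a.symm)
      · exact Or.inr (Subtype.ext (by rw [AddSubgroup.coe_neg, a, neg_neg]; rfl))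
    have hfw : f • (u⁻¹ • v i) = u⁻¹ • rawEl flipWord • v i := by
      rw [hf, mul_smul, mul_smul, smul_inv_smul]
    rcases hw with e | e <;> rcases hfl with a | a <;>
      rw [e] <;> simp only [co0_neg, hfw, a, AddSubgroup.coe_neg, neg_neg] <;>
      rcases hk i with b | b <;> simp [OnLine, b]
  have hmemf : f ∈ crossStab := by
    rw [mem_classStab]
    rcases hfix none with e | e <;> rw [e]
    · exact Cong.refl _
    · exact (cong_neg (crossL none).2).symm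
  exact ⟨u, ⟨f, hmemf⟩, MonoidHom.mem_ker.2 (Equiv.ext fun q => (linePt_spec ⟨f, hmemf⟩ q).unique (hfix q)), rfl⟩

end Cfsg.Agent.MonsterCent.Seven
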