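import Cfsg.Prelude.Def_MonsterType
import Cfsg.Agent.Linear.Transvection
import Cfsg.Agent.Linear.Orders

/-!
The three targets have no non-trivial normal 2-subgroup.
-/

set_option autoImplicit false

namespace Cfsg.Agent.MonsterCent

open Cfsg

theorem core_of_simple {K : Type*} [Group K] [Finite K] [IsSimpleGroup K] {p : ℕ} (hp : p.Prime) (hp2 : p ≠ 2)
    (hd : p ∣ Nat.card K) (N : Subgroup K) (hN : N.Normal) (h2 : IsPGroup 2 ↥N) : N = ⊥ := by
  haveI : Fact (Nat.Prime 2) := ⟨Nat.prime_two⟩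
  refine (IsSimpleGroup.eq_bot_or_eq_top_of_normal N hN).resolve_right fun h => ?_
  subst h
  obtain ⟨n, hn⟩ := IsPGroup.iff_card.1 h2
  rw [Subgroup.card_top] at hn
  rw [hn] at hd
  exact hp2 ((Nat.prime_dvd_prime_iff_eq hp Nat.prime_two).1 (hp.dvd_of_dvd_pow hd))

theorem isSimpleGroup_SL32 : IsSimpleGroup (Matrix.SpecialLinearGroup (Fin 3) (ZMod 2)) := by
  haveI := Linear.isSimpleGroup_PSL_fin (F := ZMod 2) 3 (by norm_num) (fun h => absurd h (by norm_num))
  have hc : Subgroup.center (Matrix.SpecialLinearGroup (Fin 3) (ZMod 2)) = ⊥ :=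
    Subgroup.eq_bot_of_card_eq _ (by rw [Linear.card_center_SL, Fintype.card_fin, ZMod.card]; rfl)
  exact ((QuotientGroup.quotientMulEquivOfEq hc).trans QuotientGroup.quotientBot).symm.isSimpleGroup

theorem sl32_core (N : Subgroup (Matrix.SpecialLinearGroup (Fin 3) (ZMod 2))) (hN : N.Normal)
    (h2 : IsPGroup 2 ↥N) : N = ⊥ := by
  haveI := isSimpleGroup_SL32
  exact core_of_simple (by norm_num : Nat.Prime 7) (by norm_num)
    (by rw [Nat.card_eq_fintype_card]; decide +kernel) N hN h2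

theorem alt_nine_core (N : Subgroup (alternatingGroup (Fin 9))) (hN : N.Normal) (h2 : IsPGroup 2 ↥N) : N = ⊥ := by
  haveI : IsSimpleGroup (alternatingGroup (Fin 9)) := alternatingGroup.isSimpleGroup (by simp)
  refine core_of_simple (by norm_num : Nat.Prime 3) (by norm_num) ?_ N hN h2
  rw [nat_card_alternatingGroup, Nat.card_eq_fintype_card, Fintype.card_fin]
  exact ⟨60480, rfl⟩

end Cfsg.Agent.MonsterCent
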