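import Cfsg.Agent.MonsterCent.SevenFlip
import Cfsg.Agent.MonsterCent.Targets
import Cfsg.Agent.Components.FStar

/-!
The fixed part of `Q` lies in the layer of the centraliser of the element of order 7; elements inverting
that element do not centralise it.
-/

set_option autoImplicit false

namespace Cfsg.Agent.MonsterCent.Seven

open Cfsg Cfsg.Agent.Leech Cfsg.Agent.Monster

theorem types_span (S' : AddSubgroup (Co data.k)) (h : ∀ c ∈ data.types, c ∈ S') : S' = ⊤ := by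
  have hm : ∀ m < 64, (data.reps.getD m ([], 0)).2 = 64 → cf data.k m ∈ S' := fun m hm he =>
    h _ (Finset.mem_image.2 ⟨m, Finset.mem_filter.2 ⟨Finset.mem_range.2 hm, he⟩, rfl⟩)
  have key : ∀ m : Fin 64, (m.val % 8 = 0 ∨ (data.reps.getD (m.val % 8) ([], 0)).2 = 64) ∧
      (m.val / 8 = 0 ∨ (data.reps.getD (8 * (m.val / 8)) ([], 0)).2 = 64) ∧
      (m.val % 8) ^^^ (8 * (m.val / 8)) = m.val := by decide +kernel
  refine eq_top_iff.2 fun c _ => ?_
  obtain ⟨m, hm', rfl⟩ := exists_cf c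
  obtain ⟨h1, h2, h3⟩ := key ⟨m, hm'⟩
  have hlt : m < 64 := hm'
  rw [← show (m % 8) ^^^ (8 * (m / 8)) = m from h3, cf_xor]
  refine S'.add_mem ?_ ?_
  · rcases h1 with r | r
    · rw [show m % 8 = 0 from r, cf_zero]; exact S'.zero_mem
    · exact hm _ (by omega) r
  · rcases h2 with r | r
    · rw [show m / 8 = 0 from r, mul_zero, cf_zero]; exact S'.zero_mem
    · exact hm _ (by omega) r

variable {G : Type*} [Group G] [Finite G] {z : G} {Q : Subgroup (Subgroup.centralizer ({z} : Set G))} [Q.Normal]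
  {e : (Subgroup.centralizer ({z} : Set G)) ⧸ Q ≃* Spor.Co1} {ψ : leechLattice → Q ⧸ Subgroup.center Q}
  {S : MSetting z Q e ψ} (P : Hyp S g data.k (Matrix.SpecialLinearGroup (Fin 3) (ZMod 2)))
  (hX : ∀ j : Fin data.k, (P.X.e j).1 = data.eI j ∧ (P.X.u j).1 = data.uI j)

/-- The conjugates of `z` generate the fixed part of `Q`. -/
theorem Ab_le_of_conj (hX : ∀ j : Fin data.k, (P.X.e j).1 = data.eI j ∧ (P.X.u j).1 = data.uI j)
    (M : Subgroup G) (hz : z ∈ M) (h : ∀ a ∈ P.Ab, a ≠ z → IsConj z a → a ∈ M) : P.Ab ≤ M := by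
  let W : Subgroup P.Ab := M.subgroupOf P.Ab
  have hker : P.coordHom.ker ≤ W := fun a ha => by
    show (a : G) ∈ M
    rcases P.coordHom_eq_one.1 ha with r | r <;> rw [r]
    · exact one_mem M
    · exact hz
  have htop : Subgroup.toAddSubgroup' (W.map P.coordHom) = ⊤ := by
    refine types_span _ fun c hc => ?_
    obtain ⟨v, hv, hvc⟩ := (Data.mem_types hX check_reps c).1 hc
    obtain ⟨a, ha⟩ := P.coordHom_surjective (Multiplicative.ofAdd c)
    obtain ⟨w, hw⟩ := S.rep_exists a.2.1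
    have hk : P.X.kap w = c := (P.coord_eq a hw).symm.trans (Multiplicative.ofAdd.injective ha)
    have hvw : classMap v = classMap w := by
      rw [hvc, ← hk, ← P.X.expand (P.rep_fixed a.2 hw)]
    obtain ⟨q, hq1, hq2⟩ := hw
    have hr : Rep ψ v (a : G) := ⟨q, hq1, (S.psi_congr (classMap_eq_iff.1 hvw)).symm.trans hq2⟩
    obtain ⟨hconj, hne⟩ := (S.isConj_iff_norm a.2.1).2 ⟨v, hv, hr⟩
    exact ⟨a, h _ a.2 hne hconj, ha⟩
  intro a ha
  have h1 : P.coordHom ⟨a, ha⟩ ∈ W.map P.coordHom := by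
    have h2 : Multiplicative.toAdd (P.coordHom ⟨a, ha⟩) ∈ Subgroup.toAddSubgroup' (W.map P.coordHom) :=
      htop ▸ AddSubgroup.mem_top _
    exact h2
  have h3 : (⟨a, ha⟩ : P.Ab) ∈ (W.map P.coordHom).comap P.coordHom := h1
  rw [Subgroup.comap_map_eq, sup_eq_left.2 hker] at h3
  exact h3

/-- An element of the centraliser of `z` inverting `b` does not centralise the fixed part of `Q`. -/
theorem not_centralizing (x : Subgroup.centralizer ({z} : Set G)) (hx : (x : G) * P.b * (x : G)⁻¹ = P.b⁻¹) :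
    ¬ ∀ a ∈ P.Ab, (x : G) * a = a * (x : G) := by
  intro hcen
  obtain ⟨h, hm⟩ := S.exists_matches_right x
  have hb : S.proj g = QuotientGroup.mk ⟨P.b, P.hbC⟩ := S.proj_eq_iff.2 P.hm
  have hh : S.proj h = QuotientGroup.mk x := S.proj_eq_iff.2 hm
  have h1 : S.proj (h * g * h⁻¹ * g) = 1 := by
    rw [map_mul, map_mul, map_mul, map_inv, hh, hb, ← QuotientGroup.mk_inv, ← QuotientGroup.mk_mul,
      ← QuotientGroup.mk_mul, ← QuotientGroup.mk_mul, ← QuotientGroup.mk_one]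
    congr 1
    refine Subtype.ext ?_
    show (x : G) * P.b * (x : G)⁻¹ * P.b = 1
    rw [hx, inv_mul_cancel]
  have h2 : (QuotientGroup.mk (h * g * h⁻¹ * g) : Spor.Co1) = 1 := by
    have := S.proj_eq_iff (g := h * g * h⁻¹ * g) (c := 1)
    rw [QuotientGroup.mk_one] at this
    rw [this.1 h1, QuotientGroup.mk_one, map_one]
  have hg7 : g ^ 7 = 1 := by
    have h := pow_orderOf_eq_one g
    rwa [show orderOf g = 7 from Data.order_g check_perm] at h
  have hflip : h * g = g⁻¹ * h := by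
    rcases (center_eq _).1 ((QuotientGroup.eq_one_iff _).1 h2) with r | r
    · exact mul_inv_eq_iff_eq_mul.1 (mul_eq_one_iff_eq_inv.1 r)
    · exfalso
      have h3 : h * g * h⁻¹ = negCo0 * g⁻¹ := eq_mul_inv_iff_mul_eq.2 r
      have h4 := congrArg (· ^ 7) h3
      simp only [conj_pow, Commute.mul_pow (negCo0_comm g⁻¹), inv_pow, hg7, inv_one, mul_one, mul_inv_cancel] at h4
      rw [show (7 : ℕ) = 2 * 3 + 1 from rfl, pow_add, pow_mul, pow_two, negCo0_sq, one_pow, one_mul, pow_one] at h4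
      exact negCo0_ne_one h4.symm
  have hfix : ∀ v : leechLattice, classMap (g • v) = classMap v → classMap (g • h • v) = classMap (h • v) := by
    intro v hv
    have hv' : classMap (g⁻¹ • v) = classMap v := by
      have := classMap_smul g⁻¹ hv
      rw [inv_smul_smul] at this
      exact this.symm
    have hgh : g * h = h * g⁻¹ :=
      eq_mul_inv_iff_mul_eq.2 (by rw [mul_assoc, hflip, mul_inv_cancel_left])
    rw [← mul_smul, hgh, mul_smul, classMap_smul h hv']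
  have hact : P.X.act h P.X.std = P.X.std := by
    obtain ⟨a, ha⟩ := P.coordHom_surjective (Multiplicative.ofAdd P.X.std)
    obtain ⟨v, hv⟩ := S.rep_exists a.2.1
    have hc : P.X.std = P.X.kap v := (Multiplicative.ofAdd.injective ha).symm.trans (P.coord_eq a hv)
    have h4 := S.rep_conj hm hv
    rw [show (x : G) * (a : G) * (x : G)⁻¹ = a from mul_inv_eq_iff_eq_mul.2 (hcen a a.2)] at h4
    rw [hc, Coords.act, P.X.kap_eq (classMap_smul _ (P.X.expand (P.rep_fixed a.2 hv)).symm)]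
    exact P.X.kap_eq (classMap_eq_iff.2 (S.rep_cong hv h4))
  have hstd : classMap (crossL none) = classMap (P.X.vec P.X.std) := P.X.expand (Data.g_cross check_perm)
  have e' := P.X.eq_of_kap (hfix _ (P.X.vec_fixed_class P.X.std)) (P.X.vec_fixed_class P.X.std)
    (hact.trans (P.X.kap_vec _).symm)
  have hmem : h ∈ crossStab :=
    mem_classStab.2 (classMap_eq_iff.1 (hstd.trans (e'.symm.trans (classMap_smul _ hstd).symm)))
  have h3 := congrArg permHom (show (⟨_, hmem⟩ : crossStab) * ⟨g, permLift_mem r⟩ =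
    ⟨g, permLift_mem r⟩⁻¹ * ⟨_, hmem⟩ from Subtype.ext hflip)
  have hg' : permHom ⟨g, permLift_mem r⟩ = (r : Equiv.Perm GolayPt) := permHom_permLift r
  rw [map_mul, map_mul, map_inv, hg'] at h3
  have h6 : (r : Equiv.Perm GolayPt) ^ 6 = (r : Equiv.Perm GolayPt)⁻¹ := by
    refine eq_inv_of_mul_eq_one_left ?_
    rw [← pow_succ]
    have h7 := pow_orderOf_eq_one r
    rw [order_r] at h7
    exact congrArg Subtype.val h7
  haveI : IsEmpty {x : Equiv.Perm GolayPt // x ∈ M24 ∧ x * (r : Equiv.Perm GolayPt) = (r : Equiv.Perm GolayPt) ^ 6 * x} := by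
    have := card_twist (Data.rep check_perm) r.2 no_inverter
    exact (Nat.card_eq_zero.1 this).resolve_right (fun h => h.not_finite inferInstance)
  exact IsEmpty.false (⟨_, (crossStab_monomial _).1, by rw [h6]; exact h3⟩ :
    {x : Equiv.Perm GolayPt // x ∈ M24 ∧ x * (r : Equiv.Perm GolayPt) = (r : Equiv.Perm GolayPt) ^ 6 * x})

theorem center_Ab {a : G} (ha : a ∈ P.Ab) (hc : ∀ w ∈ P.Ab, w * a = a * w) : a = 1 ∨ a = z := by
  have hk : 0 < data.k := by decide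
  have h2 := (P.extraspecial_Ab hk).2
  have hzc : (⟨z, P.z_mem_Ab⟩ : P.Ab) ∈ Subgroup.center P.Ab :=
    Subgroup.mem_center_iff.2 fun w => Subtype.ext (S.ci.comm (w : G) w.2.1)
  have hac : (⟨a, ha⟩ : P.Ab) ∈ Subgroup.center P.Ab :=
    Subgroup.mem_center_iff.2 fun w => Subtype.ext (hc w w.2)
  obtain ⟨y, -, hy⟩ := (Nat.card_eq_two_iff' (1 : Subgroup.center P.Ab)).1 h2
  by_cases h1 : a = 1
  · exact Or.inl h1
  have e1 : (⟨_, hac⟩ : Subgroup.center P.Ab) = y :=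
    hy _ fun hh => h1 (congrArg (fun w : Subgroup.center P.Ab => ((w : P.Ab) : G)) hh)
  have e2 : (⟨_, hzc⟩ : Subgroup.center P.Ab) = y :=
    hy _ fun hh => S.ci.ne_one (congrArg (fun w : Subgroup.center P.Ab => ((w : P.Ab) : G)) hh)
  exact Or.inr (congrArg (fun w : Subgroup.center P.Ab => ((w : P.Ab) : G)) (e1.trans e2.symm))

variable [hn : (P.B.subgroupOf P.CB).Normal] {s : G}
include hn

theorem conj_eq {x : G} (hx : x ∈ P.CB) {a : G} (ha : a ∈ P.Ab) (h : x * z * x⁻¹ = a) :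
    P.qm ⟨a, P.D_le (P.Ab_le_D ha)⟩ = P.qm ⟨x, hx⟩ * P.zb * (P.qm ⟨x, hx⟩)⁻¹ := by
  rw [Hyp.zb, ← map_inv, ← map_mul, ← map_mul]
  exact congrArg P.qm (Subtype.ext h.symm)

/-- A non-trivial normal subgroup of the quotient contains the image of `z`. -/
theorem zb_mem (hs : s ∈ P.Ab) (hsz : s ≠ z) (hsc : IsConj z s)
    (hfus : ∀ a ∈ P.Ab, a ≠ z → IsConj z a → ∃ x ∈ P.CB, x * z * x⁻¹ = a)
    (M : Subgroup P.H) [M.Normal] (hM : M ≠ ⊥) : P.zb ∈ M := by
  haveI := P.R_normal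
  obtain ⟨m, hm, hm1⟩ : ∃ m ∈ M, m * P.zb = P.zb * m ∧ m ≠ 1 := by
    by_contra hcon
    push Not at hcon
    have hfpf : ∀ (y : P.H) (m : P.H), m ∈ M → m * (y * P.zb * y⁻¹) = y * P.zb * y⁻¹ * m → m = 1 := by
      intro y m hm he
      have h1 : y⁻¹ * m * y⁻¹⁻¹ ∈ M := (inferInstance : M.Normal).conj_mem m hm y⁻¹
      have h2 := hcon _ h1 (by
        calc y⁻¹ * m * y⁻¹⁻¹ * P.zb = y⁻¹ * (m * (y * P.zb * y⁻¹)) * y := by group
          _ = _ := by rw [he]; group)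
      rwa [inv_inv, mul_assoc, inv_mul_eq_one, eq_comm, mul_eq_right] at h2
    let f : M → M := fun m => ⟨(m : P.H)⁻¹ * (P.zb * m * P.zb⁻¹),
      mul_mem (inv_mem m.2) ((inferInstance : M.Normal).conj_mem _ m.2 _)⟩
    have hf : Function.Injective f := by
      intro a b hab
      have hab' : (a : P.H)⁻¹ * (P.zb * a * P.zb⁻¹) = (b : P.H)⁻¹ * (P.zb * b * P.zb⁻¹) := congrArg Subtype.val hab
      have h3 : (b : P.H) * (a : P.H)⁻¹ = 1 := by
        refine hcon _ (mul_mem b.2 (inv_mem a.2)) ?_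
        have h4 : (b : P.H) * (a : P.H)⁻¹ * (P.zb * a * P.zb⁻¹) = P.zb * b * P.zb⁻¹ := by
          rw [mul_assoc, hab', mul_inv_cancel_left]
        calc (b : P.H) * (a : P.H)⁻¹ * P.zb = (b : P.H) * (a : P.H)⁻¹ * (P.zb * a * P.zb⁻¹) * P.zb * (a : P.H)⁻¹ := by group
          _ = _ := by rw [h4]; group
      exact Subtype.ext (mul_inv_eq_one.1 h3).symm
    have hsq : P.zb * P.zb = 1 := (pow_two P.zb).symm.trans (orderOf_eq_prime_iff.1 P.orderOf_zb).1
    have hinv : ∀ m : P.H, m ∈ M → P.zb * m * P.zb⁻¹ = m⁻¹ := by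
      intro m hm
      obtain ⟨a, ha⟩ := (Finite.injective_iff_surjective.1 hf) ⟨m, hm⟩
      have ha' : (a : P.H)⁻¹ * (P.zb * a * P.zb⁻¹) = m := congrArg Subtype.val ha
      rw [← ha', show P.zb⁻¹ = P.zb from inv_eq_of_mul_eq_one_right hsq]
      calc P.zb * ((a : P.H)⁻¹ * (P.zb * a * P.zb)) * P.zb
          = P.zb * (a : P.H)⁻¹ * P.zb * a * (P.zb * P.zb) := by group
        _ = P.zb⁻¹ * (a : P.H)⁻¹ * P.zb⁻¹ * a := by
          rw [hsq, show P.zb⁻¹ = P.zb from inv_eq_of_mul_eq_one_right hsq, mul_one]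
        _ = _ := by simp only [show P.zb⁻¹ = P.zb from inv_eq_of_mul_eq_one_right hsq, mul_inv_rev, inv_inv, mul_assoc]
    have hinv' : ∀ y m : P.H, m ∈ M → y * P.zb * y⁻¹ * m * (y * P.zb * y⁻¹)⁻¹ = m⁻¹ := by
      intro y m hm
      have h1 := hinv _ ((inferInstance : M.Normal).conj_mem m hm y⁻¹)
      calc y * P.zb * y⁻¹ * m * (y * P.zb * y⁻¹)⁻¹ = y * (P.zb * (y⁻¹ * m * y⁻¹⁻¹) * P.zb⁻¹) * y⁻¹ := by group
        _ = _ := by rw [h1]; group
    refine hM ((Subgroup.eq_bot_iff_forall _).2 fun m hm => ?_)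
    obtain ⟨x, hx, hxs⟩ := hfus s hs hsz hsc
    have hsz' : s * z ∈ P.Ab := mul_mem hs P.z_mem_Ab
    obtain ⟨v, hv, hr⟩ := (S.isConj_iff_norm hs.1).1 ⟨hsc, hsz⟩
    have hr' : Rep ψ v (s * z) := by
      have := S.rep_mul hr S.rep_z
      rwa [add_zero] at this
    obtain ⟨hc', hne'⟩ := (S.isConj_iff_norm hsz'.1).2 ⟨v, hv, hr'⟩
    obtain ⟨x', hx', hxs'⟩ := hfus _ hsz' hne' hc'
    have e1 := conj_eq P hx hs hxs
    have e2 := conj_eq P hx' hsz' hxs'
    have e3 : P.qm ⟨s * z, P.D_le (P.Ab_le_D hsz')⟩ = P.qm ⟨s, P.D_le (P.Ab_le_D hs)⟩ * P.zb := by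
      rw [Hyp.zb, ← map_mul]; rfl
    refine hfpf (P.qm ⟨x', hx'⟩) m hm ?_
    rw [← e2, e3, e1]
    set w := P.qm ⟨x, hx⟩ * P.zb * (P.qm ⟨x, hx⟩)⁻¹ with hw
    have h5 : w * P.zb * m * (w * P.zb)⁻¹ = m := by
      calc w * P.zb * m * (w * P.zb)⁻¹ = w * (P.zb * m * P.zb⁻¹) * w⁻¹ := by group
        _ = (w * m * w⁻¹)⁻¹ := by rw [hinv m hm]; group
        _ = m := by rw [hw, hinv' _ m hm, inv_inv]
    exact (mul_inv_eq_iff_eq_mul.1 h5).symm
  obtain ⟨hmz, hm1⟩ := hm1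
  set y : Subgroup.centralizer ({P.zb} : Set P.H) := ⟨m, Subgroup.mem_centralizer_singleton_iff.2 hmz⟩
  obtain ⟨x, hx⟩ := P.phi_surjective y
  obtain ⟨a, ha, haM, ha1⟩ : ∃ (a : G) (ha : a ∈ P.Ab), P.qm ⟨a, P.D_le (P.Ab_le_D ha)⟩ ∈ M ∧
      P.phi ⟨a, P.Ab_le_D ha⟩ ≠ 1 := by
    by_contra hcon
    push Not at hcon
    have hyR : y ∈ P.R := by
      rw [← P.rho_ker, MonoidHom.mem_ker, ← hx, P.rho_phi]
      refine P.theta_of_central fun a ha => ?_
      set d : P.D := ⟨a, P.Ab_le_D ha⟩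
      have hr : P.phi d ∈ P.R := ⟨d, ha, rfl⟩
      have hcR : P.phi d * y * (P.phi d)⁻¹ * y⁻¹ ∈ P.R := by
        rw [mul_assoc (P.phi d) y, mul_assoc]
        exact mul_mem hr (P.R_normal.conj_mem _ (inv_mem hr) y)
      obtain ⟨⟨a', ha'D⟩, ha', hae⟩ := hcR
      have hM' : P.qm ⟨a', P.D_le (P.Ab_le_D ha')⟩ ∈ M := by
        have : (P.phi ⟨a', ha'D⟩ : P.H) ∈ M := by
          rw [hae]
          exact mul_mem ((inferInstance : M.Normal).conj_mem _ hm _) (inv_mem hm)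
        exact this
      have h6 : P.phi d * y * (P.phi d)⁻¹ * y⁻¹ = 1 := hae ▸ hcon a' ha' hM'
      have h7 : P.phi d * P.phi x = P.phi x * P.phi d := by
        rw [hx]; exact mul_inv_eq_iff_eq_mul.1 (mul_inv_eq_one.1 h6)
      rw [← map_mul, ← map_mul] at h7
      have h2 : (a * (x : G))⁻¹ * ((x : G) * a) ∈ P.B := P.qm_eq_iff.1 (congrArg Subtype.val h7)
      have h3 : (a * (x : G))⁻¹ * ((x : G) * a) ∈ amb Q := by
        rw [show (a * (x : G))⁻¹ * ((x : G) * a) = ((x : G)⁻¹ * a⁻¹ * (x : G)) * a by group]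
        refine mul_mem ?_ ha.1
        simpa using (Subgroup.mem_normalizer_iff.1 (inv_mem (S.norm_le x.2.1)) a⁻¹).1 (inv_mem ha.1)
      exact (inv_mul_eq_one.1 (P.inf_eq_one h3 h2)).symm
    obtain ⟨⟨a', ha'D⟩, ha', hae⟩ := hyR
    have hM' : P.qm ⟨a', P.D_le (P.Ab_le_D ha')⟩ ∈ M := by
      have : (P.phi ⟨a', ha'D⟩ : P.H) ∈ M := by rw [hae]; exact hm
      exact this
    exact hm1 (congrArg Subtype.val (hae ▸ hcon a' ha' hM'))
  by_cases haz : a = z
  · subst haz; exact haM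
  have ha1' : a ≠ 1 := fun h => ha1 (by
    rw [show (⟨a, P.Ab_le_D ha⟩ : P.D) = 1 from Subtype.ext h, map_one])
  obtain ⟨w, hw, hwa⟩ : ∃ w ∈ P.Ab, w * a ≠ a * w := by
    by_contra hcon
    push Not at hcon
    rcases center_Ab P ha hcon with r | r
    · exact ha1' r
    · exact haz r
  have hconj : w * a * w⁻¹ = a * z :=
    (S.ci.conj_cases hw.1 ha.1).resolve_left fun r => hwa (mul_inv_eq_iff_eq_mul.1 r)
  have h8 : P.qm ⟨a, P.D_le (P.Ab_le_D ha)⟩ * P.zb ∈ M := by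
    have h9 : P.qm ⟨a, P.D_le (P.Ab_le_D ha)⟩ * P.zb = P.qm ⟨w, P.D_le (P.Ab_le_D hw)⟩ *
        P.qm ⟨a, P.D_le (P.Ab_le_D ha)⟩ * (P.qm ⟨w, P.D_le (P.Ab_le_D hw)⟩)⁻¹ := by
      rw [Hyp.zb, ← map_inv, ← map_mul, ← map_mul, ← map_mul]
      exact congrArg P.qm (Subtype.ext hconj.symm)
    rw [h9]
    exact (inferInstance : M.Normal).conj_mem _ haM _
  simpa using mul_mem (inv_mem haM) h8

/-- A non-trivial normal subgroup of the quotient contains the image of the fixed part of `Q`. -/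
theorem Ab_mem (hX : ∀ j : Fin data.k, (P.X.e j).1 = data.eI j ∧ (P.X.u j).1 = data.uI j)
    (hs : s ∈ P.Ab) (hsz : s ≠ z) (hsc : IsConj z s)
    (hfus : ∀ a ∈ P.Ab, a ≠ z → IsConj z a → ∃ x ∈ P.CB, x * z * x⁻¹ = a)
    (M : Subgroup P.H) [M.Normal] (hM : M ≠ ⊥) {a : G} (ha : a ∈ P.Ab) :
    P.qm ⟨a, P.D_le (P.Ab_le_D ha)⟩ ∈ M := by
  have hz := zb_mem P hs hsz hsc hfus M hM
  have := Ab_le_of_conj P hX ((M.comap P.qm).map P.CB.subtype) ⟨_, hz, rfl⟩ (fun b hb hbz hbc => by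
    obtain ⟨x, hx, hxb⟩ := hfus b hb hbz hbc
    refine ⟨⟨b, P.D_le (P.Ab_le_D hb)⟩, ?_, rfl⟩
    show P.qm _ ∈ M
    rw [conj_eq P hx hb hxb]
    exact (inferInstance : M.Normal).conj_mem _ hz _) ha
  obtain ⟨⟨a', ha'⟩, hq, rfl⟩ := this
  exact hq

/-- The quotient has no non-trivial normal nilpotent subgroup. -/
theorem nilpotent_bot (hX : ∀ j : Fin data.k, (P.X.e j).1 = data.eI j ∧ (P.X.u j).1 = data.uI j)
    (hs : s ∈ P.Ab) (hsz : s ≠ z) (hsc : IsConj z s)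
    (hfus : ∀ a ∈ P.Ab, a ≠ z → IsConj z a → ∃ x ∈ P.CB, x * z * x⁻¹ = a)
    (N : Subgroup P.H) [N.Normal] [Group.IsNilpotent N] : N = ⊥ := by
  by_contra hN
  have hR : ∀ {a : G} (ha : a ∈ P.Ab), P.qm ⟨a, P.D_le (P.Ab_le_D ha)⟩ ∈ N :=
    fun ha => Ab_mem P hX hs hsz hsc hfus N hN ha
  set W : Subgroup N := (Subgroup.centralizer ({P.zb} : Set P.H)).subgroupOf N
  have hW : W = ⊤ := by
    refine (normalizerCondition_iff_only_full_group_self_normalizing.mp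
      Group.normalizerCondition_of_isNilpotent) W (le_antisymm (fun x hx => ?_) Subgroup.le_normalizer)
    show (x : P.H) ∈ Subgroup.centralizer ({P.zb} : Set P.H)
    rw [Subgroup.mem_centralizer_singleton_iff]
    set zN : N := ⟨P.zb, hR P.z_mem_Ab⟩
    have hzW : zN ∈ W := Subgroup.mem_centralizer_singleton_iff.2 rfl
    have hcW : x * zN * x⁻¹ ∈ W := (Subgroup.mem_normalizer_iff.1 hx zN).1 hzW
    -- it commutes with the image of the fixed part of `Q`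
    obtain ⟨d, hd⟩ := P.phi_surjective ⟨((x * zN * x⁻¹ : N) : P.H), hcW⟩
    have hd' : P.qm (Subgroup.inclusion P.D_le d) = (x : P.H) * P.zb * (x : P.H)⁻¹ := congrArg Subtype.val hd
    have hcomm : ∀ a ∈ P.Ab, (d : G) * a = a * (d : G) := by
      intro a ha
      have haW : (⟨_, hR ha⟩ : N) ∈ W := Subgroup.mem_centralizer_singleton_iff.2 (by
        show P.qm _ * P.qm _ = P.qm _ * P.qm _
        rw [← map_mul, ← map_mul]
        exact congrArg P.qm (Subtype.ext (S.ci.comm a ha.1)))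
      have hxa : x⁻¹ * ⟨_, hR ha⟩ * x⁻¹⁻¹ ∈ W := (Subgroup.mem_normalizer_iff.1 (inv_mem hx) _).1 haW
      have h1 : ((x⁻¹ * ⟨_, hR ha⟩ * x⁻¹⁻¹ : N) : P.H) * P.zb = P.zb * ((x⁻¹ * ⟨_, hR ha⟩ * x⁻¹⁻¹ : N) : P.H) :=
        Subgroup.mem_centralizer_singleton_iff.1 hxa
      simp only [Subgroup.coe_mul, InvMemClass.coe_inv, inv_inv] at h1
      set A := P.qm ⟨a, P.D_le (P.Ab_le_D ha)⟩ with hA
      have h2 : A * P.qm (Subgroup.inclusion P.D_le d) = P.qm (Subgroup.inclusion P.D_le d) * A := by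
        rw [hd']
        calc A * ((x : P.H) * P.zb * (x : P.H)⁻¹)
            = (x : P.H) * ((x : P.H)⁻¹ * A * (x : P.H) * P.zb) * (x : P.H)⁻¹ := by group
          _ = _ := by rw [h1]; group
      rw [hA, ← map_mul, ← map_mul] at h2
      have h3 : (a * (d : G))⁻¹ * ((d : G) * a) ∈ P.B := P.qm_eq_iff.1 h2
      have h4 : (a * (d : G))⁻¹ * ((d : G) * a) ∈ amb Q := by
        rw [show (a * (d : G))⁻¹ * ((d : G) * a) = ((d : G)⁻¹ * a⁻¹ * (d : G)) * a by group]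
        refine mul_mem ?_ ha.1
        simpa using (Subgroup.mem_normalizer_iff.1 (inv_mem (S.norm_le d.2.1)) a⁻¹).1 (inv_mem ha.1)
      exact (inv_mul_eq_one.1 (P.inf_eq_one h4 h3)).symm
    obtain ⟨a, ha, hab⟩ := P.theta_eq_one_iff.1 (P.theta_of_central hcomm)
    obtain ⟨i, hi⟩ := Subgroup.mem_zpowers_iff.1 hab
    have hd2 : (d : G) = a * P.b ^ i := by rw [hi, mul_inv_cancel_left]
    have hac : ∀ w ∈ P.Ab, w * a = a * w := by
      intro w hw
      have hwb : Commute w (P.b ^ i) :=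
        Commute.zpow_right (Subgroup.mem_centralizer_singleton_iff.1 hw.2) i
      have h5 := hcomm w hw
      rw [hd2, mul_assoc, ← hwb.eq, ← mul_assoc, ← mul_assoc] at h5
      exact (mul_right_cancel h5).symm
    have hqd : P.qm ⟨a, P.D_le (P.Ab_le_D ha)⟩ = (x : P.H) * P.zb * (x : P.H)⁻¹ := by
      rw [← hd', P.qm_eq_iff]; exact hab
    rcases center_Ab P ha hac with rfl | r
    · exfalso
      have h6 : P.qm (⟨1, one_mem P.CB⟩ : P.CB) = 1 := map_one P.qm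
      have : P.zb = 1 := conj_eq_one_iff.1 (hqd.symm.trans h6)
      have h7 := P.orderOf_zb
      rw [this, orderOf_one] at h7
      exact absurd h7 (by norm_num)
    · subst r
      exact mul_inv_eq_iff_eq_mul.1 hqd.symm
  have hcen : ∀ w : P.H, w ∈ N → w * P.zb = P.zb * w := fun w hw =>
    Subgroup.mem_centralizer_singleton_iff.1 (show (⟨w, hw⟩ : N) ∈ W from hW ▸ Subgroup.mem_top _)
  obtain ⟨x, hx, hxs⟩ := hfus s hs hsz hsc
  obtain ⟨w, hw, hws⟩ : ∃ w ∈ P.Ab, w * s ≠ s * w := by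
    by_contra hcon
    push Not at hcon
    rcases center_Ab P hs hcon with r | r
    · obtain ⟨g', hg'⟩ := isConj_iff.1 hsc
      rw [r] at hg'
      exact S.ci.ne_one (conj_eq_one_iff.1 hg')
    · exact hsz r
  refine hws ?_
  set xq := P.qm ⟨x, hx⟩
  have h1 := hcen _ ((inferInstance : N.Normal).conj_mem _ (hR hw) xq⁻¹)
  have h2 : P.qm ⟨w, P.D_le (P.Ab_le_D hw)⟩ * P.qm ⟨s, P.D_le (P.Ab_le_D hs)⟩ =
      P.qm ⟨s, P.D_le (P.Ab_le_D hs)⟩ * P.qm ⟨w, P.D_le (P.Ab_le_D hw)⟩ := by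
    rw [conj_eq P hx hs hxs]
    calc P.qm ⟨w, P.D_le (P.Ab_le_D hw)⟩ * (xq * P.zb * xq⁻¹)
        = xq * (xq⁻¹ * P.qm ⟨w, P.D_le (P.Ab_le_D hw)⟩ * xq⁻¹⁻¹ * P.zb) * xq⁻¹ := by group
      _ = _ := by rw [h1]; simp only [xq]; group
  rw [← map_mul, ← map_mul] at h2
  set dw : P.D := ⟨w, P.Ab_le_D hw⟩
  set ds : P.D := ⟨s, P.Ab_le_D hs⟩
  have h3 : P.phi (dw * ds) = P.phi (ds * dw) := Subtype.ext h2
  exact congrArg (fun d : P.D => (d : G))
    (P.phi_injOn (x := dw * ds) (y := ds * dw) (mul_mem hw hs) (mul_mem hs hw) h3)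

/-- The fixed part of `Q` lies in the layer of the centraliser of `b`. -/
theorem Ab_le_layer (hX : ∀ j : Fin data.k, (P.X.e j).1 = data.eI j ∧ (P.X.u j).1 = data.uI j)
    (hp : P.p = 7) (hs : s ∈ P.Ab) (hsz : s ≠ z) (hsc : IsConj z s)
    (hfus : ∀ a ∈ P.Ab, a ≠ z → IsConj z a → ∃ x ∈ P.CB, x * z * x⁻¹ = a) :
    P.Ab ≤ (layer ↥P.CB).map P.CB.subtype := by
  have hcB : P.B.subgroupOf P.CB ≤ Subgroup.center ↥P.CB := by
    intro y hy
    refine Subgroup.mem_center_iff.2 fun w => Subtype.ext ?_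
    exact (Subgroup.mem_centralizer_iff.1 w.2 _ hy).symm
  set B' := P.B.subgroupOf P.CB with hB'
  have hker : P.qm.ker = B' := QuotientGroup.ker_mk' _
  have hFB : fittingSubgroup ↥P.CB ≤ B' := by
    refine sSup_le ?_
    rintro N ⟨hNn, hNnil⟩
    haveI := hNn
    haveI := hNnil
    haveI : (N.map P.qm).Normal := hNn.map _ (QuotientGroup.mk'_surjective _)
    haveI : Group.IsNilpotent ↥(N.map P.qm) :=
      Group.nilpotent_of_surjective (P.qm.subgroupMap N) (P.qm.subgroupMap_surjective N)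
    rw [← hker, ← Subgroup.map_eq_bot_iff]
    exact nilpotent_bot P hX hs hsz hsc hfus _
  haveI hLn : (layer ↥P.CB).Normal := Components.layer_normal
  haveI : ((layer ↥P.CB).map P.qm).Normal := hLn.map _ (QuotientGroup.mk'_surjective _)
  have hL : (layer ↥P.CB).map P.qm ≠ ⊥ := by
    intro h
    rw [Subgroup.map_eq_bot_iff, hker] at h
    have hF : generalizedFittingSubgroup ↥P.CB ≤ B' := sup_le h hFB
    have hz' : (⟨z, P.D_le (P.Ab_le_D P.z_mem_Ab)⟩ : P.CB) ∈ B' :=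
      hF (Components.centralizer_genFitting_le (Subgroup.mem_centralizer_iff.2 fun y hy =>
        (Subgroup.mem_center_iff.1 (hcB (hF hy)) _).symm))
    exact S.ci.ne_one (P.inf_eq_one S.ci.mem hz')
  intro a ha
  obtain ⟨l, hl, he⟩ := Ab_mem P hX hs hsz hsc hfus _ hL ha
  refine ⟨⟨a, P.D_le (P.Ab_le_D ha)⟩, ?_, rfl⟩
  set A : P.CB := ⟨a, P.D_le (P.Ab_le_D ha)⟩
  have hd : l⁻¹ * A ∈ B' := by rw [← hker, MonoidHom.mem_ker, map_mul, map_inv, he, inv_mul_cancel]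
  have hd7 : (l⁻¹ * A) ^ 7 = 1 := by
    obtain ⟨i, hi⟩ := Subgroup.mem_zpowers_iff.1 (show ((l⁻¹ * A : P.CB) : G) ∈ P.B from hd)
    refine Subtype.ext ?_
    rw [SubgroupClass.coe_pow, ← hi, ← zpow_natCast, ← zpow_mul, mul_comm, zpow_mul, zpow_natCast, ← hp, P.pow_p,
      one_zpow]
    rfl
  have hA7 : A ^ 7 = l ^ 7 := by
    have hcomm : Commute l (l⁻¹ * A) := Subgroup.mem_center_iff.1 (hcB hd) l
    calc A ^ 7 = (l * (l⁻¹ * A)) ^ 7 := by rw [mul_inv_cancel_left]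
      _ = _ := by rw [hcomm.mul_pow, hd7, mul_one]
  have hA4 : A ^ 4 = 1 := by
    refine Subtype.ext ?_
    rw [SubgroupClass.coe_pow, OneMemClass.coe_one, show (4 : ℕ) = 2 * 2 from rfl, pow_mul, pow_two, pow_two]
    rcases S.ci.sq_mem ha.1 with r | r <;> rw [show ((A : P.CB) : G) = a from rfl, r]
    · rw [mul_one]
    · exact S.ci.sq
  have : A = (l ^ 7) ^ 7 := by
    rw [← hA7, ← pow_mul, show 7 * 7 = 4 * 12 + 1 from rfl, pow_add, pow_mul, hA4, one_pow, one_mul, pow_one]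
  rw [this]
  exact pow_mem (pow_mem hl 7) 7

end Cfsg.Agent.MonsterCent.Seven
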