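import Cfsg.Agent.MonsterCent.Tools
import Cfsg.Agent.MonsterCent.Bound

/-!
The map of the joint centraliser of `z` and a conjugate in `Q` onto M24.
-/

set_option autoImplicit false

namespace Cfsg.Agent.MonsterCent

open Cfsg Cfsg.Agent.Leech Cfsg.Agent.Monster

variable {G : Type*} [Group G] [Finite G] {z : G} {Q : Subgroup (Subgroup.centralizer ({z} : Set G))} [Q.Normal]
  {e : (Subgroup.centralizer ({z} : Set G)) ⧸ Q ≃* Spor.Co1} {ψ : leechLattice → Q ⧸ Subgroup.center Q}

/-- A change of the identification by an automorphism of the lattice. -/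
theorem twist (S : MSetting z Q e ψ) (u : Co0) :
    ∃ (e' : (Subgroup.centralizer ({z} : Set G)) ⧸ Q ≃* Spor.Co1) (ψ' : leechLattice → Q ⧸ Subgroup.center Q)
      (S' : MSetting z Q e' ψ'),
      ∀ (g : Co0) (c : Subgroup.centralizer ({z} : Set G)), S'.Matches g c ↔ S.Matches (u * g * u⁻¹) c := by
  have key : ∀ (g : Co0) (c : Subgroup.centralizer ({z} : Set G)),
      (QuotientGroup.mk g : Spor.Co1) = (e.trans (MulAut.conj ((QuotientGroup.mk u : Spor.Co1)⁻¹))) (QuotientGroup.mk c) ↔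
        (QuotientGroup.mk (u * g * u⁻¹) : Spor.Co1) = e (QuotientGroup.mk c) := by
    intro g c
    rw [QuotientGroup.mk_mul, QuotientGroup.mk_mul, QuotientGroup.mk_inv, MulEquiv.trans_apply, MulAut.conj_apply]
    constructor
    · intro h; rw [h]; group
    · intro h; rw [← h]; group
  refine ⟨e.trans (MulAut.conj ((QuotientGroup.mk u : Spor.Co1)⁻¹)), fun v => ψ (u • v),
    ⟨S.setting, ?_, ?_, ?_, ?_⟩, key⟩
  · intro v w
    show ψ (u • (v + w)) = _
    rw [co0_add, S.iso.1]
  · intro y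
    obtain ⟨v, hv⟩ := S.iso.2.1 y
    exact ⟨u⁻¹ • v, by show ψ (u • u⁻¹ • v) = y; rw [smul_inv_smul, hv]⟩
  · intro v
    show ψ (u • v) = 1 ↔ _
    rw [S.iso.2.2.1]
    constructor
    · rintro ⟨w, hw⟩
      exact ⟨u⁻¹ • w, by rw [← co0_add, ← hw, inv_smul_smul]⟩
    · rintro ⟨w, rfl⟩
      exact ⟨u • w, co0_add u w w⟩
  · intro c g hm v q hq
    show ψ (u • g • v) = _
    have := S.iso.2.2.2 c (u * g * u⁻¹) ((key g c).1 hm) (u • v) q hq
    rwa [mul_smul, mul_smul, inv_smul_smul] at this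

/-- The joint centraliser. -/
abbrev joint (z s : G) : Subgroup G := Subgroup.centralizer ({z, s} : Set G)

omit [Finite G] in
theorem mem_joint {s x : G} : x ∈ joint z s ↔ x * z = z * x ∧ x * s = s * x := by
  simp only [joint, Subgroup.mem_centralizer_iff, Set.mem_insert_iff, Set.mem_singleton_iff, forall_eq_or_imp,
    forall_eq]
  exact ⟨fun h => ⟨h.1.symm, h.2.symm⟩, fun h => ⟨h.1.symm, h.2.symm⟩⟩

/-- The inclusion into the centraliser of `z`. -/
def toC (z s : G) : joint z s →* Subgroup.centralizer ({z} : Set G) :=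
  Subgroup.inclusion (Subgroup.centralizer_le (by simp))

/-- The structure of the joint centraliser. -/
structure JointData (S : MSetting z Q e ψ) (s : G) where
  π : joint z s →* M24
  surj : Function.Surjective π
  ker : IsPGroup 2 ↥π.ker
  matched : ∀ {p : ℕ}, p.Prime → p ≠ 2 → ∀ x : joint z s, x ^ p = 1 →
    ∃ u : Co0, S.Matches (u * permLift (π x) * u⁻¹) (toC z s x)

theorem jointData (S : MSetting z Q e ψ) {s : G} (hs : s ∈ amb Q) (hc : IsConj z s) (hne : s ≠ z) :
    Nonempty (JointData S s) := by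
  haveI := finite_Co0
  haveI : Fact (Nat.Prime 2) := ⟨Nat.prime_two⟩
  obtain ⟨g, hg⟩ := isConj_iff.1 hc
  subst hg
  obtain ⟨h, hE, hX⟩ := S.conjugate_shape hs hne
  let c0 : crossStab →* (Subgroup.centralizer ({z} : Set G)) ⧸ Q :=
    S.proj.comp ((MulAut.conj h).toMonoidHom.comp crossStab.subtype)
  have hrange : c0.range = Monster.MSetting.stabImage Q (g * z * g⁻¹) := by
    apply le_antisymm
    · rintro _ ⟨w, rfl⟩
      have : h * (w : Co0) * h⁻¹ ∈ (Monster.MSetting.stabImage Q (g * z * g⁻¹)).comap S.proj := by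
        rw [hX]; exact ⟨w, w.2, rfl⟩
      exact this
    · intro y hy
      obtain ⟨a, rfl⟩ := S.proj_surjective y
      have : a ∈ crossStab.map (MulAut.conj h).toMonoidHom := by rw [← hX]; exact hy
      obtain ⟨w, hw, rfl⟩ := this
      exact ⟨⟨w, hw⟩, rfl⟩
  have hker : c0.ker ≤ permHom.ker := by
    intro w hw
    have h1 : h * (w : Co0) * h⁻¹ ∈ S.conjLift g := by
      show S.proj (h * (w : Co0) * h⁻¹) ∈ Monster.MSetting.conjImage Q g
      rw [show S.proj (h * (w : Co0) * h⁻¹) = 1 from hw]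
      exact one_mem _
    rw [hE] at h1
    obtain ⟨v, ⟨v', hv', rfl⟩, ev⟩ := h1
    have : v' = w := Subtype.ext ((MulAut.conj h).injective ev)
    exact this ▸ hv'
  let pm : crossStab →* M24 := MonoidHom.codRestrict permHom M24 fun w => (crossStab_monomial w).1
  have hker' : c0.rangeRestrict.ker ≤ pm.ker := fun w hw => by
    rw [MonoidHom.ker_rangeRestrict] at hw
    exact MonoidHom.mem_ker.2 (Subtype.ext (MonoidHom.mem_ker.1 (hker hw)))
  let lift : c0.range →* M24 := c0.rangeRestrict.liftOfSurjective c0.rangeRestrict_surjective ⟨pm, hker'⟩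
  have hlift : ∀ w, lift (c0.rangeRestrict w) = pm w := fun w =>
    MonoidHom.liftOfRightInverse_comp_apply _ _ _ ⟨pm, hker'⟩ w
  have hmem : ∀ l : joint z (g * z * g⁻¹), (QuotientGroup.mk (toC z _ l) : _ ⧸ Q) ∈ c0.range := by
    intro l
    rw [hrange]
    exact ⟨toC z _ l, ⟨(toC z _ l).2, Subgroup.mem_centralizer_singleton_iff.2 (mem_joint.1 l.2).2⟩, rfl⟩
  let toR : joint z (g * z * g⁻¹) →* c0.range :=
    MonoidHom.codRestrict ((QuotientGroup.mk' Q).comp (toC z _)) c0.range hmem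
  let π := lift.comp toR
  have hπ : ∀ l w, toR l = c0.rangeRestrict w → π l = pm w := fun l w hlw => by
    show lift (toR l) = _
    rw [hlw, hlift]
  refine ⟨⟨π, ?_, ?_, ?_⟩⟩
  · intro σ
    have hy : c0 ⟨permLift σ, permLift_mem σ⟩ ∈ Monster.MSetting.stabImage Q (g * z * g⁻¹) :=
      hrange ▸ ⟨_, rfl⟩
    obtain ⟨c, hc', hcy⟩ := hy
    have hl : (c : G) ∈ joint z (g * z * g⁻¹) := mem_joint.2
      ⟨Subgroup.mem_centralizer_singleton_iff.1 hc'.1, Subgroup.mem_centralizer_singleton_iff.1 hc'.2⟩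
    refine ⟨⟨c, hl⟩, ?_⟩
    rw [hπ ⟨c, hl⟩ ⟨permLift σ, permLift_mem σ⟩ (Subtype.ext hcy)]
    exact Subtype.ext (permHom_permLift σ)
  · intro l
    obtain ⟨w, hw⟩ := c0.rangeRestrict_surjective (toR l.1)
    have hw1 : pm w = 1 := (hπ l.1 w hw.symm).symm.trans l.2
    have hws : (w : Co0) ∈ signs := ⟨w, congrArg Subtype.val hw1, rfl⟩
    have hsp : IsPGroup 2 ↥signs := IsPGroup.of_card (n := 12) (by rw [card_signs_all]; norm_num)
    obtain ⟨a, ha⟩ := hsp ⟨_, hws⟩
    have hwa : w ^ 2 ^ a = 1 := Subtype.ext (by rw [SubgroupClass.coe_pow]; exact congrArg Subtype.val ha)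
    have h1 : toR (l.1 ^ 2 ^ a) = 1 := by rw [map_pow, ← hw, ← map_pow, hwa, map_one]
    have h2 : toC z _ (l.1 ^ 2 ^ a) ∈ Q := (QuotientGroup.eq_one_iff _).1 (congrArg Subtype.val h1)
    obtain ⟨c, hc'⟩ := (S.setting.2.2.1.1.1) ⟨_, h2⟩
    refine ⟨a + c, Subtype.ext (Subtype.ext ?_)⟩
    have h3 := congrArg (fun q : Q => ((q : Subgroup.centralizer ({z} : Set G)) : G)) hc'
    rw [pow_add, pow_mul]
    simpa [toC] using h3
  · intro p hp hodd x hx
    obtain ⟨w, hw⟩ := c0.rangeRestrict_surjective (toR x)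
    have hwp : w ^ p ∈ c0.ker := by
      rw [← MonoidHom.ker_rangeRestrict, MonoidHom.mem_ker, map_pow, hw, ← map_pow, hx, map_one]
    have h2 : (w ^ p) ^ 2 = 1 := by
      have hm : h * ((w ^ p : crossStab) : Co0) * h⁻¹ ∈ S.proj.ker := hwp
      have hd : orderOf (⟨_, hm⟩ : S.proj.ker) ∣ 2 := S.card_ker_proj ▸ orderOf_dvd_natCard _
      have h4 := congrArg Subtype.val (orderOf_dvd_iff_pow_eq_one.1 hd)
      rw [SubgroupClass.coe_pow, OneMemClass.coe_one, conj_pow, conj_eq_one_iff] at h4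
      exact Subtype.ext (by rw [SubgroupClass.coe_pow]; exact h4)
    obtain ⟨m, hm⟩ := hp.odd_of_ne_two hodd
    set w' := w ^ (p + 1) with hw'
    have hw'p : w' ^ p = 1 := by
      rw [hw', ← pow_mul, show (p + 1) * p = p * 2 * (m + 1) by rw [hm]; ring, pow_mul, pow_mul, h2, one_pow]
    have hw'r : c0.rangeRestrict w' = toR x := by
      rw [hw', map_pow, hw, pow_succ, ← map_pow, hx, map_one, one_mul]
    have hπx : π x = pm w' := hπ x w' hw'r.symm
    have hpermp : (⟨permLift (π x), permLift_mem _⟩ : crossStab) ^ p = 1 := by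
      refine Subtype.ext ?_
      rw [SubgroupClass.coe_pow, OneMemClass.coe_one]
      show (permLift (π x)) ^ p = 1
      rw [← map_pow, ← map_pow, hx, map_one, map_one]
    have hsp : IsPGroup 2 ↥(permHom.ker : Subgroup crossStab) := by
      refine IsPGroup.of_equiv ?_ (permHom.ker.equivMapOfInjective _ crossStab.subtype_injective).symm
      exact IsPGroup.of_card (n := 12) (by rw [show permHom.ker.map crossStab.subtype = signs from rfl, card_signs_all]; norm_num)
    obtain ⟨k, -, hk⟩ := conj_of_map_eq permHom hsp hp hodd hw'p hpermp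
      (by rw [permHom_permLift, hπx]; rfl)
    refine ⟨h * k, ?_⟩
    refine (S.proj_eq_iff).1 ?_
    have e1 : h * (k : Co0) * permLift (π x) * (h * (k : Co0))⁻¹ = h * (w' : Co0) * h⁻¹ := by
      have := congrArg Subtype.val hk
      rw [Subgroup.coe_mul, Subgroup.coe_mul, InvMemClass.coe_inv] at this
      rw [show permLift (π x) = (k : Co0)⁻¹ * w' * k from this.symm]
      group
    rw [e1]
    exact congrArg Subtype.val hw'r

end Cfsg.Agent.MonsterCent
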