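import Cfsg.Agent.MonsterCent.Common
import Cfsg.Agent.MonsterCent.ThreeData

/-!
Checks of the data for the element of order 3.
-/

set_option autoImplicit false

namespace Cfsg.Agent.MonsterCent.Three

open Cfsg.Agent.MonsterCent

theorem check_perm : data.checkPerm = true := by decide +kernel
theorem check_basis : data.checkBasis = true := by decide +kernel
theorem check_reps : data.checkReps = true := by decide +kernel
theorem check_raw : (raw.all fun r => data.checkRaw r.1 r.2) = true := by decide +kernel

theorem count_types : ((List.range (2 ^ data.k)).countP fun m => (data.reps.getD m ([], 0)).2 == 64) = 135 := by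
  decide +kernel

end Cfsg.Agent.MonsterCent.Three
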