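import Cfsg.Agent.MonsterCent.Common
import Cfsg.Agent.MonsterCent.ThreeData

/-!
The centraliser in M24 of the element of order 3: it is transitive, and a point stabiliser has order 21.
-/

set_option autoImplicit false

namespace Cfsg.Agent.MonsterCent.Three

open Cfsg Cfsg.Agent.Golay Cfsg.Agent.M24 Cfsg.Agent.MonsterCent

/-- Pairs of base points in one cycle, one following the other. -/
def follow : List (ℕ × ℕ) := [(0, 1), (1, 2), (3, 4), (4, 6)]

/-- The first base point is fixed and the images of base points follow each other. -/
def okFast (im : List ℕ) : Bool :=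
  Nat.beq (im.getD 0 (basePos 0)) (basePos 0) &&
    follow.all fun q => Nat.ble im.length q.2 || Nat.beq (im.getD q.2 0) (papp data.tab (im.getD q.1 0))

/-- The full test. -/
def fullFast (f : ℕ → ℕ) : Bool := Nat.beq (f (basePos 0)) (basePos 0) && twistFull data.tab 1 f

theorem follow_spec : ∀ q ∈ follow, q.1 < q.2 ∧ q.2 < 7 ∧ papp data.tab (basePos q.1) = basePos q.2 := by
  decide +kernel

theorem tests_fast {r : Equiv.Perm GolayPt} (hr : Rep data.tab r) (hrm : r ∈ M24) :
    ScanTests (fun g => g * r = r * g ∧ g (basePt 0) = basePt 0) okFast fullFast := by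
  have h0 : (0 : ℕ) < 7 := by norm_num
  refine ⟨fun f f' h h24 => ?_, fun g hg => ?_, fun g _ hp k hk => ?_⟩
  · unfold fullFast
    rw [h _ (basePos_lt 0 h0)]
    congr 1
    exact allBase_congr fun i hi => by rw [h _ (hr.papp_lt (basePos_lt i hi)), h _ (basePos_lt i hi)]
  · have hi := twistFull_iff (j := 1) hr hrm hg
    rw [pow_one] at hi
    show g * r = r * g ∧ g (basePt 0) = basePt 0 ↔ _
    rw [fullFast, Bool.and_eq_true, hi, Nat.beq_eq, posFun_base_iff g h0 h0, and_comm]
  · simp only [okFast, Bool.and_eq_true, List.all_eq_true, Bool.or_eq_true]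
    refine ⟨?_, fun q hq => ?_⟩
    · rcases Nat.eq_zero_or_pos k with rfl | hk0
      · simp [baseImages]
      · rw [List.getD_eq_getElem _ _ (by rw [baseImages_length]; exact hk0)]
        simp [baseImages, hp.2, ptIdx_basePt 0 h0]
    · obtain ⟨hlt, h7, hpos⟩ := follow_spec q hq
      rw [baseImages_length]
      by_cases hk2 : k ≤ q.2
      · exact Or.inl (Nat.ble_eq ▸ hk2)
      · refine Or.inr ?_
        rw [baseImages_getD g (by omega), baseImages_getD g (by omega), Nat.beq_eq, ← hr]
        congr 1
        have e : r (basePt q.1) = basePt q.2 := ptIdx_injective (by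
          rw [hr, ptIdx_basePt _ (by omega), ptIdx_basePt _ h7, hpos])
        rw [← e, ← Equiv.Perm.mul_apply, ← Equiv.Perm.mul_apply, hp.1]

theorem scan_length : (scan okFast fullFast).length = 21 := by decide +kernel

theorem fix_count : ((List.range 4096).countP fun k => fixWord data.tab k) = 16 := by decide +kernel

/-- Elements of the centraliser with every image of the first base point. -/
def movers : List ℕ := [
  8284496080171629005957309107061473,
  67680119736276553144992098989491223,
  97580523736281377706388290966657155,
  133753161191158746775004024670659652,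
  188647614306438384059545084696376418,
  216422821156925007616259756296460723,
  271804713500679330480282098617264360,
  295517996462716228474645496154565894,
  357139629870337179194188268495489223,
  388754419378650475378116169260743244,
  424521337084039622152571100524457647,
  481592124835002691589698986034926128,
  528764484648136966198653089950703922,
  561106568566306467010331733152638565,
  582053842513647886243783201289084628,
  641398722147964629740698733843258709,
  681553952651258357579886123301308785,
  711835553735897572106947067636046347,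
  767702523772467289536651108531965321,
  801178571871746393504605625010688173,
  833572229200677895817219523298230742,
  897219196062400552952796308897581546,
  918593230233333310896628758169964174,
  984818244535754528103549039458486304]

/-- The check of the movers. -/
def moversCheck : Bool :=
  (List.range 24).all fun p => GoodTab (movers.getD p 0) &&
    Nat.beq (papp (movers.getD p 0) (basePos 0)) p &&
      allBase fun x => Nat.beq (papp (movers.getD p 0) (papp data.tab x)) (papp data.tab (papp (movers.getD p 0) x))

theorem movers_check : moversCheck = true := by decide +kernel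

theorem card_centralizer {r : M24} (hr : Rep data.tab (r : Equiv.Perm GolayPt)) :
    Nat.card ↥(Subgroup.centralizer ({r} : Set M24)) = 504 := by
  set C := Subgroup.centralizer ({r} : Set M24)
  have hC : ∀ c : C, (c : M24) * r = r * c := fun c => Subgroup.mem_centralizer_singleton_iff.1 c.2
  haveI : MulAction.IsPretransitive C GolayPt := by
    have key : ∀ p : GolayPt, ∃ c : C, c • basePt 0 = p := by
      intro p
      have h := movers_check
      simp only [moversCheck, List.all_eq_true, List.mem_range, Bool.and_eq_true, Nat.beq_eq] at h
      obtain ⟨⟨hgood, hmap⟩, hcomm⟩ := h (ptIdx p) (ptIdx_lt p)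
      obtain ⟨a, ha, hrep⟩ := rep_of_good hgood
      refine ⟨⟨⟨a, ha⟩, Subgroup.mem_centralizer_singleton_iff.2 (Subtype.ext ?_)⟩, ptIdx_injective ?_⟩
      · refine eq_of_base (mul_mem ha r.2) (mul_mem r.2 ha) fun x hx => ptIdx_injective ?_
        have := Nat.eq_of_beq_eq_true (allBase_iff.1 hcomm x hx)
        rwa [← ptIdx_basePt x hx, ← hr, ← hrep, ← hrep, ← hr] at this
      · show ptIdx (a (basePt 0)) = _
        rw [hrep, ptIdx_basePt 0 (by norm_num), hmap]
    refine ⟨fun p q => ?_⟩
    obtain ⟨a, rfl⟩ := key p
    obtain ⟨b, rfl⟩ := key q
    exact ⟨b * a⁻¹, by rw [mul_smul, inv_smul_smul]⟩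
  have h1 := Subgroup.card_mul_index (MulAction.stabilizer C (basePt 0))
  rw [MulAction.index_stabilizer_of_transitive, Nat.card_eq_fintype_card (α := GolayPt), card_golayPt] at h1
  have h2 : Nat.card (MulAction.stabilizer C (basePt 0)) = 21 := by
    rw [← scan_length, ← scan_card (tests_fast hr r.2)]
    exact Nat.card_congr
      { toFun := fun c => ⟨((c : C) : M24).1, ((c : C) : M24).2, congrArg Subtype.val (hC c), c.2⟩
        invFun := fun g => ⟨⟨⟨g.1, g.2.1⟩, Subgroup.mem_centralizer_singleton_iff.2 (Subtype.ext g.2.2.1)⟩, g.2.2.2⟩
        left_inv := fun _ => rfl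
        right_inv := fun _ => rfl }
  rw [h2] at h1
  exact h1.symm

theorem card_commute {r : M24} (hr : Rep data.tab (r : Equiv.Perm GolayPt)) :
    Nat.card {g : Equiv.Perm GolayPt // g ∈ M24 ∧ g * (r : Equiv.Perm GolayPt) = r * g} = 504 := by
  rw [← card_centralizer hr]
  exact Nat.card_congr
    { toFun := fun g => ⟨⟨g.1, g.2.1⟩, Subgroup.mem_centralizer_singleton_iff.2 (Subtype.ext g.2.2)⟩
      invFun := fun c => ⟨c.1.1, c.1.2, congrArg Subtype.val (Subgroup.mem_centralizer_singleton_iff.1 c.2)⟩
      left_inv := fun _ => rfl
      right_inv := fun _ => rfl }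

end Cfsg.Agent.MonsterCent.Three
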