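import Cfsg.Agent.MonsterCent.Words
import Cfsg.Agent.MonsterCent.ThreeChecks
import Cfsg.Agent.MonsterCent.ThreeStab

/-!
The centraliser in `Co0` of an element of order 3 without fixed points.
-/

set_option autoImplicit false

namespace Cfsg.Agent.MonsterCent.Three

open Cfsg Cfsg.Agent.Leech Cfsg.Agent.Monster Cfsg.Agent.MonsterCent Cfsg.Agent.Golay

/-- The element of order 3 of M24. -/
noncomputable abbrev r : M24 := data.perm check_perm

/-- Its lift. -/
noncomputable abbrev g : Co0 := data.g check_perm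

instance : Fact (Nat.Prime data.n) := ⟨by decide +kernel⟩

theorem order_r : orderOf r = 3 := Data.order_perm check_perm

/-- A 3-cycle of consecutive points. -/
def cyc (a : ℕ) : Equiv.Perm (Fin 9) :=
  Equiv.swap (Fin.ofNat 9 a) (Fin.ofNat 9 (a + 1)) * Equiv.swap (Fin.ofNat 9 (a + 1)) (Fin.ofNat 9 (a + 2))

/-- The images of the blocks under a generator. -/
def img (a : ℕ) : List ℕ := (List.finRange 9).map fun i => (cyc a i).val

/-- The check of the generators. -/
def genCheck : Bool := (List.range 7).all fun a => wordCheck data raw blocks (words.getD a []) (img a)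

theorem gen_check : genCheck = true := by decide +kernel

theorem sep_check : blockSep blocks data.k 9 = true := by decide +kernel

theorem pairs_check : ∀ a b : Fin 9, a ≠ b →
    (∀ x ∈ pairs.getD ((a : ℕ) * 9 + b) [], x < 7) ∧
      ((pairs.getD ((a : ℕ) * 9 + b) []).map cyc).prod = Equiv.swap a b * Equiv.swap 0 1 := by decide +kernel

theorem closure_cyc : Subgroup.closure {π | ∃ a < 7, cyc a = π} = alternatingGroup (Fin 9) := by
  refine closure_eq_alternating (0 : Fin 9) 1 ?_ fun a b hab => ?_
  · rintro _ ⟨a, ha, rfl⟩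
    have : ∀ a : Fin 7, Equiv.Perm.sign (cyc a) = 1 := by decide +kernel
    exact this ⟨a, ha⟩
  · obtain ⟨h1, h2⟩ := pairs_check a b hab
    rw [← h2]
    refine Subgroup.list_prod_mem _ fun π hπ => ?_
    obtain ⟨x, hx, rfl⟩ := List.mem_map.1 hπ
    exact Subgroup.subset_closure ⟨x, h1 x hx, rfl⟩

theorem card_stab : Nat.card ↥(cen g ⊓ crossStab) ≤ 504 * 16 := by
  refine card_cen_crossStab (Data.rep check_perm) (card_commute (Data.rep check_perm)) ?_
  rw [← fix_count, List.countP_eq_length_filter, ← List.toFinset_card_of_nodup (List.nodup_range.filter _)]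
  exact congrArg Finset.card (Finset.ext fun a => by
    simp only [Finset.mem_filter, Finset.mem_range, List.mem_toFinset, List.mem_filter, List.mem_range])

theorem exists_cent : ∃ X : Coords g data.k,
    (∀ j : Fin data.k, (X.e j).1 = data.eI j ∧ (X.u j).1 = data.uI j) ∧
      Nonempty (LeechCent X (alternatingGroup (Fin 9))) := by
  obtain ⟨X, hX⟩ := Data.exists_coords check_perm (show Odd data.n by decide) check_basis
  refine ⟨X, hX, ?_⟩
  have hgc := gen_check
  simp only [genCheck, List.all_eq_true, List.mem_range] at hgc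
  refine exists_cent_of_perms X (p := 3) (by decide) (Data.order_g check_perm)
    (fun (i : Fin 9) c => blockMem blocks i.val c) ?_
    ((List.range 7).map fun a => (Data.prodEl raw (words.getD a []), cyc a)) ?_
    (alternatingGroup (Fin 9)).subtype (Subgroup.subtype_injective _) ?_ ?_
  · exact fun i j h => Fin.ext (eq_of_blockSep sep_check i.2 j.2 h)
  · intro x hx
    obtain ⟨a, ha, rfl⟩ := List.mem_map.1 hx
    obtain ⟨h1, h2⟩ := mem_of_wordCheck hX check_raw sep_check (hgc a (List.mem_range.1 ha))
    refine ⟨h1, fun i c => ?_⟩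
    have h3 := h2 i.val (by simp [img]) c
    rw [show (img a).getD i.val 0 = (cyc a i).val by simp [img]] at h3
    exact h3
  · rw [Subgroup.range_subtype, ← closure_cyc]
    refine congrArg Subgroup.closure (Set.ext fun π => ?_)
    simp
  · refine (card_cen_le X (Data.g_cross check_perm) (s := (data.types : Set (Co data.k)))
      (fun a ha => Data.act_std_mem hX check_reps fun c => Coords.fixed_smul (mem_cen.1 ha) (X.vec_fixed_class c))
      card_stab).trans ?_
    rw [Set.ncard_coe_finset, Data.card_types count_types]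
    rw [nat_card_alternatingGroup, Nat.card_eq_fintype_card, Fintype.card_fin]
    decide +kernel

theorem fix_cases {x : M24} (hx : orderOf x = 3) :
    (∃ τ : M24, τ * x * τ⁻¹ = r) ∨
      (Finset.univ.filter fun p => (x : Equiv.Perm GolayPt) p = p).card = 6 := by
  have hx' : orderOf (x : Equiv.Perm GolayPt) = 3 := by rw [Subgroup.orderOf_coe, hx]
  refine (M24.fix_three_cases x.2 hx').symm.imp_left fun h => ?_
  obtain ⟨k, hk, e⟩ := M24.conj_three_fix0 x.2 hx' fun p hp =>
    Finset.eq_empty_iff_forall_notMem.1 (Finset.card_eq_zero.1 h) p (Finset.mem_filter.2 ⟨Finset.mem_univ _, hp⟩)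
  refine ⟨(⟨k, hk⟩ : M24)⁻¹, Subtype.ext ?_⟩
  simp only [Subgroup.coe_mul, InvMemClass.coe_inv]
  rw [e, show (r : Equiv.Perm GolayPt) = M24.elemOf M24.ord3Fix0 from rfl]
  group

theorem conj_six {x y : M24} (hx : orderOf x = 3) (hy : orderOf y = 3)
    (hx6 : (Finset.univ.filter fun p => (x : Equiv.Perm GolayPt) p = p).card = 6)
    (hy6 : (Finset.univ.filter fun p => (y : Equiv.Perm GolayPt) p = p).card = 6) :
    ∃ τ : M24, τ * x * τ⁻¹ = y := by
  obtain ⟨k, hk, e⟩ := M24.conj_of_fix_eq x.2 y.2 (by rw [Subgroup.orderOf_coe, hx])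
    (by rw [Subgroup.orderOf_coe, hy]) (hx6.trans hy6.symm)
  exact ⟨⟨k, hk⟩, Subtype.ext e⟩

theorem factorization_three : (Nat.card ↥M24).factorization 3 = 3 := by
  rw [Golay.card_M24, show (244823040 : ℕ) = 3 ^ 3 * 9067520 by norm_num,
    Nat.factorization_mul (by norm_num) (by norm_num),
    Nat.Prime.factorization_pow (by norm_num : Nat.Prime 3), Finsupp.add_apply, Finsupp.single_eq_same,
    Nat.factorization_eq_zero_of_not_dvd (by norm_num : ¬ 3 ∣ 9067520), add_zero]

/-- No conjugate of `r` centralises a group of order 27. -/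
theorem not_centralized {x : M24} (hx : ∃ τ : M24, τ * x * τ⁻¹ = r) (H : Subgroup M24) (hH : Nat.card H = 27)
    (hc : ∀ q ∈ H, q * x = x * q) : False := by
  obtain ⟨τ, hτ⟩ := hx
  let H' := H.map (MulAut.conj τ).toMonoidHom
  have hle : H' ≤ Subgroup.centralizer ({r} : Set M24) := by
    rintro _ ⟨q, hq, rfl⟩
    refine Subgroup.mem_centralizer_singleton_iff.2 ?_
    show τ * q * τ⁻¹ * r = r * (τ * q * τ⁻¹)
    rw [← hτ]
    calc τ * q * τ⁻¹ * (τ * x * τ⁻¹) = τ * (q * x) * τ⁻¹ := by group
      _ = τ * (x * q) * τ⁻¹ := by rw [hc q hq]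
      _ = τ * x * τ⁻¹ * (τ * q * τ⁻¹) := by group
  have hcard : Nat.card ↥(Subgroup.centralizer ({r} : Set M24)) = 504 := card_centralizer (Data.rep check_perm)
  have h27 := Subgroup.card_dvd_of_le hle
  rw [hcard, Subgroup.card_map_of_injective (MulAut.conj τ).injective, hH] at h27
  norm_num at h27

end Cfsg.Agent.MonsterCent.Three
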