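import Cfsg.Agent.MonsterCent.ThreeSixChecks
import Cfsg.Agent.LargeFischer.Extension

/-!
The centraliser in `Co0` of an element of order 3 fixing six points, and the class in M24 of an
element of order 3 centralised by a subgroup of order 27.
-/

set_option autoImplicit false

namespace Cfsg.Agent.MonsterCent.ThreeSix

open Cfsg Cfsg.Agent.Leech Cfsg.Agent.Monster Cfsg.Agent.MonsterCent Cfsg.Agent.Golay
open Cfsg.Agent.CosetCert
open Cfsg.Agent.LargeFischer (Kc Ke appC eN qC IsRoot orbitU_eq orbitW_eq col isProd_spec IsEl)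
open Cfsg.Agent.SporB.FischerU (Vec vecN enc vecN_enc enc_lt)
open Cfsg.Agent.GFour25
open Cfsg.Agent.TTClass

/-- The element of order 3 of M24. -/
noncomputable abbrev r : M24 := data.perm check_perm

/-- Its lift. -/
noncomputable abbrev g : Co0 := data.g check_perm

instance : Fact (Nat.Prime data.n) := ⟨by decide +kernel⟩

theorem order_r : orderOf r = 3 := Data.order_perm check_perm

theorem r_eq : (r : Equiv.Perm GolayPt) = M24.elemOf M24.ord3Fix6 := rfl

theorem card_comm {t c : ℕ} {rel : List (List (ℕ × ℕ × ℕ × ℕ))} {σ : Equiv.Perm GolayPt}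
    (hσ : M24.Rep t σ) (h : M24.twCheck [] t 1 c rel = true) :
    Nat.card {τ : Equiv.Perm GolayPt // τ ∈ M24 ∧ τ * σ = σ * τ} = c := by
  rw [← M24.tw_card hσ h]
  refine Nat.card_congr (Equiv.subtypeEquivRight fun τ => ?_)
  simp only [pow_one, M24.mem_setStab, List.not_mem_nil, false_implies, forall_const, and_true]

theorem card_stab : Nat.card ↥(cen g ⊓ crossStab) ≤ 1080 * 64 := by
  refine card_cen_crossStab (Data.rep check_perm) (card_comm (Data.rep check_perm) check_six) ?_
  have key : ∀ N : ℕ, ((Finset.range N).filter fun k => fixWord data.tab k = true).card =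
      (List.range N).countP fun k => fixWord data.tab k := by
    intro N
    rw [List.countP_eq_length_filter, ← List.toFinset_card_of_nodup (List.nodup_range.filter _)]
    exact congrArg Finset.card (Finset.ext fun a => by simp only [Finset.mem_filter, Finset.mem_range, List.mem_toFinset, List.mem_filter, List.mem_range])
  exact (key 4096).trans check_flips

/-- The bijection with the Hermitian space. -/
noncomputable def toVec (c : Co data.k) : Vec := vecN (appC toVecC (toN c))

theorem toN_cf {m : ℕ} (hm : m < 4096) : toN (cf 12 m) = m :=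
  Nat.eq_of_beq_eq_true (allB_spec_zero check_toN (by norm_num : 4096 ≤ 2 ^ 12) hm)

theorem toVec_cf {m : ℕ} (hm : m < 4096) : toVec (cf data.k m) = vecN (appC toVecC m) :=
  congrArg (fun n => vecN (appC toVecC n)) (toN_cf hm)

theorem mapM_eq {cols : List ℕ} {e : ℕ} (h : ∀ j < 12, col e j = cols.getD j 0) (m : ℕ) :
    mapM cols 12 m = appC e m := by
  simp [mapM, appC, LargeFischer.term, h]

theorem exists_toVec (v : Vec) : ∃ c, toVec c = v := by
  have h := allB_spec_zero check_inv (by norm_num : 4096 ≤ 2 ^ 12) (enc_lt v)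
  rw [Bool.and_eq_true] at h
  refine ⟨cf data.k (appC ofVecC (enc v)), ?_⟩
  rw [toVec_cf (Nat.blt_eq.mp h.2), Nat.eq_of_beq_eq_true h.1, vecN_enc]

theorem toVec_injective : Function.Injective toVec := by
  have hb : Function.Bijective toVec := by
    rw [Fintype.bijective_iff_surjective_and_card]
    exact ⟨exists_toVec, by decide +kernel⟩
  exact hb.1

theorem toVec_zero : toVec 0 = 0 := by
  rw [← cf_zero data.k, toVec_cf (by norm_num), LargeFischer.appC_zero, LargeFischer.vecN_zero]

variable {X : Coords g data.k}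

theorem isCol_word (hX : ∀ j : Fin data.k, (X.e j).1 = data.eI j ∧ (X.u j).1 = data.uI j)
    {a : ℕ} (ha : a < 11) :
    Data.prodEl raw (words.getD a []) ∈ cen g ∧
      ∀ c, toVec (X.act (Data.prodEl raw (words.getD a [])) c) =
        LargeFischer.lin (eN (tgts.getD a 0)) (toVec c) := by
  have hw := check_words
  simp only [List.all_eq_true, List.mem_range, Bool.and_eq_true, decide_eq_true_eq, beq_iff_eq] at hw
  obtain ⟨hlt, hcols⟩ := hw a ha
  have hcol := Data.isCol_prod hX check_raw _ hlt
  refine ⟨hcol.1, fun c => ?_⟩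
  obtain ⟨m, hm, rfl⟩ := exists_cf c
  replace hm : m < 4096 := hm
  have hg := check_gens
  simp only [List.all_eq_true, List.mem_range, Bool.and_eq_true] at hg
  obtain ⟨⟨hc, hp1⟩, hp2⟩ := hg a ha
  have hd : Data.prodCols data.k raw (words.getD a []) = tcols.getD a [] := hcols
  have he := mapM_eq (fun j hj => Nat.eq_of_beq_eq_true (hc j hj)) m
  rw [hcol.2 m, hd, show mapM (tcols.getD a []) data.k m = appC (tcodes.getD a (0, 0)).1 m from he,
    toVec_cf (LargeFischer.appC_lt _ _), toVec_cf hm, isProd_spec hp1, LargeFischer.lin,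
    LargeFischer.enc_vecN (LargeFischer.appC_lt _ _), isProd_spec hp2]

/-- The generators with the permutations of the space they induce. -/
theorem gen_el (a : ℕ) (ha : a < 11) :
    IsEl (tgts.getD a 0) (if a = 10 then LargeFischer.outE else LargeFischer.actHom (LargeFischer.genU a)) := by
  rcases lt_or_ge a 10 with h | h
  · rw [if_neg h.ne, show tgts.getD a 0 = a by interval_cases a <;> rfl]
    exact LargeFischer.isEl_gen h
  · obtain rfl : a = 10 := by omega
    exact LargeFischer.isEl_outE

theorem Ke_closure : Ke = Subgroup.closure {π | ∃ a < 11,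
    π = if a = 10 then LargeFischer.outE else LargeFischer.actHom (LargeFischer.genU a)} := by
  refine le_antisymm (sup_le ?_ ?_) ((Subgroup.closure_le _).2 ?_)
  · rw [Kc, LargeFischer.covU, MonoidHom.map_closure]
    refine Subgroup.closure_mono ?_
    rintro _ ⟨_, ⟨i, hi, rfl⟩, rfl⟩
    exact ⟨i, by omega, (if_neg hi.ne).symm⟩
  · exact Subgroup.zpowers_le.2 (Subgroup.subset_closure ⟨10, by omega, rfl⟩)
  · rintro _ ⟨a, ha, rfl⟩
    by_cases h : a = 10
    · rw [if_pos h]
      exact Subgroup.mem_sup_right (Subgroup.mem_zpowers _)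
    · rw [if_neg h]
      exact LargeFischer.Kc_le_Ke ⟨_, LargeFischer.genU_mem (show a < 10 by omega), rfl⟩

theorem lift_Kc (hX : ∀ j : Fin data.k, (X.e j).1 = data.eI j ∧ (X.u j).1 = data.uI j)
    {π : Equiv.Perm Vec} (hπ : π ∈ Ke) :
    ∃ h ∈ cen g, ∀ c, toVec (X.act h c) = π (toVec c) := by
  rw [Ke_closure] at hπ
  induction hπ using Subgroup.closure_induction with
  | mem π hπ =>
    obtain ⟨a, ha, rfl⟩ := hπ
    obtain ⟨h1, h2⟩ := isCol_word hX ha
    exact ⟨_, h1, fun c => (h2 c).trans (gen_el a ha _).symm⟩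
  | one => exact ⟨1, one_mem _, fun c => by rw [X.act_one]; rfl⟩
  | mul a b _ _ iha ihb =>
    obtain ⟨h, hh, e⟩ := iha
    obtain ⟨h', hh', e'⟩ := ihb
    exact ⟨h * h', mul_mem hh hh', fun c => by
      rw [X.act_comp (mem_cen.1 hh'), e, e', Equiv.Perm.mul_apply]⟩
  | inv a _ iha =>
    obtain ⟨h, hh, e⟩ := iha
    refine ⟨h⁻¹, inv_mem hh, fun c => ?_⟩
    rw [← a.symm_apply_apply (toVec (X.act h⁻¹ c)), ← e, ← X.act_comp (mem_cen.1 (inv_mem hh)),
      mul_inv_cancel, X.act_one]
    rfl

theorem dotB_eq : ∀ (l : List ℤ) (m : ℕ),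
    dotB l m = ∑ j ∈ Finset.range l.length, (bif m.testBit j then l.getD j 0 else 0)
  | [], m => by simp [dotB]
  | a :: l, m => by
    rw [dotB, dotB_eq l (m / 2), List.length_cons, Finset.sum_range_succ', add_comm]
    congr 1
    · refine Finset.sum_congr rfl fun j _ => ?_
      rw [Nat.testBit_succ]
      rfl
    · rw [Nat.testBit_zero]
      rcases Nat.mod_two_eq_zero_or_one m with h | h <;> rw [h] <;> rfl

theorem normI_eq (hX : ∀ j : Fin data.k, (X.e j).1 = data.eI j ∧ (X.u j).1 = data.uI j) (m : ℕ) :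
    normI m = sqNorm ((X.vec (cf data.k m) : leechLattice) : GolayPt → ℤ) := by
  have he := check_eT
  simp only [List.all_eq_true, List.mem_range, Bool.and_eq_true, beq_iff_eq] at he
  have hpt : ∀ i < 24, (X.vec (cf data.k m)).1 (ptOf i) = dotB (eT.getD i []) m := by
    intro i hi
    obtain ⟨hlen, hget⟩ := he i hi
    rw [dotB_eq, hlen, Coords.vec, AddSubgroup.val_finsetSum, Finset.sum_apply,
      ← Fin.sum_univ_eq_sum_range fun j => bif m.testBit j then (eT.getD i []).getD j 0 else 0]
    refine Finset.sum_congr rfl fun j _ => ?_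
    rw [AddSubgroup.coe_nsmul, (hX j).1, Pi.smul_apply, hget j j.2]
    cases hb : m.testBit (j : ℕ) <;> simp [cf, hb, ZMod.val_one]
  have e : sqNorm ((X.vec (cf data.k m) : leechLattice) : GolayPt → ℤ) =
      ((List.range 24).map fun i => sqr (dotB (eT.getD i []) m)).sum := by
    rw [sqNorm, Leech.sum_ptOf]
    refine congrArg List.sum (List.map_congr_left fun i hi => ?_)
    rw [hpt i (List.mem_range.1 hi), sqr, sq]
  have hl : eT = (List.range 24).map fun i => eT.getD i [] := rfl
  rw [e, normI]
  conv_lhs => rw [hl, List.map_map]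
  rfl

/-- Classes of squared length 64 are singular vectors off the roots. -/
theorem std_mem (hX : ∀ j : Fin data.k, (X.e j).1 = data.eI j ∧ (X.u j).1 = data.uI j)
    {h : Co0} (hh : h ∈ cen g) :
    toVec (X.act h X.std) ∈ MulAction.orbit Kc (vecN LargeFischer.Data.repW) := by
  set v : leechLattice := h • crossL none with hv
  set c := X.act h X.std with hc
  have hfix : ∀ c, classMap (g • h • X.vec c) = classMap (h • X.vec c) := fun c =>
    Coords.fixed_smul (mem_cen.1 hh) (X.vec_fixed_class c)
  have hcl : classMap v = classMap (X.vec c) := by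
    rw [hv, classMap_smul h (X.expand (Data.g_cross check_perm))]
    exact X.expand (hfix _)
  have hn : sqNorm (v : GolayPt → ℤ) = 64 := (h.2.2 _).trans (sqNorm_cross none)
  have hne : ∀ w : leechLattice, classMap w = classMap (X.vec c) → sqNorm (w : GolayPt → ℤ) < 64 → False := by
    intro w hw hlt
    have := classes_distinct (v := w) (w := v) hlt.le hn.le (hw.trans hcl.symm)
    omega
  rw [orbitW_eq]
  refine ⟨fun h0 => ?_, ?_, fun hroot => ?_⟩
  · rw [← toVec_zero] at h0
    refine hne 0 ?_ (by simp [sqNorm])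
    rw [toVec_injective h0]
    exact congrArg classMap (by simp [Coords.vec])
  · obtain ⟨m, hm, hcm⟩ := exists_cf c
    have h1 := check_norm hm
    rw [normI_eq hX] at h1
    rw [hcm] at hcl
    obtain ⟨z, hz, e⟩ := classMap_eq_iff.1 hcl
    obtain ⟨D, hD⟩ := eight_dvd_dotInt v ⟨z, hz⟩
    obtain ⟨K, hK⟩ := Leech.sqNorm_mod hz
    have e1 : sqNorm ((X.vec (cf data.k m) : leechLattice) : GolayPt → ℤ) =
        sqNorm (v : GolayPt → ℤ) + 4 * dotInt v.1 z + 4 * sqNorm z := by
      simp only [sqNorm, dotInt, Finset.mul_sum, ← Finset.sum_add_distrib]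
      refine Finset.sum_congr rfl fun p _ => ?_
      have := congrFun e p
      simp only [Pi.sub_apply, Pi.smul_apply, nsmul_eq_mul, Nat.cast_ofNat] at this
      rw [show (X.vec (cf data.k m)).1 p = v.1 p + 2 * z p by linarith]
      ring
    have hmod : sqNorm ((X.vec (cf data.k m) : leechLattice) : GolayPt → ℤ) / 16 % 2 = 0 := by
      rw [e1, hn, show dotInt v.1 z = 8 * D from hD, show sqNorm z = 16 * K from hK]
      omega
    rw [hmod] at h1
    have h2 : qC (appC toVecC m) = true := by simpa using h1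
    rw [hcm, toVec_cf hm]
    rw [← LargeFischer.enc_vecN (LargeFischer.appC_lt toVecC m), LargeFischer.qC_enc] at h2
    exact of_decide_eq_true h2
  · have hmem : toVec c ∈ MulAction.orbit Kc (vecN LargeFischer.Data.repU) := orbitU_eq ▸ hroot
    obtain ⟨⟨k, hk⟩, hkc⟩ := hmem
    obtain ⟨a, ha, hact⟩ := lift_Kc hX (LargeFischer.Kc_le_Ke hk)
    have hr := check_root
    simp only [Bool.and_eq_true, List.all_eq_true, List.mem_range, beq_iff_eq] at hr
    obtain ⟨⟨⟨⟨⟨hin, h32⟩, hfx⟩, hkap⟩, hT⟩, hidx⟩ := hr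
    let w : leechLattice := ⟨ofI rootVec, mem_of_inLeechB hin⟩
    have hgw : g • w = w := by
      refine Subtype.ext ?_
      rw [g, Data.g, permLift_smul]
      funext p
      have h2 := hfx (ptIdx (((data.perm check_perm : M24) : Equiv.Perm GolayPt)⁻¹ p)) (ptIdx_lt _)
      rw [← Data.rep check_perm, M24.ptOf_ptIdx, M24.ptOf_ptIdx, Monster.perm_apply_inv] at h2
      exact h2.symm
    have hkapw : X.kap w = cf data.k rootIdx := by
      funext i
      have h2 := hkap i i.2
      simp only [Coords.kap, cf, (hX i).2, ← dotL_eq]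
      rw [← h2]
      rcases Int.emod_two_eq_zero_or_one (dotL (ofI rootVec) (data.uI i) / 8) with e | e
      · simp only [w, e]
        exact (ZMod.intCast_zmod_eq_zero_iff_dvd _ 2).2 (Int.dvd_of_emod_eq_zero e)
      · simp only [w, e]
        rw [← Int.emod_add_mul_ediv (dotL (ofI rootVec) (data.uI i) / 8) 2, e]
        simp [show (2 : ZMod 2) = 0 from rfl]
    have hwcl : classMap w = classMap (X.vec (cf data.k rootIdx)) := by
      rw [← hkapw]
      exact X.expand (by rw [hgw])
    have hact2 : X.act a (cf data.k rootIdx) = c := by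
      refine toVec_injective ?_
      rw [hact, toVec_cf (Nat.blt_eq.mp hidx), Nat.eq_of_beq_eq_true hT]
      exact hkc
    refine hne (a • w) ?_ ?_
    · rw [classMap_smul a hwcl, ← hact2]
      exact X.expand (Coords.fixed_smul (mem_cen.1 ha) (X.vec_fixed_class _))
    · refine lt_of_eq_of_lt (a.2.2 w) ?_
      rw [show sqNorm (w : GolayPt → ℤ) = 32 by rw [← h32, dotL_eq]; simp [w, sqNorm, dotInt, sq]]
      norm_num

theorem card_cen (hX : ∀ j : Fin data.k, (X.e j).1 = data.eI j ∧ (X.u j).1 = data.uI j) :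
    Nat.card (cen g) ≤ 1701 * (1080 * 64) := by
  refine (card_cen_le X (Data.g_cross check_perm)
    (s := toVec ⁻¹' MulAction.orbit Kc (vecN LargeFischer.Data.repW))
    (fun a ha => std_mem hX ha) card_stab).trans_eq ?_
  rw [Set.ncard_preimage_of_injective_subset_range toVec_injective fun v _ => exists_toVec v,
    LargeFischer.ncard_orbitW]

theorem exists_cent : ∃ X : Coords g data.k,
    (∀ j : Fin data.k, (X.e j).1 = data.eI j ∧ (X.u j).1 = data.uI j) ∧ Nonempty (LeechCent X Ke) := by
  obtain ⟨X, hX⟩ := Data.exists_coords check_perm (show Odd data.n by decide) check_basis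
  refine ⟨X, hX, ?_⟩
  let tgt : ℕ → Equiv.Perm Vec := fun a =>
    if a = 10 then LargeFischer.outE else LargeFischer.actHom (LargeFischer.genU a)
  refine exists_cent_of_perms X (p := 3) (by decide) (Data.order_g check_perm)
    (fun v c => decide (v = toVec c)) ?_
    ((List.range 11).map fun a => (Data.prodEl raw (words.getD a []), tgt a)) ?_ Ke.subtype
    Ke.subtype_injective ?_ ?_
  · intro v w h
    obtain ⟨c, rfl⟩ := exists_toVec v
    have := h c
    simp only [decide_true] at this
    exact (of_decide_eq_true this.symm).symm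
  · intro x hx
    obtain ⟨a, ha, rfl⟩ := List.mem_map.1 hx
    have ha' := List.mem_range.1 ha
    obtain ⟨h1, h2⟩ := isCol_word hX ha'
    refine ⟨h1, fun v c => ?_⟩
    dsimp only
    rw [show toVec (X.act (Data.prodEl raw (words.getD a [])) c) = tgt a (toVec c) from
      (h2 c).trans (gen_el a ha' _).symm, decide_eq_decide]
    exact (tgt a).injective.eq_iff
  · rw [Subgroup.range_subtype, Ke_closure]
    congr 1
    ext π
    constructor
    · rintro ⟨a, ha, rfl⟩
      exact ⟨_, List.mem_map.2 ⟨a, List.mem_range.2 ha, rfl⟩, rfl⟩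
    · rintro ⟨x, hx, rfl⟩
      obtain ⟨a, ha, rfl⟩ := List.mem_map.1 hx
      exact ⟨a, List.mem_range.1 ha, rfl⟩
  · refine (card_cen hX).trans ?_
    rw [LargeFischer.card_Ke]

/-- An element of order 3 centralised by a subgroup of order 27 is conjugate to the standard one. -/
theorem classes {x : M24} (hx : orderOf x = 3) {P : Subgroup M24} (hP : Nat.card P = 27)
    (hc : ∀ p ∈ P, p * x = x * p) : ∃ τ : M24, τ * x * τ⁻¹ = r := by
  obtain ⟨h, hh, e | e⟩ := M24.order_three_cases x.2 (by rw [Subgroup.orderOf_coe, hx])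
  · refine ⟨⟨h, hh⟩⁻¹, Subtype.ext ?_⟩
    simp only [Subgroup.coe_mul, InvMemClass.coe_inv]
    rw [e, r_eq]
    group
  · exfalso
    have hgood := M24.reps_good M24.ord3Fix0 (by simp)
    obtain ⟨hm, hrep⟩ := M24.elemOf_spec hgood
    set σ := M24.elemOf M24.ord3Fix0
    let C : Subgroup (Equiv.Perm GolayPt) := M24 ⊓ Subgroup.centralizer {σ}
    let P' : Subgroup (Equiv.Perm GolayPt) := (P.map M24.subtype).map (MulAut.conj h⁻¹).toMonoidHom
    have hP' : Nat.card P' = 27 := by
      rw [Subgroup.card_map_of_injective (MulAut.conj h⁻¹).injective,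
        Subgroup.card_map_of_injective M24.subtype_injective, hP]
    have hle : P' ≤ C := by
      rintro _ ⟨_, ⟨p, hp, rfl⟩, rfl⟩
      refine ⟨?_, Subgroup.mem_centralizer_singleton_iff.2 ?_⟩
      · show h⁻¹ * (p : Equiv.Perm GolayPt) * h⁻¹⁻¹ ∈ M24
        exact mul_mem (mul_mem (inv_mem hh) p.2) (inv_mem (inv_mem hh))
      · show h⁻¹ * (p : Equiv.Perm GolayPt) * h⁻¹⁻¹ * σ = σ * (h⁻¹ * p * h⁻¹⁻¹)
        have hpx : (p : Equiv.Perm GolayPt) * x = x * p := congrArg Subtype.val (hc p hp)
        rw [e] at hpx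
        calc h⁻¹ * (p : Equiv.Perm GolayPt) * h⁻¹⁻¹ * σ = h⁻¹ * (p * (h * σ * h⁻¹)) * h := by group
          _ = h⁻¹ * (h * σ * h⁻¹ * p) * h := by rw [hpx]
          _ = _ := by group
    have hC : Nat.card C = 504 := by
      rw [← card_comm hrep check_zero]
      refine Nat.card_congr (Equiv.subtypeEquivRight fun τ => ?_)
      exact and_congr Iff.rfl Subgroup.mem_centralizer_singleton_iff
    have := Subgroup.card_dvd_of_le hle
    rw [hP', hC] at this
    norm_num at this

end Cfsg.Agent.MonsterCent.ThreeSix
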