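import Cfsg.Agent.MonsterCent.Common
import Cfsg.Agent.MonsterCent.ThreeSixData
import Cfsg.Agent.LargeFischer.Orbits

/-!
The check that squared lengths of fixed vectors match the Hermitian form.
-/

set_option autoImplicit false
set_option maxRecDepth 100000
set_option Elab.async false

namespace Cfsg.Agent.MonsterCent.ThreeSix

open Cfsg.Agent.MonsterCent Cfsg.Agent.CosetCert Cfsg.Agent.LargeFischer
open Cfsg.Agent.Leech (dotL inLeechB)
open Cfsg.Agent.Golay (ptOf)

/-- A coordinate of a combination of the basis. -/
def dotB : List ℤ → ℕ → ℤ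
  | [], _ => 0
  | a :: r, m => (bif Nat.beq (m % 2) 1 then a else 0) + dotB r (m / 2)

/-- A square. -/
def sqr (a : ℤ) : ℤ := a * a

/-- The squared length of a combination of the basis. -/
def normI (m : ℕ) : ℤ := (eT.map fun r => sqr (dotB r m)).sum

theorem check_eT : ((List.range 24).all fun i => (eT.getD i []).length == 12 &&
    (List.range 12).all fun j => (eT.getD i []).getD j 0 == data.eI j (ptOf i)) = true := by
  decide +kernel

theorem check_norm_0 : allB (fun m => (normI m / 16 % 2 == 0) == qC (appC toVecC m)) 10 0 = true := by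
  decide +kernel

theorem check_norm_1 : allB (fun m => (normI m / 16 % 2 == 0) == qC (appC toVecC m)) 10 1024 = true := by
  decide +kernel

theorem check_norm_2 : allB (fun m => (normI m / 16 % 2 == 0) == qC (appC toVecC m)) 10 2048 = true := by
  decide +kernel

theorem check_norm_3 : allB (fun m => (normI m / 16 % 2 == 0) == qC (appC toVecC m)) 10 3072 = true := by
  decide +kernel

theorem check_norm {m : ℕ} (hm : m < 4096) : ((normI m / 16 % 2 == 0) == qC (appC toVecC m)) = true := by
  rcases lt_or_ge m 1024 with h1 | h1
  · exact allB_spec check_norm_0 m (Nat.zero_le _) (by norm_num; omega)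
  rcases lt_or_ge m 2048 with h2 | h2
  · exact allB_spec check_norm_1 m h1 (by norm_num; omega)
  rcases lt_or_ge m 3072 with h3 | h3
  · exact allB_spec check_norm_2 m h2 (by norm_num; omega)
  · exact allB_spec check_norm_3 m h3 (by norm_num; omega)

end Cfsg.Agent.MonsterCent.ThreeSix
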