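import Cfsg.Agent.MonsterCent.Common
import Cfsg.Agent.MonsterCent.ThreeSixData

/-!
The checks of the centralising words for the element of order 3 fixing six points.
-/

set_option autoImplicit false
set_option maxRecDepth 100000
set_option Elab.async false

namespace Cfsg.Agent.MonsterCent.ThreeSix

open Cfsg.Agent.MonsterCent
open Cfsg.Agent.Leech (dotL inLeechB)
open Cfsg.Agent.Golay (ptOf)

theorem check_raw_0 : data.checkRaw (raw.getD 0 ([], [])).1 (raw.getD 0 ([], [])).2 = true := by decide +kernel
theorem check_raw_1 : data.checkRaw (raw.getD 1 ([], [])).1 (raw.getD 1 ([], [])).2 = true := by decide +kernel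
theorem check_raw_2 : data.checkRaw (raw.getD 2 ([], [])).1 (raw.getD 2 ([], [])).2 = true := by decide +kernel
theorem check_raw_3 : data.checkRaw (raw.getD 3 ([], [])).1 (raw.getD 3 ([], [])).2 = true := by decide +kernel

theorem check_raw : (raw.all fun r => data.checkRaw r.1 r.2) = true := by
  refine List.all_eq_true.2 fun r hr => ?_
  obtain ⟨i, hi, rfl⟩ := List.getElem_of_mem hr
  rw [← List.getD_eq_getElem raw ([], []) hi]
  have h : i < 4 := hi
  interval_cases i
  · exact check_raw_0
  · exact check_raw_1
  · exact check_raw_2
  · exact check_raw_3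

end Cfsg.Agent.MonsterCent.ThreeSix
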