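import Cfsg.Agent.MonsterCent.ThreeSixData
import Cfsg.Agent.M24.TwistCard

/-!
The centraliser order in M24 of the representative fixing six points, searched in four parts.
-/

set_option autoImplicit false
set_option maxRecDepth 100000
set_option Elab.async false

namespace Cfsg.Agent.MonsterCent.ThreeSix

open Cfsg.Agent.M24

/-- The pruning of the search. -/
def okSix : ℕ → (ℕ → ℕ) → Bool := fun k f => okC relSix k f && okSets [] (baseOf k f)

/-- The final test of the search. -/
def fullSix : (ℕ → ℕ) → Bool := fun f => fullTw ord3Fix6 1 (tblOf f) && fullSets [] (tblOf f)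

/-- The search below some elements of the first level. -/
def partSum (ok : ℕ → (ℕ → ℕ) → Bool) (full : (ℕ → ℕ) → Bool) (rest : List (List ℕ)) (ts : List ℕ) : ℕ :=
  (ts.map fun t => searchN ok full rest 1 fun i => act [] (papp t i)).sum

/-- A quarter of the first level. -/
def quarter (j : ℕ) : List ℕ := ((transTab.headD []).drop (6 * j)).take 6

theorem part_0 : partSum okSix fullSix transTab.tail (quarter 0) = 300 := by decide +kernel
theorem part_1 : partSum okSix fullSix transTab.tail (quarter 1) = 240 := by decide +kernel
theorem part_2 : partSum okSix fullSix transTab.tail (quarter 2) = 240 := by decide +kernel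
theorem part_3 : partSum okSix fullSix transTab.tail (quarter 3) = 300 := by decide +kernel

theorem tab_split : transTab = (quarter 0 ++ quarter 1 ++ quarter 2 ++ quarter 3) :: transTab.tail := by
  decide +kernel

theorem check_pre : (relsOK ord3Fix6 1 relSix && okSix 0 (act [])) = true := by decide +kernel

theorem searchN_split (ok : ℕ → (ℕ → ℕ) → Bool) (full : (ℕ → ℕ) → Bool) {tab rest : List (List ℕ)}
    {a b c d : List ℕ} (e : tab = (a ++ b ++ c ++ d) :: rest) (h : ok 0 (act []) = true) :
    searchN ok full tab 0 (act []) =
      partSum ok full rest a + partSum ok full rest b + partSum ok full rest c + partSum ok full rest d := by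
  subst e
  simp [searchN, partSum, h, Nat.add_assoc]

theorem cnt_eq : cntTw [] ord3Fix6 1 relSix = searchN okSix fullSix transTab 0 (act []) := by
  delta cntTw okSix fullSix
  rfl

theorem check_six : twCheck [] ord3Fix6 1 1080 relSix = true := by
  have h := check_pre
  rw [Bool.and_eq_true] at h
  delta twCheck
  rw [h.1, cnt_eq, searchN_split okSix fullSix tab_split h.2, part_0, part_1, part_2, part_3]
  rfl

end Cfsg.Agent.MonsterCent.ThreeSix
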