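import Cfsg.Agent.MonsterCent.Common
import Cfsg.Agent.MonsterCent.ThreeSixData
import Cfsg.Agent.LargeFischer.Orbits
import Cfsg.Agent.MonsterCent.ThreeSixScan
import Cfsg.Agent.MonsterCent.ThreeSixRaw
import Cfsg.Agent.MonsterCent.ThreeSixNorm

/-!
Checks of the data for the element of order 3 fixing six points.
-/

set_option autoImplicit false
set_option maxRecDepth 100000
set_option Elab.async false

namespace Cfsg.Agent.MonsterCent.ThreeSix

open Cfsg.Agent.MonsterCent Cfsg.Agent.CosetCert Cfsg.Agent.LargeFischer
open Cfsg.Agent.Leech (dotL inLeechB)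
open Cfsg.Agent.Golay (ptOf)

theorem check_perm : data.checkPerm = true := by decide +kernel
theorem check_basis : data.checkBasis = true := by decide +kernel
theorem check_zero : M24.twCheck [] M24.ord3Fix0 1 504 relZero = true := by decide +kernel

theorem check_flips : ((List.range 4096).countP fun k => fixWord data.tab k) = 64 := by decide +kernel
theorem tab_eq : data.tab = M24.ord3Fix6 := rfl

theorem check_words : ((List.range 11).all fun a => ((words.getD a []).all fun x => decide (x < raw.length)) &&
    (Data.prodCols 12 raw (words.getD a []) == tcols.getD a [])) = true := by decide +kernel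

theorem check_gens : ((List.range 11).all fun a =>
    ((List.range 12).all fun j => Nat.beq (col (tcodes.getD a (0, 0)).1 j) ((tcols.getD a []).getD j 0)) &&
    isProd (tcodes.getD a (0, 0)).2 toVecC (tcodes.getD a (0, 0)).1 &&
    isProd (tcodes.getD a (0, 0)).2 (eN (tgts.getD a 0)) toVecC) = true := by decide +kernel

theorem check_inv : allB (fun v => Nat.beq (appC toVecC (appC ofVecC v)) v &&
    Nat.blt (appC ofVecC v) 4096) 12 0 = true := by decide +kernel

theorem check_toN : allB (fun m => Nat.beq (toN (cf 12 m)) m) 12 0 = true := by decide +kernel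

theorem check_root : (inLeechB (ofI rootVec) && (dotL (ofI rootVec) (ofI rootVec) == 32) &&
    ((List.range 24).all fun i => ofI rootVec (ptOf (M24.papp data.tab i)) == ofI rootVec (ptOf i)) &&
    ((List.range 12).all fun i => (dotL (ofI rootVec) (data.uI i) / 8 % 2 == 1) == rootIdx.testBit i) &&
    Nat.beq (appC toVecC rootIdx) LargeFischer.Data.repU && Nat.blt rootIdx 4096) = true := by decide +kernel

end Cfsg.Agent.MonsterCent.ThreeSix
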