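import Mathlib
import Cfsg.Prelude.Def_Local
import Cfsg.Agent.Cores.Basic
import Cfsg.Agent.Components.FStar

/-!
Fixed points of elements of odd prime order in cosets of 2-subgroups.
-/

set_option autoImplicit false

namespace Cfsg.Agent.MonsterCent

open Cfsg

variable {G : Type*} [Group G]

/-- A permutation of prime power order of a set of coprime size has a fixed point. -/
theorem exists_fixed {α : Type*} [Finite α] {p : ℕ} (hp : p.Prime) (hc : ¬ p ∣ Nat.card α)
    (f : Equiv.Perm α) (hf : f ^ p = 1) : ∃ a, f a = a := by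
  classical
  haveI := Fintype.ofFinite α
  haveI := Fact.mk hp
  rw [Nat.card_eq_fintype_card] at hc
  exact Equiv.Perm.exists_fixed_point_of_prime (n := 1) hc (by rw [pow_one]; exact hf)

/-- Elements of order dividing an odd prime with equal images modulo a 2-group are conjugate by it. -/
theorem conj_of_map_eq [Finite G] {M : Type*} [Group M] (f : G →* M) (hker : IsPGroup 2 ↥f.ker)
    {p : ℕ} (hp : p.Prime) (hodd : p ≠ 2) {x y : G} (hx : x ^ p = 1) (hy : y ^ p = 1)
    (h : f x = f y) : ∃ k ∈ f.ker, k⁻¹ * x * k = y := by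
  haveI : Fact (Nat.Prime 2) := ⟨Nat.prime_two⟩
  have hmem : ∀ k : f.ker, x * k * y⁻¹ ∈ f.ker := fun k => by
    rw [MonoidHom.mem_ker, map_mul, map_mul, MonoidHom.mem_ker.1 k.2, mul_one, map_inv, h, mul_inv_cancel]
  have hmem' : ∀ k : f.ker, x⁻¹ * k * y ∈ f.ker := fun k => by
    rw [MonoidHom.mem_ker, map_mul, map_mul, MonoidHom.mem_ker.1 k.2, mul_one, map_inv, h, inv_mul_cancel]
  let s : Equiv.Perm f.ker :=
    { toFun := fun k => ⟨_, hmem k⟩
      invFun := fun k => ⟨_, hmem' k⟩
      left_inv := fun k => Subtype.ext (by show x⁻¹ * (x * k * y⁻¹) * y = k; group)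
      right_inv := fun k => Subtype.ext (by show x * (x⁻¹ * k * y) * y⁻¹ = k; group) }
  have hpow : ∀ (n : ℕ) (k : f.ker), (((s ^ n) k : f.ker) : G) = x ^ n * k * (y ^ n)⁻¹ := by
    intro n
    induction n with
    | zero => intro k; simp
    | succ n ih =>
      intro k
      rw [pow_succ', Equiv.Perm.mul_apply]
      show x * (((s ^ n) k : f.ker) : G) * y⁻¹ = _
      rw [ih, pow_succ', pow_succ']
      group
  have hcard : ¬ p ∣ Nat.card f.ker := by
    obtain ⟨n, hn⟩ := IsPGroup.iff_card.1 hker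
    rw [hn]
    intro hd
    exact hodd ((Nat.prime_dvd_prime_iff_eq hp Nat.prime_two).1 (hp.dvd_of_dvd_pow hd))
  obtain ⟨k, hk⟩ := exists_fixed hp hcard s (Equiv.ext fun k => Subtype.ext (by
    rw [hpow, hx, hy, one_mul, inv_one, mul_one]; rfl))
  refine ⟨k, k.2, ?_⟩
  have hk' : x * (k : G) * y⁻¹ = k := congrArg Subtype.val hk
  rw [mul_inv_eq_iff_eq_mul] at hk'
  rw [mul_assoc, hk', inv_mul_cancel_left]

/-- An element with commutator in a normal 2-subgroup is one centralising up to that subgroup. -/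
theorem exists_centralizing [Finite G] {M : Type*} [Group M] (f : G →* M) (hker : IsPGroup 2 ↥f.ker)
    {p : ℕ} (hp : p.Prime) (hodd : p ≠ 2) {b c : G} (hb : b ^ p = 1)
    (h : f c * f b = f b * f c) : ∃ x : G, f x = f c ∧ x * b = b * x := by
  obtain ⟨k, hk, he⟩ := conj_of_map_eq f hker hp hodd (x := c * b * c⁻¹) (y := b)
    (by rw [conj_pow, hb, mul_one, mul_inv_cancel]) hb
    (by rw [map_mul, map_mul, map_inv, h, mul_inv_cancel_right])
  refine ⟨k⁻¹ * c, by rw [map_mul, map_inv, MonoidHom.mem_ker.1 hk, inv_one, one_mul], ?_⟩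
  conv_rhs => rw [← he]
  group

/-- Injectivity data: a 2-element that is a power of an element of odd order is trivial. -/
theorem pow_eq_one_of_sq {b : G} {p : ℕ} (hp : Odd p) (hb : b ^ p = 1) {x : G} (hx : x ∈ Subgroup.zpowers b)
    {k : ℕ} (h : x ^ 2 ^ k = 1) : x = 1 := by
  obtain ⟨i, rfl⟩ := Subgroup.mem_zpowers_iff.1 hx
  have h1 : (b ^ i) ^ p = 1 := by
    rw [← zpow_natCast, ← zpow_mul, mul_comm, zpow_mul, zpow_natCast, hb, one_zpow]
  exact orderOf_eq_one_iff.1 (Nat.eq_one_of_dvd_coprimes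
    (Nat.Coprime.pow_left k (Nat.coprime_two_left.2 hp))
    (orderOf_dvd_of_pow_eq_one h) (orderOf_dvd_of_pow_eq_one h1))

end Cfsg.Agent.MonsterCent
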