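import Cfsg.Agent.MonsterCent.Perms

/-!
Blocks of classes given by bit masks, and the check that words permute them as prescribed.
-/

set_option autoImplicit false

namespace Cfsg.Agent.MonsterCent

open Cfsg Cfsg.Agent.Leech Cfsg.Agent.Monster

/-- Membership of a class in a block. -/
def blockMem (blocks : List ℕ) (i : ℕ) {k : ℕ} (c : Co k) : Bool := (blocks.getD i 0).testBit (toN c)

/-- The blocks are told apart by the classes. -/
def blockSep (blocks : List ℕ) (k n : ℕ) : Bool :=
  ((List.range (2 ^ k)).all fun m => Nat.beq (toN (cf k m)) m) &&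
    (List.range n).all fun i => (List.range n).all fun j =>
      Nat.beq i j || (List.range (2 ^ k)).any fun m => (blocks.getD i 0).testBit m != (blocks.getD j 0).testBit m

theorem eq_of_blockSep {blocks : List ℕ} {k n : ℕ} (h : blockSep blocks k n = true) {i j : ℕ} (hi : i < n) (hj : j < n)
    (e : ∀ c : Co k, blockMem blocks i c = blockMem blocks j c) : i = j := by
  simp only [blockSep, Bool.and_eq_true, List.all_eq_true, List.mem_range, Nat.beq_eq, Bool.or_eq_true,
    List.any_eq_true, bne_iff_ne] at h
  refine (h.2 i hi j hj).resolve_right ?_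
  rintro ⟨m, hm, hne⟩
  have := e (cf k m)
  rw [blockMem, blockMem, h.1 m hm] at this
  exact hne this

/-- The check of one word against the images of the blocks. -/
def wordCheck (d : Data) (raw : List (List ℕ × List ℕ)) (blocks : List ℕ) (w img : List ℕ) : Bool :=
  (w.all fun x => decide (x < raw.length)) &&
    (List.range (2 ^ d.k)).all fun m =>
      decide (mapM (Data.prodCols d.k raw w) d.k m < 2 ^ d.k) &&
        (List.range img.length).all fun i =>
          (blocks.getD (img.getD i 0) 0).testBit (mapM (Data.prodCols d.k raw w) d.k m) == (blocks.getD i 0).testBit m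

theorem mem_of_wordCheck {d : Data} {h : d.checkPerm = true} {X : Coords (d.g h) d.k}
    (hX : ∀ j : Fin d.k, (X.e j).1 = d.eI j ∧ (X.u j).1 = d.uI j) {raw : List (List ℕ × List ℕ)}
    (hraw : (raw.all fun r => Data.checkRaw d r.1 r.2) = true) {blocks : List ℕ} {n : ℕ}
    (hsep : blockSep blocks d.k n = true) {w img : List ℕ} (hw : wordCheck d raw blocks w img = true) :
    Data.prodEl raw w ∈ cen (d.g h) ∧
      ∀ (i : ℕ), i < img.length → ∀ c, blockMem blocks (img.getD i 0) (X.act (Data.prodEl raw w) c) = blockMem blocks i c := by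
  simp only [wordCheck, Bool.and_eq_true, List.all_eq_true, List.mem_range, decide_eq_true_eq, beq_iff_eq] at hw
  simp only [blockSep, Bool.and_eq_true, List.all_eq_true, List.mem_range, Nat.beq_eq] at hsep
  have hc := Data.isCol_prod hX hraw w hw.1
  refine ⟨hc.1, fun i hi c => ?_⟩
  obtain ⟨m, hm, rfl⟩ := exists_cf c
  rw [hc.2 m, blockMem, blockMem, hsep.1 _ (hw.2 m hm).1, hsep.1 m hm]
  exact (hw.2 m hm).2 i hi

end Cfsg.Agent.MonsterCent
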